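import Cfsg.Agent.H35.RfQ
import Cfsg.Agent.H23.RfWcT

/-! Project RF, piece VCT: commutators between `R` and `V` for the cocode module. -/

set_option autoImplicit false

namespace Cfsg.Agent.H81.RfVcT

open Cfsg Subgroup Cfsg.Agent.H18.Rf Cfsg.Agent.H35.RF Cfsg.Agent.H23.RfWcT
open Cfsg.Agent.H42 hiding cj card_cj mem_cj
open Cfsg.Agent.H83.J4 (cw rp cact cw_lt lab_aux cact_lt xor_lt11)
open scoped commutatorElement

universe u

/-- the commutator of `p` with the vector `j` lies in the span of `z` -/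
noncomputable def good (z p j : ℕ) : Bool :=
  force (Nat.xor (cact p j) j) fun d => Bool.or (Nat.beq d 0) (Nat.beq d z)

/-- the parity of the representative of `j` is the same on all tetrads -/
noncomputable def par (j : ℕ) : Bool := force (rp j) fun c => allB (fun i => allB (fun k =>
  Nat.beq (Nat.mod (pc (Nat.land c (fld 24 sext0 i))) 2)
    (Nat.mod (pc (Nat.land c (fld 24 sext0 k))) 2)) 6) 6

theorem eqns : True := by
  have := @good.eq_1
  have := @par.eq_1
  trivial

theorem good_iff {z p j : ℕ} : good z p j = true ↔ cact p j ^^^ j = 0 ∨ cact p j ^^^ j = z := by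
  rw [good, force_eq, Bool.or_eq_true, beq_iff, beq_iff]
  rfl

theorem gF_ok : ∀ g ∈ gF, inM g = true := by decide +kernel

set_option maxRecDepth 100000 in
theorem chk1 : (force (cw 8388615) fun z => allB (fun j =>
    Bool.or (!allL (fun p => Nat.beq (cact p j) j) gF) (Bool.or (Nat.beq j 0) (Nat.beq j z)))
      2048) = true := by decide +kernel

set_option maxRecDepth 100000 in
theorem chk2 : (force (cw 8388615) fun z => allB (fun j =>
    Bool.or (!allL (fun p => good z p j) gF) (par j)) 2048) = true := by decide +kernel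

theorem chk3 : orbAll (actsOf pmul gF) pid 100 (fun p => Bool.or (Nat.beq p pid)
    (force (cw 8388615) fun z => anyB (fun a => anyB (fun b =>
      Bool.and (!good z p (Nat.pow 2 a)) (Bool.and (!good z p (Nat.pow 2 b))
        (!good z p (Nat.xor (Nat.pow 2 a) (Nat.pow 2 b))))) 11) 11)) = true := by decide +kernel

variable {G : Type u} [Group G] {V : Subgroup G} {ρ : NN V →* M24} {ψ : Finset GolayPt → G}
  (S : St V ρ) (T : Tod V ρ ψ)
include S T

theorem chi_zero : ψ (toSet (rp 0)) = 1 := by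
  have := chi_mul S T (i := 0) (j := 0) (by norm_num) (by norm_num)
  rwa [Nat.xor_self, left_eq_mul] at this

theorem z_eq : ψ t0 = ψ (toSet (rp (cw 8388615))) :=
  psi_cw S T (a := 8388615) (by norm_num) (by rw [card_toSet (by norm_num)]; decide +kernel)

theorem exists_chi {v : G} (hv : v ∈ V) : ∃ j < 2048, ψ (toSet (rp j)) = v := by
  obtain ⟨c, hc, rfl⟩ := T.sur v hv
  have e := psi_cw S T (mask_lt c) (by rwa [toSet_mask])
  rw [toSet_mask] at e
  exact ⟨_, cw_lt (mask_lt c), e.symm⟩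

theorem mem_z {j : ℕ} (hj : j < 2048) :
    ψ (toSet (rp j)) ∈ zpowers (ψ t0) ↔ j = 0 ∨ j = cw 8388615 := by
  have hz : cw 8388615 < 2048 := cw_lt (by norm_num)
  constructor
  · rintro ⟨k, hk⟩
    have h2 : ψ t0 ^ (2 : ℤ) = 1 := by
      rw [zpow_two, z_eq S T]
      exact S.el _ (T.mem _ (ev_rp hz))
    have hk' : ψ t0 ^ k = ψ (toSet (rp j)) := hk
    rw [← Int.mul_ediv_add_emod k 2, zpow_add, zpow_mul, h2, one_zpow, one_mul] at hk'
    rcases Int.emod_two_eq_zero_or_one k with e | e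
    · rw [e, zpow_zero, ← chi_zero S T] at hk'
      exact .inl (chi_inj S T (by norm_num) hj hk').symm
    · rw [e, zpow_one, z_eq S T] at hk'
      exact .inr (chi_inj S T hz hj hk').symm
  · rintro (rfl | rfl)
    · rw [chi_zero S T]
      exact one_mem _
    · rw [← z_eq S T]
      exact mem_zpowers _

theorem comm_iff {n : NN V} {p j : ℕ} (hp : inM p = true) (e : ρ n = toM p) (hj : j < 2048) :
    ⁅(n : G), ψ (toSet (rp j))⁆ ∈ zpowers (ψ t0) ↔ good (cw 8388615) p j = true := by
  rw [commutatorElement_def, conj_cact S T hp e hj,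
    inv_eq_of_mul_eq_one_right (S.el _ (T.mem _ (ev_rp hj))),
    ← chi_mul S T (cact_lt hp j) hj, mem_z S T (xor_lt11 (cact_lt hp j) hj), good_iff]

omit T in
theorem lift {p : ℕ} (hp : p ∈ gF) : ∃ n : NN V, ρ n = toM p ∧ (n : G) ∈ RT V ρ := by
  obtain ⟨n, hn⟩ := S.sur (toM p)
  exact ⟨n, hn, coe_mem_pre.2 (hn ▸ toM_mem_gen hp)⟩

theorem vc [Finite G] (hWV : WT ψ ≤ V) : Vc V (ψ t0) (WT ψ) (RT V ρ) := by
  refine ⟨fun w hw h => ?_, fun v hv h => ?_, fun V₀ _ hV hc r hr h => ?_⟩
  · obtain ⟨j, hj, rfl⟩ := exists_chi S T (hWV hw)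
    have k := chk1
    rw [force_eq] at k
    have k1 := of_allB k hj
    rw [allL_iff.2 fun p hp => beq_iff.2 ?_, Bool.not_true, Bool.false_or, Bool.or_eq_true, beq_iff,
      beq_iff] at k1
    · exact (mem_z S T hj).2 k1
    obtain ⟨n, hn, hR⟩ := lift S hp
    have := conj_cact S T (gF_ok p hp) hn hj
    rw [h n hR, mul_inv_cancel_right] at this
    exact (chi_inj S T hj (cact_lt (gF_ok p hp) j) this).symm
  · obtain ⟨j, hj, rfl⟩ := exists_chi S T hv
    have k := chk2
    rw [force_eq] at k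
    have k1 := of_allB k hj
    rw [allL_iff.2 fun p hp => ?_, Bool.not_true, Bool.false_or, par, force_eq] at k1
    · refine subset_closure ⟨_, forall_famDec.2 fun a ha => forall_famDec.2 fun b hb => ?_, rfl⟩
      rw [card_toSet_inter _ (lab_aux hj).2.2.1, card_toSet_inter _ (lab_aux hj).2.2.1]
      exact beq_iff.1 (of_allB (of_allB k1 ha) hb)
    obtain ⟨n, hn, hR⟩ := lift S hp
    exact (comm_iff S T (gF_ok p hp) hn hj).1 (h n hR)
  · obtain ⟨hn, hF⟩ := mem_pre.1 hr
    obtain ⟨p, hp, e, k⟩ := forall_gen gF_ok chk3 hF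
    rw [Bool.or_eq_true, beq_iff, force_eq] at k
    rcases k with rfl | k
    · exact (S.ker ⟨r, hn⟩).1 (by rw [← e, toM_pid])
    exfalso
    obtain ⟨a, ha, k⟩ := anyB_iff.1 k
    obtain ⟨b, hb, k⟩ := anyB_iff.1 k
    simp only [Bool.and_eq_true, Bool.not_eq_true'] at k
    obtain ⟨k1, k2, k3⟩ := k
    have la : 2 ^ a < 2048 := Nat.pow_lt_pow_right (n := 11) (by norm_num) ha
    have lb : 2 ^ b < 2048 := Nat.pow_lt_pow_right (n := 11) (by norm_num) hb
    have no : ∀ j < 2048, good (cw 8388615) p j = false → ψ (toSet (rp j)) ∉ V₀ :=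
      fun j hj hg hm => by
        rw [(comm_iff S T (n := ⟨r, hn⟩) hp e.symm hj).1 (h _ hm)] at hg
        exact Bool.noConfusion hg
    have hi : (V₀.subgroupOf V).index = 2 := by
      have h1 := (V₀.subgroupOf V).index_mul_card
      rw [Nat.card_congr (subgroupOfEquivOfLe hV).toEquiv, hc] at h1
      exact Nat.eq_of_mul_eq_mul_right Nat.card_pos h1
    have h2 := (mul_mem_iff_of_index_two hi (a := ⟨_, T.mem _ (ev_rp la)⟩)
      (b := ⟨_, T.mem _ (ev_rp lb)⟩)).2 (iff_of_false (no _ la k1) (no _ lb k2))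
    refine no _ (xor_lt11 la lb) k3 ?_
    rw [chi_mul S T la lb]
    exact h2

omit S T in
theorem vcT (hA : VaTStmt.{u}) : VcTStmt.{u} := fun G _ _ V ρ ψ ω h =>
  vc h.st h.tod (hA G V ρ ψ ω h).WV

end Cfsg.Agent.H81.RfVcT
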