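import Mathlib
import Cfsg.Agent.H41.S6Kit2

/-!
# Pieces `M0`, `IIa`, `W0` for an involution with centralizer `2 × Sp₆(2)`
-/

set_option autoImplicit false
set_option maxRecDepth 100000
set_option synthInstance.maxSize 4096
set_option synthInstance.maxHeartbeats 200000

namespace Cfsg.Agent.H81.S6II

open Cfsg Subgroup
open Cfsg.Agent.H44 Cfsg.Agent.H55.Sp6 Cfsg.Agent.H2.L3E Cfsg.Agent.H41.S6

universe u

variable {G : Type u} [Group G] {ι : Sp →* G} {t : G}

/-! ### words -/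

theorem w23_a12 : w23 * a12 * w23⁻¹ = a13 := by
  rw [mul_inv_eq_iff_eq_mul]
  simp only [w23, a12, a13, sg, ← ev_append]
  exact weq (by decide +kernel)

theorem w23_r12 : w23 * r12 * w23⁻¹ = r13 := by
  rw [mul_inv_eq_iff_eq_mul]
  simp only [w23, r12, r13, sg, ← ev_append]
  exact weq (by decide +kernel)

theorem rho_a13 : rho * a13 * rho⁻¹ = r13 := by
  rw [mul_inv_eq_iff_eq_mul]
  simp only [rho, a13, r13, sg, ← ev_append]
  exact weq (by decide +kernel)

theorem rho_17 : rho * (a13 * r13) * rho⁻¹ = ac 17 := by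
  rw [mul_inv_eq_iff_eq_mul]
  simp only [rho, a13, r13, sg, ac, ← ev_append]
  exact weq (by decide +kernel)

theorem a12_ne : a12 ≠ 1 := by
  rw [a12_ac, ← ac_zero]
  exact fun e => absurd (ac_inj (by norm_num) (by norm_num) e) (by norm_num)

/-- translation of a conjugate -/
theorem tr_conj (h : Hy ι t) {m : G} {γ : Sp} (e : m * t * m⁻¹ = t * ι γ) (p : Sp) :
    ι p * m * (ι p)⁻¹ * t * (ι p * m * (ι p)⁻¹)⁻¹ = t * ι (p * γ * p⁻¹) := by
  have e1 : (ι p)⁻¹ * t * ι p = t := by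
    have := h.conj_t p⁻¹
    simpa only [map_inv, inv_inv] using this
  calc ι p * m * (ι p)⁻¹ * t * (ι p * m * (ι p)⁻¹)⁻¹
      = ι p * (m * ((ι p)⁻¹ * t * ι p) * m⁻¹) * (ι p)⁻¹ := by group
    _ = t * ι (p * γ * p⁻¹) := by rw [e1, e, h.conj_tl]

theorem comm_conj {m : G} {p a : Sp} (e : m * ι (p⁻¹ * a * p) = ι (p⁻¹ * a * p) * m) :
    ι p * m * (ι p)⁻¹ * ι a = ι a * (ι p * m * (ι p)⁻¹) := by
  simp only [map_mul, map_inv] at e
  calc ι p * m * (ι p)⁻¹ * ι a = ι p * (m * ((ι p)⁻¹ * ι a * ι p)) * (ι p)⁻¹ := by group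
    _ = ι a * (ι p * m * (ι p)⁻¹) := by rw [e]; group

/-! ### `IIa` -/

theorem iia : IIaStmt.{u} := by
  intro _ G _ _ ι t h hII s hs
  set s' := ι w23 * s * (ι w23)⁻¹ with hs'
  have e1 : s' * t * s'⁻¹ = t * ι a13 := by rw [hs', tr_conj h hs.tr, w23_a12]
  have e2 := tr_conj h e1 rho
  rw [rho_a13] at e2
  have e3 : s' * ι r13 = ι r13 * s' := by
    apply comm_conj
    have : w23⁻¹ * r13 * w23 = r12 := by rw [← w23_r12]; group
    rw [this]
    have := hs.r
    simp only [Bool.false_eq_true, if_false] at this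
    exact mul_inv_eq_iff_eq_mul.mp this
  have e4 : s' * (t * ι r13) * s'⁻¹ = t * ι (a13 * r13) := by
    calc s' * (t * ι r13) * s'⁻¹ = s' * t * s'⁻¹ * (s' * ι r13) * s'⁻¹ := by group
      _ = t * ι (a13 * r13) := by rw [e1, e3, map_mul]; group
  have e5 := h.conj_tl rho (a13 * r13)
  rw [rho_17] at e5
  have c : IsConj t (t * ι (ac 17)) :=
    ((isConj_iff.mpr ⟨_, e2⟩).trans (isConj_iff.mpr ⟨_, e4⟩)).trans (isConj_iff.mpr ⟨_, e5⟩)
  have := (ac_mem_Lam (c := 17) (by norm_num)).mp ((hII _ (ac_mem (by norm_num))).mp c)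
  norm_num at this

/-! ### `W0` -/

theorem bf8 : ∀ u < 8, ∀ v < 8, bf u v = 0 := by decide +kernel

theorem w0 : W0Stmt.{u} := by
  intro _ G _ _ ι t h w hw
  have hS : MW ι w = Subgroup.closure ((A.map ι : Set G) ∪ {x | ∃ u < 8, x = w u}) := by
    rw [Subgroup.closure_union, Subgroup.closure_eq, MW]
  have wm : ∀ u < 8, w u ∈ MW ι w := fun u hu =>
    Subgroup.mem_sup_right (Subgroup.subset_closure ⟨u, hu, rfl⟩)
  -- the generators are central
  have cen : ∀ x ∈ (A.map ι : Set G) ∪ {x | ∃ u < 8, x = w u}, ∀ m ∈ MW ι w, x * m = m * x := by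
    intro x hx m hm
    rcases hx with ⟨a, ha, rfl⟩ | ⟨u, hu, rfl⟩
    · exact ((hw.mtr m hm).1 a ha).symm
    · rw [hS] at hm
      have : Subgroup.closure ((A.map ι : Set G) ∪ {x | ∃ u < 8, x = w u}) ≤
          centralizer {w u} := by
        rw [Subgroup.closure_le]
        rintro y (⟨a, ha, rfl⟩ | ⟨v, hv, rfl⟩)
        · exact mem_centralizer_singleton_iff.mpr ((hw.mtr _ (wm u hu)).1 a ha).symm
        · refine mem_centralizer_singleton_iff.mpr ?_
          have := hw.cm v (by omega) u (by omega) (bf8 v hv u hu)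
          simpa using this
      exact (mem_centralizer_singleton_iff.mp (this hm)).symm
  refine ⟨fun m hm => ?_, le_sup_left, fun p hp m hm => ?_, fun m hm => (hw.mtr m hm).2,
    hw.sur, hw.ker⟩
  · rw [hS] at hm
    refine Subgroup.closure_induction_left (p := fun m _ => m * m = 1) (by simp) ?_ ?_ hm
    · intro x hx y hy ih
      have hx2 : x * x = 1 := by
        rcases hx with ⟨a, ha, rfl⟩ | ⟨u, hu, rfl⟩
        · rw [← map_mul, A_sq ha, map_one]
        · simpa using hw.sq u (by omega)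
      have c := cen x hx y (hS ▸ hy)
      calc x * y * (x * y) = x * (y * x) * y := by group
        _ = x * x * (y * y) := by rw [← c]; group
        _ = 1 := by rw [hx2, ih, one_mul]
    · intro x hx y hy ih
      have hx2 : x * x = 1 := by
        rcases hx with ⟨a, ha, rfl⟩ | ⟨u, hu, rfl⟩
        · rw [← map_mul, A_sq ha, map_one]
        · simpa using hw.sq u (by omega)
      have c := cen x hx y (hS ▸ hy)
      rw [inv_eq_of_mul_eq_one_right hx2]
      calc x * y * (x * y) = x * (y * x) * y := by group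
        _ = x * x * (y * y) := by rw [← c]; group
        _ = 1 := by rw [hx2, ih, one_mul]
  · have : MW ι w ≤ (MW ι w).comap (MulAut.conj (ι p)).toMonoidHom := by
      conv_lhs => rw [hS]
      rw [Subgroup.closure_le]
      rintro y (⟨a, ha, rfl⟩ | ⟨v, hv, rfl⟩)
      · show ι p * ι a * (ι p)⁻¹ ∈ MW ι w
        rw [← map_inv, ← map_mul, ← map_mul]
        exact Subgroup.mem_sup_left ⟨_, P3_conj_A hp ha, rfl⟩
      · show ι p * w v * (ι p)⁻¹ ∈ MW ι w
        rw [hw.eqv p v (by omega)]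
        exact wm _ (P3_lt hp hv)
    exact this hm

/-! ### `M0` -/

/-- the elements of the group `M₀` -/
structure QM (ι : Sp →* G) (t m : G) : Prop where
  cA : ∀ a ∈ A, m * ι a = ι a * m
  sq : m * m = 1
  tr : ∃ γ ∈ Lam, m * t * m⁻¹ = t * ι γ
  ker : m * t = t * m → m ∈ A.map ι

theorem QM.conj (h : Hy ι t) {m : G} (hm : QM ι t m) {p : Sp} (hp : p ∈ P3) :
    QM ι t (ι p * m * (ι p)⁻¹) := by
  refine ⟨fun a ha => comm_conj (hm.cA _ ?_), ?_, ?_, fun e => ?_⟩
  · simpa using P3_conj_A (inv_mem hp) ha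
  · calc ι p * m * (ι p)⁻¹ * (ι p * m * (ι p)⁻¹) = ι p * (m * m) * (ι p)⁻¹ := by group
      _ = 1 := by rw [hm.sq]; group
  · obtain ⟨γ, hγ, e⟩ := hm.tr
    exact ⟨_, P3_conj_Lam hp hγ, tr_conj h e p⟩
  · have e1 : m * t = t * m := by
      have c := h.ct p
      calc m * t = (ι p)⁻¹ * (ι p * m * (ι p)⁻¹ * (ι p * t)) := by group
        _ = (ι p)⁻¹ * ((ι p * m * (ι p)⁻¹ * t) * ι p) := by rw [← c]; group
        _ = (ι p)⁻¹ * (t * ι p) * m := by rw [e]; group
        _ = t * m := by rw [c]; group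
    obtain ⟨a, ha, rfl⟩ := hm.ker e1
    exact ⟨_, P3_conj_A hp ha, by simp⟩

theorem QM.of_A (h : Hy ι t) {a : Sp} (ha : a ∈ A) : QM ι t (ι a) := by
  refine ⟨fun b hb => by rw [← map_mul, ← map_mul, A_comm ha hb],
    by rw [← map_mul, A_sq ha, map_one], ⟨1, one_mem _, by rw [h.conj_t]; simp⟩,
    fun _ => ⟨a, ha, rfl⟩⟩

theorem QM.of_s (h : Hy ι t) {s : G} {al : Bool} (hs : Sv ι t s al) : QM ι t s := by
  refine ⟨hs.cA, hs.ss, ⟨a12, a12_Lam, hs.tr⟩, fun e => ?_⟩
  exfalso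
  have e1 := hs.tr
  rw [e, mul_inv_cancel_right] at e1
  have : ι a12 = ι 1 := by rw [map_one]; exact (left_eq_mul.mp e1)
  exact a12_ne (h.inj this)

/-- elements with the same translation differ by `A` -/
theorem QM.same (h : Hy ι t) {m m' : G} (hm : QM ι t m) (hm' : QM ι t m')
    (e : m * t * m⁻¹ = m' * t * m'⁻¹) : ∃ a ∈ A, m' = m * ι a := by
  have hE : m⁻¹ * m' ∈ E3 ι t := by
    refine h.cen_E3 ?_ fun a ha => ?_
    · calc m⁻¹ * m' * t = m⁻¹ * (m' * t * m'⁻¹) * m' := by group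
        _ = t * (m⁻¹ * m') := by rw [← e]; group
    · have c1 := hm.cA a (Lam_le_A ha)
      have c2 := hm'.cA a (Lam_le_A ha)
      calc m⁻¹ * m' * ι a = m⁻¹ * (ι a * m) * m⁻¹ * m' := by rw [mul_assoc, c2]; group
        _ = ι a * (m⁻¹ * m') := by rw [← c1]; group
  obtain ⟨a, ha, e1 | e1⟩ := h.mem_E3.mp hE
  · exact ⟨a, ha, by rw [← e1]; group⟩
  · exfalso
    have e2 : m' = m * (t * ι a) := by rw [← e1]; group
    have a2 : ι a * ι a = 1 := by rw [← map_mul, A_sq ha, map_one]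
    have c := hm.cA a ha
    have ct := h.ct a
    have e3 : m * t * (m * t) = 1 := by
      have := hm'.sq
      rw [e2] at this
      calc m * t * (m * t) = m * t * (m * t) * (ι a * ι a) := by rw [a2, mul_one]
        _ = m * t * (m * (t * ι a)) * ι a := by group
        _ = m * t * (m * (ι a * t)) * ι a := by rw [ct]
        _ = m * t * (m * ι a) * (t * ι a) := by group
        _ = m * (t * ι a) * (m * (t * ι a)) := by rw [c]; group
        _ = 1 := this
    have e4 : m * t = t * m := by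
      have := inv_eq_of_mul_eq_one_right e3
      rw [mul_inv_rev, h.tinv, inv_eq_of_mul_eq_one_right hm.sq] at this
      exact this.symm
    have e5 : m' * t = t * m' := by
      have : m' * t * m'⁻¹ = t := by rw [← e, e4]; group
      exact mul_inv_eq_iff_eq_mul.mp this
    obtain ⟨b, hb, rfl⟩ := hm.ker e4
    obtain ⟨b', hb', e6⟩ := hm'.ker e5
    apply h.ne_t (b⁻¹ * b') a
    rw [map_mul, map_inv, e6, e1]

theorem ind_ex : ∀ x < 8, ∀ y < 8, x ≠ 0 → y ≠ 0 → x ≠ y → ∃ z < 8, Ind x y z := by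
  decide +kernel

theorem ind_ex1 : ∀ x < 8, x ≠ 0 → ∃ y < 8, ∃ z < 8, Ind x y z := by
  decide +kernel

theorem QM.comm (h : Hy ι t) {s : G} (hs : Sv ι t s true) (hd : Duad ι s) {m m' : G}
    (hm : QM ι t m) (hm' : QM ι t m') : m * m' = m' * m := by
  obtain ⟨γ, hγ, e⟩ := hm.tr
  obtain ⟨γ', hγ', e'⟩ := hm'.tr
  obtain ⟨x, hx, rfl⟩ := Lam_par.mp hγ
  obtain ⟨y, hy, rfl⟩ := Lam_par.mp hγ'
  by_cases x0 : x = 0
  · subst x0
    rw [mul_zero, ac_zero, map_one, mul_one] at e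
    obtain ⟨a, ha, rfl⟩ := hm.ker (mul_inv_eq_iff_eq_mul.mp e)
    exact (hm'.cA a ha).symm
  by_cases y0 : y = 0
  · subst y0
    rw [mul_zero, ac_zero, map_one, mul_one] at e'
    obtain ⟨a, ha, rfl⟩ := hm'.ker (mul_inv_eq_iff_eq_mul.mp e')
    exact hm.cA a ha
  by_cases xy : x = y
  · subst xy
    obtain ⟨a, ha, rfl⟩ := hm.same h hm' (e.trans e'.symm)
    rw [mul_assoc, ← hm.cA a ha]
  obtain ⟨z, -, hz⟩ := ind_ex x hx y hy x0 y0 xy
  obtain ⟨p, hp, p1, p2, -⟩ := glL hz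
  have q1 := (QM.of_s h hs).conj h hp
  have q2 := ((QM.of_s h hs).conj h w23_P3).conj h hp
  have t1 := tr_conj h hs.tr p
  have t2 := tr_conj h (tr_conj h hs.tr w23) p
  rw [p1] at t1
  rw [w23_a12, p2] at t2
  obtain ⟨a, ha, e1⟩ := q1.same h hm (t1.trans e.symm)
  obtain ⟨a', ha', e2⟩ := q2.same h hm' (t2.trans e'.symm)
  have c0 : Commute (ι p * s * (ι p)⁻¹) (ι p * (ι w23 * s * (ι w23)⁻¹) * (ι p)⁻¹) := by
    have hd' : Commute s (ι w23 * s * (ι w23)⁻¹) := hd
    simpa using hd'.map (MulAut.conj (ι p))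
  have c1 : Commute (ι p * s * (ι p)⁻¹) (ι a') := q1.cA a' ha'
  have c2 : Commute (ι a) m' := (hm'.cA a ha).symm
  have c3 : Commute (ι p * s * (ι p)⁻¹) m' := by rw [e2]; exact c0.mul_right c1
  rw [e1]
  exact (c3.mul_left c2).eq

theorem QM.mul (h : Hy ι t) {s : G} (hs : Sv ι t s true) (hd : Duad ι s) {m m' : G}
    (hm : QM ι t m) (hm' : QM ι t m') : QM ι t (m * m') := by
  have c := hm.comm h hs hd hm'
  refine ⟨fun a ha => ?_, ?_, ?_, fun e => ?_⟩
  · rw [mul_assoc, hm'.cA a ha, ← mul_assoc, hm.cA a ha, mul_assoc]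
  · calc m * m' * (m * m') = m * (m' * m) * m' := by group
      _ = m * m * (m' * m') := by rw [← c]; group
      _ = 1 := by rw [hm.sq, hm'.sq, one_mul]
  · obtain ⟨γ, hγ, e⟩ := hm.tr
    obtain ⟨γ', hγ', e'⟩ := hm'.tr
    refine ⟨γ * γ', mul_mem hγ hγ', ?_⟩
    calc m * m' * t * (m * m')⁻¹ = m * (m' * t * m'⁻¹) * m⁻¹ := by group
      _ = m * t * m⁻¹ * (m * ι γ') * m⁻¹ := by rw [e']; group
      _ = t * ι (γ * γ') := by rw [e, hm.cA _ (Lam_le_A hγ'), map_mul]; group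
  · have mi := inv_eq_of_mul_eq_one_right hm.sq
    have e1 : m * t * m⁻¹ = m' * t * m'⁻¹ := by
      calc m * t * m⁻¹ = m⁻¹ * (t * (m * m')) * m'⁻¹ := by
            conv_lhs => rw [← mi, inv_inv]
            rw [mi]; group
        _ = m' * t * m'⁻¹ := by rw [← e]; group
    obtain ⟨a, ha, rfl⟩ := hm.same h hm' e1
    exact ⟨a, ha, by rw [← mul_assoc, hm.sq, one_mul]⟩

theorem m0 : M0Stmt.{u} := by
  intro _ G _ _ ι t h s hs hd
  let M : Subgroup G :=
    { carrier := {m | QM ι t m}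
      mul_mem' := fun hm hm' => QM.mul h hs hd hm hm'
      one_mem' := by simpa using QM.of_A h (one_mem A)
      inv_mem' := fun {m} hm => by
        have hm' : QM ι t m := hm
        rw [inv_eq_of_mul_eq_one_right hm'.sq]; exact hm }
  refine ⟨M, fun m hm => QM.sq hm, ?_, fun p hp m hm => QM.conj h hm hp, fun m hm => QM.tr hm,
    fun γ hγ => ?_, fun m hm => QM.ker hm⟩
  · rintro _ ⟨a, ha, rfl⟩
    exact QM.of_A h ha
  · obtain ⟨x, hx, rfl⟩ := Lam_par.mp hγ
    by_cases x0 : x = 0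
    · subst x0
      exact ⟨1, one_mem _, by simp [ac_zero]⟩
    obtain ⟨y, -, z, -, hz⟩ := ind_ex1 x hx x0
    obtain ⟨p, hp, p1, -, -⟩ := glL hz
    refine ⟨_, (QM.of_s h hs).conj h hp, ?_⟩
    rw [tr_conj h hs.tr p, p1]

end Cfsg.Agent.H81.S6II
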