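import Cfsg.Agent.H74.UVDefs
import Cfsg.Agent.H12.Central

/-! Project UV, piece LDIV: a prime divisor of `q⁴ + q³ + q² + q + 1` divides the order. -/

set_option autoImplicit false

namespace Cfsg.Agent.H81.UvLdiv

open Cfsg Module Cfsg.Agent.H74.UV Cfsg.Agent.H77.Sg

universe u

theorem not25 (q : ℕ) : ¬ 25 ∣ q ^ 4 + q ^ 3 + q ^ 2 + q + 1 := by
  intro h
  have h1 : ((q ^ 4 + q ^ 3 + q ^ 2 + q + 1 : ℕ) : ZMod 25) = 0 :=
    (ZMod.natCast_eq_zero_iff _ _).2 h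
  push_cast at h1
  revert h1
  generalize (q : ZMod 25) = x
  revert x
  decide

theorem ex_prime {q : ℕ} (hq : 2 ≤ q) :
    ∃ l : ℕ, l.Prime ∧ l ≠ 5 ∧ l ∣ q ^ 4 + q ^ 3 + q ^ 2 + q + 1 := by
  by_contra hc
  have h1 := Nat.eq_prime_pow_of_unique_prime_dvd (n := q ^ 4 + q ^ 3 + q ^ 2 + q + 1) (p := 5)
    (by omega) fun {d} hd hdv => by
      by_contra hne
      exact hc ⟨d, hd, hne, hdv⟩
  generalize (q ^ 4 + q ^ 3 + q ^ 2 + q + 1).primeFactorsList.length = k at h1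
  have h2 : 2 ^ 4 ≤ q ^ 4 := Nat.pow_le_pow_left hq 4
  rcases k with _ | _ | k
  · omega
  · omega
  · exact not25 q (h1 ▸ ⟨5 ^ k, by ring⟩)

theorem ldiv : LdivStmt.{u} := by
  intro E K _ _ _ _ _ σ B q R t G hC hZ hI
  haveI : Finite (K ≃ₗ[E] K) := Finite.of_injective _ DFunLike.coe_injective
  refine ⟨fun a ha => ?_, ?_⟩
  · obtain ⟨z, hz, e⟩ := hC.Ez a ha
    refine ⟨mulH E K z, (hC.mem z).2 ⟨z, hz, 1, one_mem _, (mul_one z).symm⟩, fun u => ?_⟩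
    change (z : K) * u = a • u
    rw [e, Algebra.smul_def]
  obtain ⟨l, hl, h5, hd⟩ := ex_prime hC.q2
  refine ⟨l, hl, h5, hd, hd.trans ?_⟩
  have h1 : (q : ℤ) ^ 11 + 1 = R * (q + 1) * t := by exact_mod_cast hC.card
  have h2 : ((R * t : ℕ) : ℤ) - 1 =
      (q ^ 4 + q ^ 3 + q ^ 2 + q + 1) * (q * (q - 1) * (q ^ 4 - q ^ 3 + q ^ 2 - q + 1)) := by
    refine mul_left_cancel₀ (show (q : ℤ) + 1 ≠ 0 by positivity) ?_
    push_cast
    linear_combination -h1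
  have h3 : 1 ≤ R * t := by
    refine Nat.one_le_iff_ne_zero.2 fun h0 => ?_
    have := hC.card
    rw [mul_right_comm, h0] at this
    omega
  have h4 : R * t - 1 ∣ Nat.card G := by
    refine H12.irr_degree_dvd_card hI ?_
    change ze q (1 : Ch K q) (1 : K ≃ₗ[E] K) = _
    rw [hZ.deg, Nat.cast_sub h3, dl, if_pos rfl, Nat.cast_one]
  refine Dvd.dvd.trans ?_ h4
  rw [← Int.natCast_dvd_natCast, Nat.cast_sub h3, Nat.cast_one, h2]
  push_cast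
  exact Dvd.intro _ rfl

end Cfsg.Agent.H81.UvLdiv
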