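import Cfsg.Agent.H63.AnDefs2
import Cfsg.Agent.H19.KdInv

/-! Project AN, piece AUT: automorphisms of the alternating group on a finite set. -/

set_option autoImplicit false

namespace Cfsg.Agent.H81.AnAut

open Equiv Equiv.Perm Cfsg.Agent.H78 Cfsg.Agent.H63.AN

variable {α : Type} [Fintype α] [DecidableEq α]

/-- extension by the identity -/
def ext (S : Finset α) : alternatingGroup {x // x ∈ S} →* altOn S :=
  ((ofSubtype (p := fun x => x ∈ S)).comp (alternatingGroup _).subtype).codRestrict _ fun g =>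
    mem_altOn.2 ⟨fun x hx => ofSubtype_apply_of_not_mem _ hx, by
      show sign (ofSubtype (g : Perm {x // x ∈ S})) = 1
      rw [sign_ofSubtype]; exact g.2⟩

theorem ext_coe (S : Finset α) (g : alternatingGroup {x // x ∈ S}) :
    (ext S g : Perm α) = ofSubtype (g : Perm {x // x ∈ S}) := rfl

theorem ext_bij (S : Finset α) : Function.Bijective (ext S) := by
  refine ⟨fun a b e => Subtype.ext (Equiv.ext fun x => Subtype.ext ?_), fun σ => ?_⟩
  · have := congrArg (fun t : altOn S => (t : Perm α) x) e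
    simpa only [ext_coe, ofSubtype_apply_coe] using this
  · obtain ⟨h1, h2⟩ := mem_altOn.1 σ.2
    have hs : (σ : Perm α) ∈ symOn S := mem_symOn.2 h1
    have k : ∀ x, (σ : Perm α) x ∈ S ↔ x ∈ S := fun x =>
      ⟨fun h => by
        by_contra n
        rw [h1 x n] at h
        exact n h, fun h => symOn_apply_mem hs h⟩
    have e : ofSubtype ((σ : Perm α).subtypePerm k) = σ :=
      ofSubtype_subtypePerm k fun x hx => by
        by_contra n
        exact hx (h1 x n)
    refine ⟨⟨(σ : Perm α).subtypePerm k, ?_⟩, Subtype.ext e⟩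
    rw [mem_alternatingGroup, ← sign_ofSubtype, e]
    exact h2

theorem six {β : Type} [Fintype β] [DecidableEq β] (h6 : Fintype.card β = 6) {τ : Perm β}
    (o : orderOf τ = 3) (n : ¬ τ.IsThreeCycle) : τ.support.card = 6 := by
  obtain ⟨m, hm⟩ := cycleType_prime_order (σ := τ) (by rw [o]; exact Nat.prime_three)
  have s := sum_cycleType τ
  have l : τ.support.card ≤ 6 := h6 ▸ Finset.card_le_univ _
  rw [hm, o, Multiset.sum_replicate, smul_eq_mul] at s
  rcases m with _ | m
  · exact absurd (by rw [IsThreeCycle, hm, o]; rfl) n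
  · omega

theorem aut : AutStmt := by
  intro α _ _ S φ hφ h5 hr
  let E : alternatingGroup {x // x ∈ S} ≃* altOn S := MulEquiv.ofBijective _ (ext_bij S)
  let F : altOn S ≃* altOn S := (MonoidHom.ofInjective hφ).trans (MulEquiv.subgroupCongr hr)
  let ψ : MulAut (alternatingGroup {x // x ∈ S}) := E.trans (F.trans E.symm)
  have hE : ∀ g, (E g : Perm α) = ofSubtype (g : Perm {x // x ∈ S}) := fun g => rfl
  have key : ∀ g, φ (E g) = ofSubtype (ψ g : Perm {x // x ∈ S}) := fun g => by
    rw [← hE]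
    show _ = ((E (E.symm (F (E g))) : altOn S) : Perm α)
    rw [E.apply_symm_apply]
    rfl
  have hc : Fintype.card {x // x ∈ S} = S.card := Fintype.card_coe S
  have fin : (∃ ρ : Perm {x // x ∈ S}, ∀ g : alternatingGroup {x // x ∈ S},
      ((ψ g : alternatingGroup _) : Perm {x // x ∈ S}) = ρ * g * ρ⁻¹) →
      ∃ ρ ∈ symOn S, ∀ σ : altOn S, φ σ = ρ * σ * ρ⁻¹ := by
    rintro ⟨ρ, hρ⟩
    refine ⟨ofSubtype ρ, mem_symOn.2 fun x hx => ofSubtype_apply_of_not_mem _ hx, fun σ => ?_⟩
    obtain ⟨g, rfl⟩ := E.surjective σ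
    rw [key, hρ, map_mul, map_mul, map_inv, hE]
  by_cases h6 : S.card = 6
  · by_cases ex : ∃ g : alternatingGroup {x // x ∈ S}, IsThreeCycle (g : Perm {x // x ∈ S}) ∧
        IsThreeCycle ((ψ g : alternatingGroup _) : Perm {x // x ∈ S})
    · obtain ⟨g, g1, g2⟩ := ex
      refine Or.inl (fin (H19.Kd.exists_conj3 (by omega) ψ fun k hk => ?_))
      obtain ⟨c, rfl⟩ := isConj_iff.1 (alternatingGroup.isThreeCycle_isConj
        (by rw [Nat.card_eq_fintype_card]; omega) g1 hk)
      rw [map_mul, map_mul, map_inv, Subgroup.coe_mul, Subgroup.coe_mul, Subgroup.coe_inv,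
        IsThreeCycle, cycleType_conj]
      exact g2
    · refine Or.inr ⟨h6, fun σ hσ => ?_⟩
      obtain ⟨g, rfl⟩ := E.surjective σ
      have g1 : IsThreeCycle (g : Perm {x // x ∈ S}) := by
        rw [hE, IsThreeCycle, cycleType_ofSubtype] at hσ
        exact hσ
      rw [key, support_ofSubtype, Finset.card_map]
      have := six (τ := (ψ g : alternatingGroup {x // x ∈ S})) (hc.trans h6)
        (by rw [Subgroup.orderOf_coe, ψ.orderOf_eq, ← Subgroup.orderOf_coe, g1.orderOf])
        fun n => ex ⟨g, g1, n⟩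
      convert this
  · exact Or.inl (fin (H95.AutAlt.exists_conj (by omega) (by omega) ψ))

end Cfsg.Agent.H81.AnAut
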