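import Cfsg.Agent.H81.EmKit

/-!
Consequences of the setup.
-/

set_option autoImplicit false

namespace Cfsg.Agent.H81.Em

open Subgroup Cfsg.Agent.H62
open scoped commutatorElement

universe u

variable {G : Type u} [Group G]

namespace Kit

variable {a t r z g h : G} (k : Kit a t r z g h)
include k

theorem ti : t⁻¹ = t := inv_eq_of_sq k.tt

theorem zz : z * z = 1 := by rw [k.hz, ← pow_add, k.a8]

theorem zi : z⁻¹ = z := inv_eq_of_sq k.zz

theorem rr : r * r = 1 := k.hr ▸ cj_sq a k.tt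

theorem ri : r⁻¹ = r := inv_eq_of_sq k.rr

theorem tpow (n : ℕ) : t * a ^ n * t = a ^ (3 * n) := by
  rw [pow_mul, ← k.ta]
  conv_lhs => rw [← k.ti]
  conv_rhs => rw [show t * a * t = t⁻¹ * a * t⁻¹⁻¹ by rw [inv_inv, k.ti], conj_pow]
  rw [inv_inv, k.ti]

theorem zt : z * t = t * z := by
  have := k.tpow 4
  rw [show 3 * 4 = 8 + 4 from rfl, pow_add, k.a8, one_mul, ← k.hz] at this
  calc z * t = t * (t * z * t) := by simp only [mul_assoc, rl k.tt, one_mul]
    _ = _ := by rw [this]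

theorem az : a * z = z * a := by rw [k.hz, ← pow_succ, ← pow_succ']

theorem tr : t * r = a ^ 2 := by
  rw [k.hr, ← mul_assoc, ← mul_assoc, k.ta]; group

theorem zr : z * r = r * z := by
  have := cj_comm (c := a) k.zt
  rwa [fix_of_comm k.az, ← k.hr] at this

theorem rtr : r * t * r = t * z := by
  calc _ = t * (t * r * (t * r)) := by simp only [mul_assoc, rl k.tt, one_mul]
    _ = _ := by rw [k.tr, ← pow_add, ← k.hz]

theorem rzr : r * z * r = z := by rw [← k.zr, mul_assoc, k.rr, mul_one]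

theorem tztz : t * z * (t * z) = 1 := by
  simp only [mul_assoc, rl k.zt, rl k.tt, k.zz, one_mul]

theorem h3 : h ^ 3 = 1 := by
  rw [k.hh]
  nth_rewrite 2 [← k.ri]
  rw [conj_pow, k.g3]; group

theorem rcj (x : G) : r * (g * x * g⁻¹) * r = h * (r * x * r) * h⁻¹ := by
  simp only [k.hh, mul_inv_rev, k.ri, mul_assoc, rl k.rr, one_mul]

theorem rcj' (x : G) : r * (g⁻¹ * x * g) * r = h⁻¹ * (r * x * r) * h := by
  simp only [k.hh, mul_inv_rev, k.ri, mul_assoc, rl k.rr, one_mul]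

theorem zcj (x : G) : z * (g * x * g⁻¹) * z = g⁻¹ * (z * x * z) * g := by
  calc _ = z * g * z * (z * x * z) * (z * g * z)⁻¹ := by
        simp only [mul_inv_rev, k.zi, mul_assoc, rl k.zz, one_mul]
    _ = _ := by rw [k.zg, inv_inv]

theorem th : t * z * h = h * (t * z) := by
  rw [← k.rtr, k.hh]
  simp only [mul_assoc, rl k.rr, one_mul, rl k.tg]

theorem c4 {y x : G} (y3 : y ^ 3 = 1) (y1 : y ≠ 1) (c : x * y = y * x) (hx : Two x) :
    x * x = 1 := by
  have := k.c6 y x y3 y1 c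
  exact (hx.mul hx rfl).cube (by rw [← this, ← pow_two, ← pow_mul])

theorem uniq {y x w : G} (y3 : y ^ 3 = 1) (y1 : y ≠ 1) (xx : x * x = 1) (x1 : x ≠ 1)
    (ww : w * w = 1) (w1 : w ≠ 1) (c : x * y = y * x) (c' : w * y = y * w) (e : x * w = w * x) :
    x = w := by
  have := ((two_of_sq xx).mul (two_of_sq ww) e).cube (k.inv2 y x w y3 y1 xx x1 ww w1 c c')
  rw [eq_inv_of_mul_eq_one_left this, inv_eq_of_sq ww]

theorem cen2 {y s x : G} (y3 : y ^ 3 = 1) (y1 : y ≠ 1) (ss : s * s = 1) (s1 : s ≠ 1)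
    (c : s * y = y * s) (hx : Two x) (c1 : x * y = y * x) (c2 : x * s = s * x) :
    x ∈ zpowers s := by
  rw [mem_zp ss, or_iff_not_imp_left]
  exact fun x1 => k.uniq y3 y1 (k.c4 y3 y1 c1 hx) x1 ss s1 c1 c c2

theorem o3 [Finite G] {p : G} (hp : 3 ∣ orderOf p) : (p ^ 4) ^ 3 = 1 ∧ p ^ 4 ≠ 1 := by
  have h0 := (orderOf_pos p).ne'
  have h1 := orderOf_pow_orderOf_div h0 hp
  have h2 := k.c6 (p ^ (orderOf p / 3)) p (orderOf_dvd_iff_pow_eq_one.1 h1.dvd)
    (fun e => by rw [e, orderOf_one] at h1; omega) ((Commute.refl p).pow_right _)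
  refine ⟨by rw [← pow_mul, show 4 * 3 = 6 * 2 from rfl, pow_mul, h2, one_pow], fun e => ?_⟩
  have := hp.trans (orderOf_dvd_of_pow_eq_one e)
  omega

/-- The action on a 2-subgroup of the centralizer of an involution. -/
theorem fp {D : Subgroup G} {s y : G} (ss : s * s = 1) (s1 : s ≠ 1) (y3 : y ^ 3 = 1) (y1 : y ≠ 1)
    (c : y * s = s * y) (sD : s ∈ D) (le : ∀ x ∈ D, x * s = s * x) (two : ∀ x ∈ D, Two x)
    (yD : ∀ x ∈ D, y * x * y⁻¹ ∈ D) : FP D (zpowers s) y := by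
  have n : ∀ x, x * s = s * x → ∀ w ∈ zpowers s, x * w * x⁻¹ ∈ zpowers s := fun x e w hw => by
    rcases (mem_zp ss).1 hw with rfl | rfl
    · simp
    · rw [fix_of_comm e]; exact hw
  exact FP.of_ea (zpowers_le.2 sD) (ea_zpowers ss) (fun x hx => n x (le x hx)) yD (n y c) y3
    fun x hx e => k.cen2 y3 y1 ss s1 c.symm (two x hx) e (le x hx)

theorem lam {b : G} (bb : b * b = 1) (tb : t * b = b * t) (zb : z * b = b * z)
    (n1 : b * (g * b * g⁻¹) * (g⁻¹ * b * g) = 1) (n2 : b * (h * b * h⁻¹) * (h⁻¹ * b * h) = 1)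
    (c : t * z * (h * b * h⁻¹) * (g * b * g⁻¹) = g * b * g⁻¹ * (t * z * (h * b * h⁻¹))) :
    b = 1 := by
  by_contra b1
  have cm : ∀ x : G, b * (x * b * x⁻¹) * (x⁻¹ * b * x) = 1 → Commute b (x * b * x⁻¹) := fun x e =>
    comm_of_sq bb (cj_sq x bb) (by
      rw [eq_inv_of_mul_eq_one_left e, ← mul_inv_rev, inv_eq_one]
      simpa only [inv_inv] using cj_sq x⁻¹ bb)
  set l := t * z * (h * b * h⁻¹) with hl
  have c0 : Commute (g * b * g⁻¹) l := c.symm
  have c1 : Commute b l := (Commute.mul_right tb.symm zb.symm).mul_right (cm h n2)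
  have e1 : g⁻¹ * b * g = (b * (g * b * g⁻¹))⁻¹ := eq_inv_of_mul_eq_one_right n1
  have c2 : Commute (g * b * g⁻¹) (g * l * g⁻¹) := cj_comm c1
  have c3 : Commute (g⁻¹ * b * g) (g * l * g⁻¹) := cj2 k.g3 b ▸ cj_comm c0
  have c4 : Commute b (g * l * g⁻¹) := by
    have := (c2.mul_left c3).inv_left
    rwa [← eq_inv_of_mul_eq_one_left (mul_assoc b _ _ ▸ n1)] at this
  have e2 : l * (g * l * g⁻¹) = h * (b * g⁻¹) ^ 2 * h⁻¹ := by
    have e3 : t * z * b = b * (t * z) := by rw [mul_assoc, zb, ← mul_assoc, tb, mul_assoc]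
    have e4 : t * z * g * (t * z) = g⁻¹ := by
      rw [mul_assoc t, ← k.zt, mul_assoc, mul_assoc, ← mul_assoc g, ← mul_assoc z, ← mul_assoc z,
        k.zg, ← mul_assoc, (Commute.inv_right k.tg).eq, mul_assoc, k.tt, mul_one]
    have e5 : g⁻¹ * h⁻¹ = h⁻¹ * g⁻¹ := (Commute.inv_inv k.gh).eq
    calc _ = t * z * h * b * (g⁻¹ * h)⁻¹ * (t * z * h) * b * (h⁻¹ * g⁻¹) := by rw [hl]; group
      _ = h * (t * z * b) * (h * g⁻¹)⁻¹ * h * (t * z) * b * (g⁻¹ * h⁻¹) := by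
          rw [k.th, e5, (Commute.inv_left k.gh).eq]; group
      _ = h * b * (t * z * g * (t * z)) * b * (g⁻¹ * h⁻¹) := by rw [e3]; group
      _ = _ := by rw [e4, pow_two]; group
  have e6 : (b * g⁻¹) ^ 3 = 1 := by
    have gi : g * g = g⁻¹ := eq_inv_of_mul_eq_one_left (by rw [← k.g3, pow_three, mul_assoc])
    calc _ = b * (g⁻¹ * b * g) * ((g * g)⁻¹ * b * g⁻¹) := by rw [pow_three]; group
      _ = b * (b * (g * b * g⁻¹))⁻¹ * (g * b * g⁻¹) := by rw [gi, inv_inv, e1]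
      _ = 1 := by rw [(cm g n1).eq]; group
  have m3 : (l * (g * l * g⁻¹)) ^ 3 = 1 := by
    rw [e2, conj_pow, ← pow_mul, mul_comm, pow_mul, e6]; group
  have m1 : l * (g * l * g⁻¹) ≠ 1 := fun e => by
    rw [e2, mul_inv_eq_one, mul_eq_left] at e
    rw [pow_succ, e, one_mul, mul_inv_eq_one] at e6
    exact k.g1 ((two_of_sq (e6 ▸ bb)).cube k.g3)
  have := k.uniq m3 m1 bb b1 (cj_sq g bb) (fun e => b1 (by simpa using e))
    (c1.mul_right c4) (c0.mul_right c2) (cm g n1)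
  rw [← this, bb, one_mul] at n1
  exact b1 (calc b = g * (g⁻¹ * b * g) * g⁻¹ := by group
    _ = 1 := by rw [n1]; group)

theorem zQ {Q : Subgroup G} (two : IsPGroup 2 Q) (n : ∀ x ∈ Q, g * x * g⁻¹ ∈ Q) : z ∉ Q := by
  intro e
  have h1 := mul_mem e (n z e)
  rw [← mul_assoc, ← mul_assoc, k.zg] at h1
  have := (two_of_mem two h1).cube (by rw [← pow_two, ← pow_mul, mul_comm, pow_mul, inv_pow, k.g3]; simp)
  have h2 : g * g = 1 := by rw [← mul_inv_rev, inv_eq_one] at this; exact this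
  exact k.g1 ((two_of_sq h2).cube k.g3)

/-- The lower bound for `|Q|`. -/
theorem low [Finite G] {Q H : Subgroup G} (f : FP Q (zpowers t) g) (le : H ≤ Q)
    (e : ∀ x ∈ H, z * x * z = x ∨ z * x * z = x * t) :
    Nat.card H * Nat.card H ≤ 2 * Nat.card Q ∧ H ⊓ cj g H ≤ zpowers t := by
  have l2 : cj g H ≤ Q := fun x hx => by
    have := f.yP _ (le (mem_cj.1 hx))
    rwa [show g * (g⁻¹ * x * g) * g⁻¹ = x by group] at this
  have l3 : H ⊓ cj g H ≤ zpowers t := fun x hx => by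
    refine f.fpf x (le hx.1) ((mem_zp k.tt).2 ?_)
    have e1 : z * x * z = g⁻¹ * (z * (g⁻¹ * x * g) * z) * g := by rw [← k.zcj]; group
    have e2 : g⁻¹ * (g⁻¹ * x * g) * g = g * x * g⁻¹ := by
      simpa only [inv_inv] using cj2 (y := g⁻¹) (by rw [inv_pow, k.g3, inv_one]) x
    have e3 : g⁻¹ * (g⁻¹ * x * g * t) * g = g * x * g⁻¹ * t := by
      rw [← e2, mul_assoc, mul_assoc, k.tg]; group
    rcases e _ (mem_cj.1 hx.2) with h1 | h1 <;> rw [h1] at e1 <;> rcases e _ hx.1 with h2 | h2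
    · rw [← e2, ← e1, h2]; simp
    · rw [← e2, ← e1, h2]; simp
    · rw [e3, h2] at e1
      rw [eq_mul_inv_of_mul_eq e1.symm, k.ti]; simp
    · rw [e3, h2, mul_left_inj] at e1
      rw [← e1]; simp
  have := card_mul_card_le le l2
  rw [card_cj] at this
  exact ⟨this.trans (Nat.mul_le_mul_right _ (card_zp k.tt k.t1 ▸ card_le_of_le l3)), l3⟩

end Kit

theorem Loc3.conj {t : G} {Q : Subgroup G} (l : Loc3 t Q) (c : G) :
    Loc3 (c * t * c⁻¹) (cj c Q) := by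
  have a : ∀ {x}, x * (c * t * c⁻¹) = c * t * c⁻¹ * x → c⁻¹ * x * c * t = t * (c⁻¹ * x * c) :=
    fun {x} e => by
      calc _ = c⁻¹ * (x * (c * t * c⁻¹)) * c := by group
        _ = _ := by rw [e]; group
  have b : ∀ {x}, Two x → Two (c⁻¹ * x * c) := fun e => by simpa only [inv_inv] using e.conj c⁻¹
  refine ⟨mem_cj.2 (by simpa [mul_assoc] using l.tQ), fun x hx => ?_, fun d hd x hx => ?_,
    l.two.map _, fun x y h1 h2 h3 h4 h5 h6 h7 => mem_cj.2 ?_,
    fun x y h1 h2 h3 h4 h5 h6 => mem_cj.2 ?_⟩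
  · simpa [mul_assoc] using cj_comm (c := c) (l.le _ (mem_cj.1 hx))
  · simpa [mul_assoc, mem_cj] using l.nrm _ (a hd) _ (mem_cj.1 hx)
  · have e : c⁻¹ * (x * y) * c = c⁻¹ * x * c * (c⁻¹ * y * c) := by group
    rw [e]
    exact l.mul _ _ (a h1) (a h2) (b h3) (b h4) (e ▸ b h5) (mt mem_cj.2 h6) (mt mem_cj.2 h7)
  · refine l.thr _ (c⁻¹ * y * c) (a h1) (a h2) ?_ (fun e => h4 ?_) (b h5) ?_
    · simpa only [inv_inv, h3, mul_one, inv_mul_cancel] using conj_pow (a := c⁻¹) (b := y) (i := 3)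
    · calc y = c * (c⁻¹ * y * c) * c⁻¹ := by group
        _ = 1 := by rw [e]; group
    · convert b h6 using 1; group

end Cfsg.Agent.H81.Em
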