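import Cfsg.Agent.H81.EmRd

/-!
The case `A₅`: the normal 3-complement of `N(R)`.
-/

set_option autoImplicit false

namespace Cfsg.Agent.H81.Em

open Subgroup Cfsg.Agent.H62
open scoped commutatorElement

universe u

/-- **BUR** -/
theorem bur : BurStmt.{u} := by
  intro G _ _ a t r z g h k y Q T R l d x hx w hw
  have : Fact (Nat.Prime 3) := ⟨Nat.prime_three⟩
  have tR : t ∈ R := (d.mem t).2 ⟨rfl, k.zt.symm⟩
  have zR : z ∈ R := (d.mem z).2 ⟨k.zt, rfl⟩
  have RT : ∀ x ∈ R, x ∈ T := fun x hx => l.cen x ((d.mem x).1 hx).1 ((d.mem x).1 hx).2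
  have yN : y ∈ Nm R := mem_normalizer_of_forall d.yR
  have oy : orderOf (⟨y, yN⟩ : Nm R) = 3 := (orderOf_mk _ _).trans (orderOf_eq_prime l.y3 l.y1)
  have cy : Nat.card (zpowers (⟨y, yN⟩ : Nm R)) = 3 := by rw [Nat.card_zpowers, oy]
  have n9 := k.nm9 R d.ea fun e => k.t1 (mem_bot.1 (e ▸ tR))
  let P : Sylow 3 (Nm R) := IsPGroup.toSylow (IsPGroup.of_card (n := 1) cy) fun e => n9 (by
    rw [← (zpowers (⟨y, yN⟩ : Nm R)).card_mul_index, cy]
    exact mul_dvd_mul_left 3 e)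
  have hP : normalizer ((P : Subgroup (Nm R)) : Set (Nm R)) ≤ centralizer (P : Subgroup (Nm R)) := by
    intro n hn
    have e : (n : G) * y * (n : G)⁻¹ = y := by
      obtain ⟨i, hi⟩ := (mem_powers_iff_mem_zpowers.2 (conj_mem_of_norm hn (mem_zpowers _)) :)
      have hi' : y ^ (i % 3) = n * y * (n : G)⁻¹ := by
        rw [← orderOf_eq_prime l.y3 l.y1, pow_mod_orderOf]; exact congrArg Subtype.val hi
      rcases (by omega : i % 3 = 0 ∨ i % 3 = 1 ∨ i % 3 = 2) with e | e | e <;> rw [e] at hi'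
      · exact (l.y1 (by simpa using hi'.symm)).elim
      · rw [← hi', pow_one]
      exfalso
      have e1 : (n : G) * y * (n : G)⁻¹ = y⁻¹ := by
        rw [← hi']; exact eq_inv_of_mul_eq_one_left (by rw [← pow_succ, l.y3])
      have e2 := conj_mem_of_norm n.2 tR
      have e3 := k.uniq l.y3 l.y1 (cj_sq (n : G) k.tt) (fun e => k.t1 (by simpa using e)) k.tt k.t1
        (Commute.inv_right_iff.1 (e1 ▸ cj_comm l.yt.symm)) l.yt.symm (d.ea.comm e2 tR)
      exact l.ninv n (comm_of_fix e3) (RT _ (conj_mem_of_norm n.2 zR)) e1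
    rintro _ ⟨i, rfl⟩
    exact (Commute.zpow_right (Subtype.ext (comm_of_fix e) : Commute n ⟨y, yN⟩) i).symm
  have hc := MonoidHom.ker_transferSylow_isComplement' P hP
  have h3 := MonoidHom.not_dvd_card_ker_transferSylow P hP
  set K := (MonoidHom.transferSylow P hP).ker
  have ix : K.index = 3 := hc.symm.index_eq_card.trans cy
  let K' := K.map (Nm R).subtype
  have two : ∀ c ∈ Nm R, Two c → c ∈ K' := fun c hc e => mem_of_cube_mem_of_is2 e
    ⟨⟨c, hc⟩ ^ K.index, K.pow_index_mem _, by rw [ix, pow_three, mul_assoc]; rfl⟩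
  have thr : ∀ c ∈ K', c ^ 3 = 1 → c = 1 := by
    rintro _ ⟨c, hc, rfl⟩ e
    by_contra c1
    have o : orderOf c = 3 := orderOf_eq_prime (Subtype.ext e) fun e => c1 (by rw [e]; rfl)
    exact h3 (o ▸ K.orderOf_dvd_natCard hc)
  have RK : R ≤ K' := fun c hc => two c (le_normalizer hc) (two_of_sq (d.ea c hc))
  have f : FP K' R y := by
    refine FP.of_ea RK d.ea ?_ ?_ d.yR l.y3 fun c hc e => ?_
    · rintro _ ⟨c, -, rfl⟩ s hs
      exact conj_mem_of_norm c.2 hs
    · rintro _ ⟨c, hc, rfl⟩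
      exact ⟨_, (inferInstance : K.Normal).conj_mem c hc ⟨y, yN⟩, rfl⟩
    · by_cases c1 : c = 1
      · exact c1 ▸ one_mem _
      have c2 := thr _ (mul_mem hc hc) (by rw [← pow_two, ← pow_mul]; exact k.c6 y c l.y3 l.y1 e)
      rw [eq_inv_of_mul_eq_one_left (thr _ (mul_mem hc (RK tR))
        (k.inv2 y c t l.y3 l.y1 c2 c1 k.tt k.t1 e l.yt.symm))]
      exact inv_mem tR
  have QK : ∀ c ∈ Q, c ∈ K' := fun c hc => two c (mem_normalizer_of_forall (d.TR c (l.QT hc)))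
    (two_of_mem l.two (l.QT hc))
  have rK : r ∈ K' := two r (mem_normalizer_of_forall fun c hc => (d.mem _).2
    (k.ri.symm ▸ k.rR ((d.mem c).1 hc).1 ((d.mem c).1 hc).2)) (two_of_sq k.rr)
  have c1 : ⁅r, w⁆ ∈ K' := mul_mem (mul_mem (mul_mem rK (QK w hw)) (inv_mem rK)) (inv_mem (QK w hw))
  convert mul_mem (inv_mem (f.cls rK (QK w hw) (QK x hx)))
    (f.nK _ c1 _ (zpowers_le.2 tR (l.cmQ hx hw))) using 1
  nth_rewrite 2 4 [← k.ri]
  simp only [commutatorElement_def]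
  group

end Cfsg.Agent.H81.Em
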