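import Mathlib
import Cfsg.Agent.H62.CITLocal
import Cfsg.Agent.H9.GHList

/-!
Interfaces for the characterization of `M₁₁` by a Sylow 3-normalizer `3² : SD₁₆`.
The proofs on paper are in `stubs/notes/h81_em.md`.
-/

set_option autoImplicit false

namespace Cfsg.Agent.H81.Em

open Subgroup Cfsg.Agent.H62 Cfsg.Agent.H9.GH

universe u

section Defs

variable {G : Type u} [Group G]

/-- `C_G(x)`. -/
abbrev C1 (x : G) : Subgroup G := centralizer ({x} : Set G)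

/-- `N_G(A)`. -/
abbrev Nm (A : Subgroup G) : Subgroup G := normalizer (A : Set G)

/-- A 2-element. -/
def Two (x : G) : Prop := ∃ k : ℕ, x ^ 2 ^ k = 1

/-- Orders. -/
structure Ord3 (G : Type u) [Group G] : Prop where
  o6 : ∀ g : G, 3 ∣ orderOf g → orderOf g = 3 ∨ orderOf g = 6
  d9 : 9 ∣ Nat.card G
  n27 : ¬ 27 ∣ Nat.card G

/-- The facts that are read off the Sylow 3-normalizer. -/
structure Kit (a t r z g h : G) : Prop where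
  a8 : a ^ 8 = 1
  hz : z = a ^ 4
  z1 : z ≠ 1
  tt : t * t = 1
  t1 : t ≠ 1
  ta : t * a * t = a ^ 3
  hr : r = a * t * a⁻¹
  g3 : g ^ 3 = 1
  g1 : g ≠ 1
  tg : t * g = g * t
  zg : z * g * z = g⁻¹
  hh : h = r * g * r
  gh : g * h = h * g
  c6 : ∀ γ x : G, γ ^ 3 = 1 → γ ≠ 1 → x * γ = γ * x → x ^ 6 = 1
  inv2 : ∀ γ x y : G, γ ^ 3 = 1 → γ ≠ 1 → x * x = 1 → x ≠ 1 → y * y = 1 → y ≠ 1 →
    x * γ = γ * x → y * γ = γ * y → (x * y) ^ 3 = 1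
  pair : ∀ γ x : G, γ ^ 3 = 1 → γ ≠ 1 → x * x = 1 → x ≠ 1 → x * γ = γ * x →
    ∃ c : G, c * t * c⁻¹ = x
  cc : ∀ x : G, x * g = g * x → x * t = t * x → x ∈ zpowers g ∨ x * t ∈ zpowers g
  nmA : ∀ b : G, b * b = 1 →
    (∀ i : ℕ, Commute (a ^ i * b * (a ^ i)⁻¹) (g * (a ^ i * b * (a ^ i)⁻¹) * g⁻¹)) → b = 1
  nmB : ∀ b : G, b * b = 1 → b * (g * b * g⁻¹) * (g⁻¹ * b * g) = 1 →
    b * (h * b * h⁻¹) * (h⁻¹ * b * h) = 1 → Commute (g * b * g⁻¹) (h * b * h⁻¹) → b = 1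
  nm9 : ∀ W : Subgroup G, EA W → W ≠ ⊥ → ¬ 9 ∣ Nat.card (Nm W)

/-- The aim of the local analysis. -/
def Goal (G : Type u) [Group G] : Prop :=
  ∃ E : Subgroup G, EA E ∧ (Nat.card E = 4 ∨ Nat.card E = 8) ∧
    ∀ c : G, Two c → (∀ e ∈ E, c * e = e * c) → c ∈ E

/-- `C(t)` maps onto `S₃` with nilpotent kernel; `Q = O₂(C(t))`. -/
structure Loc3 (t : G) (Q : Subgroup G) : Prop where
  tQ : t ∈ Q
  le : ∀ x ∈ Q, x * t = t * x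
  nrm : ∀ c : G, c * t = t * c → ∀ x ∈ Q, c * x * c⁻¹ ∈ Q
  two : IsPGroup 2 Q
  mul : ∀ x y : G, x * t = t * x → y * t = t * y → Two x → Two y → Two (x * y) → x ∉ Q →
    y ∉ Q → x * y ∈ Q
  thr : ∀ x ρ : G, x * t = t * x → ρ * t = t * ρ → ρ ^ 3 = 1 → ρ ≠ 1 → Two x →
    Two (x * (ρ * x * ρ⁻¹)) → x ∈ Q

/-- `C(t) / Q ≅ A₅`, and `T / Q` is the four-group that contains the image of `z`. -/
structure Loc5 (t z y : G) (Q T : Subgroup G) : Prop where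
  tQ : t ∈ Q
  QT : Q ≤ T
  le : ∀ x ∈ T, x * t = t * x
  nrm : ∀ c : G, c * t = t * c → ∀ x ∈ Q, c * x * c⁻¹ ∈ Q
  sq : ∀ x ∈ Q, x * x = 1 ∨ x * x = t
  two : IsPGroup 2 T
  y3 : y ^ 3 = 1
  y1 : y ≠ 1
  yt : y * t = t * y
  yT : ∀ x ∈ T, y * x * y⁻¹ ∈ T
  zT : z ∈ T
  zQ : z ∉ Q
  z2 : z * (y * z * y⁻¹) ∉ Q
  cov : ∀ x ∈ T, x ∈ Q ∨ x * z ∈ Q ∨ x * (y * z * y⁻¹) ∈ Q ∨ x * (y⁻¹ * z * y) ∈ Q
  cen : ∀ x : G, x * t = t * x → x * z = z * x → x ∈ T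
  ninv : ∀ x : G, x * t = t * x → x * z * x⁻¹ ∈ T → x * y * x⁻¹ ≠ y⁻¹

/-- The elementary abelian group `R = C(t) ∩ C(z)`. -/
structure RDat (t z y : G) (Q T R : Subgroup G) : Prop where
  mem : ∀ x, x ∈ R ↔ x * t = t * x ∧ x * z = z * x
  ea : EA R
  yR : ∀ x ∈ R, y * x * y⁻¹ ∈ R
  TR : ∀ c ∈ T, ∀ x ∈ R, c * x * c⁻¹ ∈ R
  cq : ∀ s ∈ R, s ∉ Q → ∀ q ∈ Q, q * s = s * q → q ∈ R
  card : Nat.card R = 4 * Nat.card (Q ⊓ R : Subgroup G)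

end Defs

/-- SET: the setup. -/
def SetStmt : Prop :=
  ∀ (G : Type u) [Group G] [Finite G] (M : Sylow 3 G), Nat.card (M : Subgroup G) = 9 →
    (∀ m ∈ (M : Subgroup G), m ^ 3 = 1) → centralizer ((M : Subgroup G) : Set G) = M →
    (∀ g ∈ (M : Subgroup G), g ≠ 1 → C1 g ≤ Nm (M : Subgroup G)) →
    (∀ S : Sylow 2 (Nm (M : Subgroup G)), Nat.card (S : Subgroup (Nm (M : Subgroup G))) = 16 ∧
      ∃ a ∈ (S : Subgroup (Nm (M : Subgroup G))), ∃ b ∈ (S : Subgroup (Nm (M : Subgroup G))),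
        orderOf a = 8 ∧ orderOf b = 2 ∧ b * a * b⁻¹ = a ^ 3) →
    Ord3 G ∧ (∃ n, Nat.card G = 144 * n ∧ n % 3 = 1) ∧ ∃ a t r z g h : G, Kit a t r z g h

/-- TRI: the three shapes of `C(t)`. -/
def TriStmt : Prop :=
  ∀ (G : Type u) [Group G] [Finite G] (a t r z g h : G), Kit a t r z g h →
    (∃ Q, Loc3 t Q) ∨ (∃ y Q T, Loc5 t z y Q T) ∨ Goal G

/-- SOL: the solvable case. -/
def SolStmt : Prop :=
  ∀ (G : Type u) [Group G] [Finite G] (a t r z g h : G), Kit a t r z g h →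
    ∀ Q, Loc3 t Q → Goal G

/-- RD: the group `R`. -/
def RDStmt : Prop :=
  ∀ (G : Type u) [Group G] [Finite G] (a t r z g h : G), Kit a t r z g h →
    ∀ y Q T, Loc5 t z y Q T → RDat t z y Q T (C1 t ⊓ C1 z)

/-- BUR: `Q` and `Q^r` commute modulo `R`. -/
def BurStmt : Prop :=
  ∀ (G : Type u) [Group G] [Finite G] (a t r z g h : G), Kit a t r z g h →
    ∀ y Q T R, Loc5 t z y Q T → RDat t z y Q T R →
    ∀ x ∈ Q, ∀ w ∈ Q, x * (r * w * r) * x⁻¹ * (r * w * r)⁻¹ ∈ R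

/-- FIVE: the end of the case `A₅`. -/
def FiveStmt : Prop :=
  ∀ (G : Type u) [Group G] [Finite G] (a t r z g h : G), Kit a t r z g h →
    ∀ y Q T R, Loc5 t z y Q T → RDat t z y Q T R →
    (∀ x ∈ Q, ∀ w ∈ Q, x * (r * w * r) * x⁻¹ * (r * w * r)⁻¹ ∈ R) → Goal G

/-- FIL: the filter. -/
def FilStmt : Prop :=
  ∀ (G : Type u) [Group G] [Finite G], Ord3 G → (∃ n, Nat.card G = 144 * n ∧ n % 3 = 1) →
    R2List G ∨ GHList G → Cfsg.Spor.IsoM11 G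

end Cfsg.Agent.H81.Em
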