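import Cfsg.Agent.H81.EmRd

/-!
The case `A₅`: the end.
-/

set_option autoImplicit false

namespace Cfsg.Agent.H81.Em

open Subgroup Cfsg.Agent.H62
open scoped commutatorElement

universe u

variable {G : Type u} [Group G] [Finite G]

theorem card_comm {Y B : Subgroup G} {s : G} (h : ∀ x ∈ Y, ⁅s, x⁆ ∈ B) :
    Nat.card Y ≤ Nat.card B * Nat.card (Y ⊓ C1 s : Subgroup G) ∧
      (Nat.card B * Nat.card (Y ⊓ C1 s : Subgroup G) ≤ Nat.card Y → ∀ b ∈ B, ∃ x ∈ Y, ⁅s, x⁆ = b) := by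
  let F : Y ⧸ (C1 s).subgroupOf Y → B := Quotient.lift (fun x : Y => ⟨⁅s, x⁆, h x x.2⟩)
    fun x w e => Subtype.ext (by
      have := fix_of_comm (mem_C1.1 (mem_subgroupOf.1 (QuotientGroup.leftRel_apply.1 e)))
      change ⁅s, (x : G)⁆ = ⁅s, (w : G)⁆
      calc _ = s * (x * s * (x : G)⁻¹)⁻¹ := by rw [commutatorElement_def]; group
        _ = s * (x * (((x : G)⁻¹ * w) * s * ((x : G)⁻¹ * w)⁻¹) * (x : G)⁻¹)⁻¹ :=
            congrArg (fun c => s * (x * c * (x : G)⁻¹)⁻¹) this.symm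
        _ = _ := by rw [commutatorElement_def]; group)
  have hF : Function.Injective F := by
    rintro ⟨x⟩ ⟨w⟩ e
    have e' : ⁅s, (x : G)⁆ = ⁅s, (w : G)⁆ := congrArg Subtype.val e
    refine QuotientGroup.eq.2 (mem_subgroupOf.2 (mem_C1.2 ?_))
    change (x : G)⁻¹ * w * s = s * ((x : G)⁻¹ * w)
    calc _ = (x : G)⁻¹ * ⁅s, (w : G)⁆⁻¹ * s * w := by rw [commutatorElement_def]; group
      _ = _ := by rw [← e', commutatorElement_def]; group
  have c := card_eq_card_quotient_mul_card_subgroup ((C1 s).subgroupOf Y)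
  rw [← inf_subgroupOf_left, Nat.card_congr (subgroupOfEquivOfLe inf_le_left).toEquiv,
    inf_subgroupOf_left] at c
  refine ⟨c ▸ Nat.mul_le_mul_right _ (Nat.card_le_card_of_injective F hF), fun e b hb => ?_⟩
  rw [c] at e
  obtain ⟨⟨x⟩, hx⟩ := (hF.bijective_of_nat_card_le
    (Nat.le_of_mul_le_mul_right e Nat.card_pos)).2 ⟨b, hb⟩
  exact ⟨x, x.2, congrArg Subtype.val hx⟩

/-- **FIVE** -/
theorem five : FiveStmt.{u} := by
  intro G _ _ a t r z g h k y Q T R l d bu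
  have tR : t ∈ R := (d.mem t).2 ⟨rfl, k.zt.symm⟩
  have zR : z ∈ R := (d.mem z).2 ⟨k.zt, rfl⟩
  have Qt : ∀ x ∈ Q, x * t = t * x := fun x hx => l.le x (l.QT hx)
  have gQ := l.nrm g k.tg.symm
  have f : FP Q (zpowers t) g := k.fp k.tt k.t1 k.g3 k.g1 k.tg.symm l.tQ Qt
    (fun x hx => two_of_mem l.two (l.QT hx)) gQ
  obtain ⟨lo, lo'⟩ := k.low (H := Q ⊓ R) f inf_le_left fun x hx => .inl (by
    rw [← ((d.mem x).1 hx.2).2, mul_assoc, k.zz, mul_one])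
  by_cases hQ : Q ≤ R
  · refine ⟨R, d.ea, .inr ?_, fun c _ e => (d.mem c).2 ⟨e t tR, e z zR⟩⟩
    rw [d.card, le_antisymm (fun x hx => lo' ⟨hx, mem_cj.2 (mem_inf.2 ⟨f.yP' hx.1, hQ (f.yP' hx.1)⟩)⟩)
      (zpowers_le.2 (mem_inf.2 ⟨l.tQ, tR⟩)), card_zp k.tt k.t1]
  exfalso
  obtain ⟨q, hq, qR⟩ : ∃ q ∈ Q, q ∉ R := by
    by_contra c
    exact hQ fun x hx => by_contra fun c' => c ⟨x, hx, c'⟩
  have rrr : ∀ x, r * (r * x * r) * r = x := fun x => by simp [mul_assoc, rl k.rr, k.rr]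
  have rmul : ∀ x y, r * (x * y) * r = r * x * r * (r * y * r) := fun x y => by
    simp [mul_assoc, rl k.rr]
  have rinv : ∀ x, r * x⁻¹ * r = (r * x * r)⁻¹ := fun x => by simp [mul_assoc, k.ri]
  have rc : ∀ {x y}, x * y = y * x → r * x * r * (r * y * r) = r * y * r * (r * x * r) :=
    fun e => by rw [← rmul, e, rmul]
  have mq : ∀ {x}, x ∈ cj r Q ↔ r * x * r ∈ Q := by intro x; rw [mem_cj, k.ri]
  have rtzr : r * (t * z) * r = t := by rw [← k.rtr, rrr]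
  have rR : ∀ x ∈ R, r * x * r ∈ R := fun x hx =>
    (d.mem _).2 (k.rR ((d.mem x).1 hx).1 ((d.mem x).1 hx).2)
  obtain ⟨B, mB⟩ : ∃ B : Subgroup G, ∀ x, x ∈ B ↔ x ∈ Q ∧ r * x * r ∈ Q :=
    ⟨Q ⊓ cj r Q, fun x => by rw [mem_inf, mem_cj, k.ri]⟩
  have BQ : ∀ x ∈ B, x ∈ Q := fun x hx => ((mB x).1 hx).1
  have Br : ∀ x ∈ B, r * x * r ∈ B := fun x hx =>
    (mB _).2 ⟨((mB x).1 hx).2, (rrr x).symm ▸ BQ x hx⟩
  have Bz : ∀ x ∈ B, x * z = z * x := fun x hx => by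
    have := rc (Qt _ (BQ _ (Br x hx)))
    rw [rrr, k.rtr, ← mul_assoc, Qt x (BQ x hx), mul_assoc, mul_assoc] at this
    exact mul_left_cancel this
  have BA : B ≤ Q ⊓ R := fun x hx => ⟨BQ x hx, (d.mem x).2 ⟨Qt x (BQ x hx), Bz x hx⟩⟩
  have tB : t ∉ B := fun e => l.zQ ((Q.mul_mem_cancel_left l.tQ).1 (k.rtr ▸ BQ _ (Br _ e)))
  have B1 : ∀ x ∈ B, x ∈ zpowers t → x = 1 := fun x hx e =>
    ((mem_zp k.tt).1 e).resolve_right fun e => tB (e ▸ hx)
  have st1 : ∀ w ∈ Q, r * w * r * t * (r * w * r)⁻¹ ∈ Q ∧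
      ∀ x ∈ Q, x * (r * w * r * t * (r * w * r)⁻¹) = r * w * r * t * (r * w * r)⁻¹ * x := by
    intro w hw
    have m1 : r * w * r * t * (r * w * r)⁻¹ ∈ R := by
      convert rR _ (d.TR w (l.QT hw) _ (rR t tR)) using 1
      rw [rmul, rmul, rrr, rinv]
    have m2 : ∀ x ∈ Q, x * (r * w * r * t * (r * w * r)⁻¹) = r * w * r * t * (r * w * r)⁻¹ * x :=
      fun x hx => comm_of_fix (by
        refine Eq.trans ?_ (fix_of_comm (d.ea.comm (bu x hx w hw) m1))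
        conv_rhs => rw [← fix_of_comm (Qt x hx)]
        group)
    exact ⟨by_contra fun c => qR (d.cq _ m1 c q hq (m2 q hq)), m2⟩
  have st2 : ∀ x ∈ Q, ⁅z, x⁆ ∈ B ⊓ centralizer (cj r Q : Set G) := fun x hx => by
    have e : r * ⁅z, x⁆ * r = t * (r * x * r * t * (r * x * r)⁻¹) := by
      have : ⁅z, x⁆ = t * z * (x * (t * z) * x⁻¹) := by
        rw [cj_mul (fix_of_comm (Qt x hx)) rfl, commutatorElement_def, k.zi]
        simp only [mul_assoc, rl k.zt, rl k.tt, one_mul]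
      rw [this, rmul (t * z), rmul (x * _), rmul x, rtzr, rinv]
    refine ⟨(mB _).2 ⟨mul_mem (l.nrm z k.zt x hx) (inv_mem hx), e ▸ mul_mem l.tQ (st1 x hx).1⟩,
      fun w hw => ?_⟩
    have hw' : r * w * r ∈ Q := mq.1 hw
    have := rc (e ▸ (Commute.mul_right (Qt _ hw') ((st1 x hx).2 _ hw')).eq)
    rwa [rrr, rrr] at this
  have cz : Q ⊓ C1 z = Q ⊓ R := Subgroup.ext fun x =>
    mem_inf.trans <| (and_congr_right fun hx => by rw [mem_C1, d.mem, and_iff_right (Qt x hx)]).trans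
      mem_inf.symm
  have c1 := (card_comm st2).1
  let A := adj B t (fun x hx => by rwa [fix_of_comm (Qt x (BQ x hx)).symm]) (k.tt ▸ one_mem _)
  have c2 : Nat.card A = 2 * _ := card_adj tB
  have l2 : A ≤ Q ⊓ R := adj_le BA ⟨l.tQ, tR⟩
  have c3 := card_le_of_le l2
  have c4 : Nat.card (B ⊓ centralizer (cj r Q : Set G) : Subgroup G) ≤ Nat.card B :=
    card_le_of_le inf_le_left
  have p1 : 0 < Nat.card (Q ⊓ R : Subgroup G) := Nat.card_pos
  rw [cz] at c1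
  have c5 : Nat.card (Q ⊓ R : Subgroup G) ≤
      2 * Nat.card (B ⊓ centralizer (cj r Q : Set G) : Subgroup G) :=
    Nat.le_of_mul_le_mul_right (by nlinarith) p1
  have hA : A = Q ⊓ R := eq_of_le_of_card_ge l2 (by omega)
  have hB : B ⊓ centralizer (cj r Q : Set G) = B := eq_of_le_of_card_ge inf_le_left (by omega)
  rw [hB] at c1 c5 st2
  have BQ' : ∀ b ∈ B, ∀ w, r * w * r ∈ Q → w * b = b * w := fun b hb w hw =>
    (hB.ge hb).2 w (mq.2 hw)
  have BQ'' : ∀ b ∈ B, ∀ w ∈ Q, w * b = b * w := fun b hb w hw => by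
    have := rc (BQ' _ (Br b hb) (r * w * r) (by rwa [rrr]))
    rwa [rrr, rrr] at this
  have sur := (card_comm st2).2 (by rw [cz]; nlinarith)
  have dec : ∀ x ∈ Q, ∃ b ∈ B, ∃ c ∈ B, x = g * b * g⁻¹ * c ∨ x = g * b * g⁻¹ * c * t := by
    intro x hx
    obtain ⟨u, hu, v, hv, rfl⟩ := exists_mul_eq_of_card (H := Q ⊓ R) (K := cj g (Q ⊓ R))
      inf_le_left (fun x hx => by simpa [mul_assoc] using gQ _ (mem_cj.1 hx).1) (by
        have := card_zp k.tt k.t1 ▸ card_le_of_le lo'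
        rw [card_cj]
        nlinarith) hx
    have e : ∀ x ∈ Q ⊓ R, x ∈ B ∨ x * t ∈ B := fun x hx => (hA.ge hx).imp id fun e => Qt x hx.1 ▸ e
    have e1 : g * (g⁻¹ * u * g) * g⁻¹ = u := by group
    have e2 : g * (g⁻¹ * u * g * t) * g⁻¹ = u * t := cj_mul e1 (fix_of_comm k.tg.symm)
    have vt := Qt v hv.1
    rcases e _ (mem_cj.1 hu) with h1 | h1 <;> rcases e _ hv with h2 | h2 <;> refine ⟨_, h1, _, h2, ?_⟩
    · exact .inl (by rw [e1])
    · exact .inr (by rw [e1]; simp only [mul_assoc, k.tt, mul_one])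
    · exact .inr (by rw [e2]; simp only [mul_assoc, vt, rl k.tt, one_mul])
    · exact .inl (by rw [e2]; simp only [mul_assoc, vt, rl k.tt, one_mul])
  have gc : ∀ b ∈ B, ∀ w ∈ Q, w * (g * b * g⁻¹) = g * b * g⁻¹ * w := fun b hb w hw => by
    simpa [mul_assoc] using cj_comm (c := g) (BQ'' b hb _ (f.yP' hw))
  have ea : EA Q := by
    have e : ∀ b ∈ B, b ∈ omZ Q := fun b hb => mem_omZ.2 ⟨BQ b hb, d.ea _ (BA hb).2, BQ'' b hb⟩
    have e' : ∀ b ∈ B, g * b * g⁻¹ ∈ omZ Q := fun b hb =>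
      mem_omZ.2 ⟨gQ _ (BQ b hb), cj_sq g (d.ea _ (BA hb).2), gc b hb⟩
    intro x hx
    obtain ⟨b, hb, c, hc, rfl | rfl⟩ := dec x hx
    · exact (mem_omZ.1 (mul_mem (e' b hb) (e c hc))).2.1
    · exact (mem_omZ.1 (mul_mem (mul_mem (e' b hb) (e c hc)) (mem_omZ.2 ⟨l.tQ, k.tt, Qt⟩))).2.1
  have n1 : ∀ b ∈ B, b * (g * b * g⁻¹) * (g⁻¹ * b * g) = 1 := fun b hb => by
    obtain ⟨x, hx, rfl⟩ := sur b hb
    have x1 := gQ x hx
    have x2 := f.yP' hx
    have zQ : ∀ x ∈ Q, z * x * z ∈ Q := fun x hx => by simpa only [k.zi] using l.nrm z k.zt x hx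
    have e1 : g * (z * x * z) * g⁻¹ = z * (g⁻¹ * x * g) * z := by
      rw [← cj2 k.g3, k.zcj, k.zcj]
      simpa only [inv_inv] using (cj2 f.inv.y3 (z * x * z)).symm
    have e2 : g⁻¹ * (z * x * z) * g = z * (g * x * g⁻¹) * z := (k.zcj x).symm
    have e3 : z * (x * (g * x * g⁻¹) * (g⁻¹ * x * g)) * z = x * (g * x * g⁻¹) * (g⁻¹ * x * g) := by
      rcases (mem_zp k.tt).1 (f.norm hx) with e | e <;> rw [e]
      · rw [mul_one, k.zz]
      · rw [k.zt, mul_assoc, k.zz, mul_one]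
    rw [commutatorElement_def, k.zi, ea.inv hx, cj_mul e1 rfl,
      show g⁻¹ * (z * x * z * x) * g = g⁻¹ * (z * x * z) * g * (g⁻¹ * x * g) by group, e2]
    refine Eq.trans ?_ (ea _ (mul_mem (mul_mem hx x1) x2))
    nth_rewrite 1 [← e3]
    have e4 : ∀ x y, z * (x * y) * z = z * x * z * (z * y * z) := fun x y => by
      simp [mul_assoc, rl k.zz]
    rw [e4 (x * (g * x * g⁻¹)), e4 x]
    have y0 := zQ _ hx
    have y1 := zQ _ x1
    have y2 := zQ _ x2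
    generalize g * x * g⁻¹ = x1' at *
    generalize g⁻¹ * x * g = x2' at *
    generalize z * x * z = y0' at *
    generalize z * x1' * z = y1' at *
    generalize z * x2' * z = y2' at *
    simp only [mul_assoc, rl (ea.comm hx y2), rl (ea.comm hx y1), rl (ea.comm x1 y1),
      rl (ea.comm y2 y1)]
  have n2 : ∀ b ∈ B, b * (h * b * h⁻¹) * (h⁻¹ * b * h) = 1 := fun b hb => by
    have := congrArg (fun x => r * x * r) (n1 _ (Br b hb))
    simpa only [rmul (r * b * r), rmul (r * b * r * _), k.rcj, k.rcj', rrr, mul_one, k.rr] using this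
  have nQ : ∀ w, r * w * r ∈ Q → ∀ x ∈ Q, w * x * w⁻¹ ∈ Q := fun w hw x hx => by
    have e := inv_mem (bu x hx _ hw)
    rw [rrr] at e
    by_cases c : (x * w * x⁻¹ * w⁻¹)⁻¹ ∈ Q
    · convert mul_mem c hx using 1; group
    have xR := d.cq _ e c x hx (comm_of_sq (d.ea _ e) (ea x hx) (by
      convert cj_sq w (ea x hx) using 2 <;> group)).symm
    have s1 := (st1 _ hw).1
    rw [rrr] at s1
    rcases hA.ge ⟨hx, xR⟩ with e | e
    · rwa [fix_of_comm (BQ' x e w hw)]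
    · rw [show x = t * (t * x) by rw [rl k.tt, one_mul], cj_mul rfl (fix_of_comm (BQ' _ e w hw))]
      exact mul_mem s1 (BQ _ e)
  have cB : ∀ w, r * w * r ∈ Q → ∀ x ∈ Q, ⁅x, w⁆ ∈ B := fun w hw x hx => (mB _).2
    ⟨by simpa only [commutatorElement_def, mul_assoc] using mul_mem hx (nQ w hw _ (inv_mem hx)), by
      rw [commutatorElement_def, rmul, rmul, rmul, rinv, rinv]
      exact mul_mem (nQ _ ((rrr x).symm ▸ hx) _ hw) (inv_mem hw)⟩
  have b0 := st2 q hq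
  have b1 : ⁅z, q⁆ ≠ 1 := fun e =>
    qR ((d.mem q).2 ⟨Qt q hq, (commutatorElement_eq_one_iff_mul_comm.1 e).symm⟩)
  generalize ⁅z, q⁆ = b at b0 b1
  have bb := ea b (BQ b b0)
  obtain ⟨w, hw, wB, wv⟩ : ∃ w, r * w * r ∈ Q ∧ w ∉ B ∧ w * (g * b * g⁻¹) = g * b * g⁻¹ * w := by
    by_contra c
    push Not at c
    have h1 := (card_comm (Y := cj r Q) (s := g * b * g⁻¹) fun w hw =>
      cB w (mq.1 hw) _ (gQ _ (BQ b b0))).1
    have h2 : Nat.card (cj r Q ⊓ C1 (g * b * g⁻¹) : Subgroup G) ≤ Nat.card B :=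
      card_le_of_le fun x hx => by_contra fun e => c x (mq.1 hx.1) e (mem_C1.1 hx.2)
    rw [card_cj] at h1
    have : 0 < Nat.card B := Nat.card_pos
    nlinarith
  have e1 : g⁻¹ * b * g = (b * (g * b * g⁻¹))⁻¹ := eq_inv_of_mul_eq_one_right (n1 b b0)
  have no3 : ∀ c ∈ C1 b ⊓ C1 (g * b * g⁻¹) ⊓ Nm Q, c ^ 3 = 1 → c = 1 := fun c hc c3 => by
    by_contra c1
    have := k.uniq c3 c1 bb b1 (cj_sq g bb) (fun e => b1 (by simpa using e))
      (mem_C1.1 hc.1.1).symm (mem_C1.1 hc.1.2).symm (gc b b0 b (BQ b b0))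
    rw [← this, bb, inv_one] at e1
    exact b1 (calc b = g * (g⁻¹ * b * g) * g⁻¹ := by group
      _ = 1 := by rw [e1]; group)
  have QY : Q ≤ C1 b ⊓ C1 (g * b * g⁻¹) ⊓ Nm Q := fun x hx =>
    ⟨⟨mem_C1.2 (BQ'' b b0 x hx), mem_C1.2 (gc b b0 x hx)⟩, le_normalizer hx⟩
  have gN : g ∈ Nm Q := mem_normalizer_of_forall gQ
  have fY : FP (C1 b ⊓ C1 (g * b * g⁻¹) ⊓ Nm Q) Q g := by
    refine FP.of_ea QY ea (fun c hc x hx => conj_mem_of_norm hc.2 hx) (fun x hx => ?_) gQ k.g3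
      fun x hx e => ?_
    · have : x * (g⁻¹ * b * g) = g⁻¹ * b * g * x :=
        e1 ▸ (Commute.mul_right (mem_C1.1 hx.1.1) (mem_C1.1 hx.1.2)).inv_right
      exact ⟨⟨mem_C1.2 (by simpa [mul_assoc] using cj_comm (c := g) this),
        mem_C1.2 (cj_comm (mem_C1.1 hx.1.1))⟩, (Nm Q).mul_mem (mul_mem gN hx.2) (inv_mem gN)⟩
    · by_cases x1 : x = 1
      · exact x1 ▸ one_mem _
      have x2 := no3 _ (mul_mem hx hx) (by rw [← pow_two, ← pow_mul]; exact k.c6 g x k.g3 k.g1 e)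
      rw [eq_inv_of_mul_eq_one_left (no3 _ (mul_mem hx (QY l.tQ))
        (k.inv2 g x t k.g3 k.g1 x2 x1 k.tt k.t1 e k.tg))]
      exact inv_mem l.tQ
  have nm := fY.norm (x := w) ⟨⟨mem_C1.2 (BQ' b b0 w hw), mem_C1.2 wv⟩,
    mem_normalizer_of_forall (nQ w hw)⟩
  have wc : ∀ c ∈ B, w * (g * c * g⁻¹) = g * c * g⁻¹ * w := fun c hc => by
    have u1 := gQ _ (BQ c hc)
    have h1 := cB w hw _ u1
    have h2 := cB w⁻¹ (rinv w ▸ inv_mem hw) _ (gQ _ u1)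
    have h3 := fix_of_comm (ea.comm nm (f.yP' (nQ w⁻¹ (rinv w ▸ inv_mem hw) _ (gQ _ u1))))
    have h4 := fix_of_comm (cj_comm (c := g) (BQ' c hc w hw))
    have h5 : g * ⁅g * c * g⁻¹, w⁆ * g⁻¹ = ⁅g * (g * c * g⁻¹) * g⁻¹, w⁻¹⁆ := by
      generalize g * c * g⁻¹ = u at h3 h4
      calc _ = g * (u * (w * (g * w * g⁻¹ * u * (g * w * g⁻¹)⁻¹) * w⁻¹)⁻¹) * g⁻¹ := by
            rw [h4, commutatorElement_def]; group
        _ = g * (u * (g⁻¹ * (w⁻¹ * (g * u * g⁻¹) * w⁻¹⁻¹) * g)⁻¹) * g⁻¹ := by rw [← h3]; group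
        _ = _ := by rw [commutatorElement_def]; group
    refine (commutatorElement_eq_one_iff_mul_comm.1 (B1 _ h1 ?_)).symm
    have e : g⁻¹ * (g * ⁅g * c * g⁻¹, w⁆ * g⁻¹) * g = ⁅g * c * g⁻¹, w⁆ := by group
    exact e ▸ f.yK' (lo' ⟨BA (h5 ▸ h2), mem_cj.2 (e.symm ▸ BA h1)⟩)
  obtain ⟨c, hc, e, he, hw'⟩ := dec _ hw
  have c' := Br c hc
  have e' := Br e he
  have u1 := gQ _ (BQ _ c')
  have cw : Commute (g * (r * c * r) * g⁻¹) w := (wc _ c').symm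
  have ce : Commute (g * (r * c * r) * g⁻¹) (r * e * r) := BQ'' _ e' _ u1
  rcases hw' with hw' | hw' <;> replace hw' := congrArg (fun x => r * x * r) hw' <;>
    simp only [rrr, rmul (g * c * g⁻¹), rmul (g * c * g⁻¹ * e), k.rcj, k.rtr] at hw'
  · have := k.nmB _ (ea _ (BQ _ c')) (n1 _ c') (n2 _ c') (by
      have := cw.mul_right ce.inv_right
      rwa [hw', mul_inv_cancel_right] at this)
    rw [this, mul_one, mul_inv_cancel, one_mul] at hw'
    exact wB (hw' ▸ e')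
  · have := k.lam (ea _ (BQ _ c')) (Qt _ (BQ _ c')).symm (Bz _ c').symm (n1 _ c') (n2 _ c') (by
      have := cw.mul_right ce.inv_right
      have h1 : Commute (r * e * r) (t * z) := Commute.mul_right (Qt _ (BQ _ e')) (Bz _ e')
      have h2 : Commute (r * c * r) (t * z) := Commute.mul_right (Qt _ (BQ _ c')) (Bz _ c')
      have h3 : Commute (h * (r * c * r) * h⁻¹) (t * z) :=
        (Commute.mul_left k.th.symm h2).mul_left (Commute.inv_left k.th.symm)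
      rw [hw', mul_assoc (h * _ * _), h1.eq, ← mul_assoc (h * _ * _), mul_inv_cancel_right, h3.eq] at this
      exact this.symm)
    rw [this, mul_one, mul_inv_cancel, one_mul] at hw'
    have h1 : Commute (g * b * g⁻¹) z := by
      have := ((Commute.symm (gc b b0 _ (mul_mem (BQ _ e') l.tQ))).inv_right).mul_right
        (Commute.symm wv)
      rwa [hw', ← mul_assoc _ t, inv_mul_cancel_left] at this
    have h2 := k.zcj b
    rw [← h1.eq, mul_assoc, k.zz, mul_one, ← Bz b b0, mul_assoc b, k.zz, mul_one, e1,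
      eq_inv_iff_mul_eq_one, gc b b0 b (BQ b b0), rl (cj_sq g bb), one_mul] at h2
    exact b1 h2

end Cfsg.Agent.H81.Em
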