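import Cfsg.Agent.H81.EmDefs
import Cfsg.Agent.S3779

/-!
Fixed point free elements of order three on sections.
-/

set_option autoImplicit false

namespace Cfsg.Agent.H81.Em

open Subgroup Cfsg.Agent.H62
open scoped commutatorElement

universe u

section Int

variable {X : Type u} [Group X] [Finite X] {P : Subgroup X} {y : X}

theorem int_aux (hy : ∀ x ∈ P, y * x * y⁻¹ ∈ P) (y3 : y ^ 3 = 1)
    (hf : ∀ x ∈ P, y * x * y⁻¹ = x → x = 1) :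
    (∀ x ∈ P, x * (y * x * y⁻¹) * (y⁻¹ * x * y) = 1) ∧
      ∀ x ∈ P, ∀ w ∈ P, ∀ v ∈ P, ⁅x, w⁆ * v = v * ⁅x, w⁆ := by
  have hn : y ∈ normalizer (P : Set X) := mem_normalizer_fintype hy
  let ρ : MulAut P := P.normalizerMonoidHom ⟨y, hn⟩
  have hρ : ∀ x : P, (ρ x : X) = y * x * y⁻¹ := fun x => rfl
  have yi : y * y = y⁻¹ := eq_inv_of_mul_eq_one_left (by rw [← y3, pow_three, mul_assoc])
  have h2 : ∀ x : X, y * (y * x * y⁻¹) * y⁻¹ = y⁻¹ * x * y := fun x => by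
    calc _ = (y * y) * x * (y * y)⁻¹ := by group
      _ = _ := by rw [yi, inv_inv]
  have ρ3 : ρ ^ 3 = 1 := by
    rw [← map_pow, show (⟨y, hn⟩ : normalizer (P : Set X)) ^ 3 = 1 from Subtype.ext y3, map_one]
  have fp : ∀ x : P, ρ x = x → x = 1 := fun x e => Subtype.ext (hf x x.2 (congrArg Subtype.val e))
  refine ⟨fun x hx => ?_, fun x hx w hw v hv => ?_⟩
  · have := MonoidHom.FixedPointFree.prod_pow_eq_one (φ := ρ) fp (n := 3)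
      (funext fun x => DFunLike.congr_fun ρ3 x) ⟨x, hx⟩
    have h3 : (⟨x, hx⟩ : P) * ρ ⟨x, hx⟩ * ρ (ρ ⟨x, hx⟩) = 1 := by
      simpa [List.range_succ, mul_assoc] using this
    have h4 := congrArg Subtype.val h3
    simpa only [coe_mul, hρ, h2, coe_one] using h4
  · by_cases h1 : ρ = 1
    · rw [hf v hv (by rw [← hρ ⟨v, hv⟩, h1]; rfl), mul_one, one_mul]
    have : Fact (Nat.Prime 3) := ⟨Nat.prime_three⟩
    have := (S3779.result Nat.prime_three ρ (orderOf_eq_prime ρ3 h1) fp).2.1 rfl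
    rw [Subgroup.lowerCentralSeries_succ, commutator_eq_bot_iff_le_centralizer, coe_top,
      centralizer_univ] at this
    have m := this (commutator_mem_commutator (mem_top (⟨x, hx⟩ : P)) (mem_top (⟨w, hw⟩ : P)))
    exact (congrArg Subtype.val (mem_center_iff.1 m ⟨v, hv⟩)).symm

theorem int_tw (hy : ∀ x ∈ P, y * x * y⁻¹ ∈ P) (y3 : y ^ 3 = 1)
    (hf : ∀ x ∈ P, y * x * y⁻¹ = x → x = 1) {x w : X} (hx : x ∈ P) (hw : w ∈ P) :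
    ⁅x, y * w * y⁻¹⁆ = y⁻¹ * ⁅x, w⁆ * y := by
  obtain ⟨n, c⟩ := int_aux hy y3 hf
  have yi : y * y = y⁻¹ := eq_inv_of_mul_eq_one_left (by rw [← y3, pow_three, mul_assoc])
  have h2 : ∀ x : X, y * (y * x * y⁻¹) * y⁻¹ = y⁻¹ * x * y := fun x => by
    calc _ = (y * y) * x * (y * y)⁻¹ := by group
      _ = _ := by rw [yi, inv_inv]
  have cP : ∀ a ∈ P, ∀ b ∈ P, ⁅a, b⁆ ∈ P := fun a ha b hb => by
    rw [commutatorElement_def]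
    exact mul_mem (mul_mem (mul_mem ha hb) (inv_mem ha)) (inv_mem hb)
  have l : ∀ a ∈ P, ∀ b ∈ P, ∀ v ∈ P, ⁅a * b, v⁆ = ⁅b, v⁆ * ⁅a, v⁆ := fun a ha b hb v hv => by
    calc _ = a * ⁅b, v⁆ * a⁻¹ * ⁅a, v⁆ := by simp only [commutatorElement_def]; group
      _ = _ := by rw [← c b hb v hv a ha, mul_inv_cancel_right]
  have rr : ∀ a ∈ P, ∀ b ∈ P, ∀ v ∈ P, ⁅v, a * b⁆ = ⁅v, a⁆ * ⁅v, b⁆ := fun a ha b hb v hv => by
    calc _ = ⁅v, a⁆ * (a * ⁅v, b⁆ * a⁻¹) := by simp only [commutatorElement_def]; group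
      _ = _ := by rw [← c v hv b hb a ha, mul_inv_cancel_right]
  have cm : ∀ a ∈ P, ⁅a, y * a * y⁻¹⁆ = 1 := fun a ha => by
    have e1 := n a ha
    have e2 := n _ (inv_mem ha)
    rw [commutatorElement_eq_one_iff_mul_comm]
    have e3 : y⁻¹ * a * y = (a * (y * a * y⁻¹))⁻¹ := eq_inv_of_mul_eq_one_right e1
    have e4 : y⁻¹ * a⁻¹ * y = a * (y * a * y⁻¹) := by rw [← inv_inv (a * _), ← e3]; group
    rw [e4] at e2
    calc a * (y * a * y⁻¹) = (a⁻¹ * (y * a⁻¹ * y⁻¹))⁻¹ := eq_inv_of_mul_eq_one_right e2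
      _ = _ := by group
  have e1 : ⁅x, y * w * y⁻¹⁆ = ⁅y * x * y⁻¹, w⁆ := by
    have := cm _ (mul_mem hx hw)
    rw [show y * (x * w) * y⁻¹ = y * x * y⁻¹ * (y * w * y⁻¹) by group,
      l _ hx _ hw _ (mul_mem (hy _ hx) (hy _ hw)), rr _ (hy _ hx) _ (hy _ hw) _ hw,
      rr _ (hy _ hx) _ (hy _ hw) _ hx, cm _ hx, cm _ hw, mul_one, one_mul] at this
    rw [← commutatorElement_inv w]
    exact eq_inv_of_mul_eq_one_right this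
  have hw2 : y⁻¹ * w * y ∈ P := h2 w ▸ hy _ (hy _ hw)
  have e2 : ⁅y * x * y⁻¹, w⁆ * ⁅y * x * y⁻¹, y * w * y⁻¹⁆ * ⁅y * x * y⁻¹, y⁻¹ * w * y⁆ = 1 := by
    rw [← rr _ hw _ (hy _ hw) _ (hy _ hx), ← rr _ (mul_mem hw (hy _ hw)) _ hw2 _ (hy _ hx), n w hw,
      commutatorElement_one_right]
  have e3 := n _ (cP _ hx _ (hy _ hw))
  set k := ⁅x, y * w * y⁻¹⁆ with hk
  have e4 : ⁅y * x * y⁻¹, y⁻¹ * w * y⁆ = y * k * y⁻¹ := by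
    rw [← h2 w, hk]; simp only [commutatorElement_def]; group
  have e5 : ⁅y * x * y⁻¹, y * w * y⁻¹⁆ = y * ⁅x, w⁆ * y⁻¹ := by
    simp only [commutatorElement_def]; group
  rw [← e1, e4, e5] at e2
  have e6 : y * ⁅x, w⁆ * y⁻¹ * (y * k * y⁻¹) = y * k * y⁻¹ * (y * ⁅x, w⁆ * y⁻¹) := by
    rw [← e5]; exact c _ (hy _ hx) _ (hy _ hw) _ (hy _ (cP _ hx _ (hy _ hw)))
  rw [mul_assoc k, e6, ← mul_assoc k] at e2
  have e7 : y⁻¹ * k * y = y * ⁅x, w⁆ * y⁻¹ := mul_left_cancel (e3.trans e2.symm)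
  calc k = y * (y⁻¹ * k * y) * y⁻¹ := by group
    _ = _ := by rw [e7, h2]

end Int

variable {G : Type u} [Group G]

theorem mem_zp {t x : G} (tt : t * t = 1) : x ∈ zpowers t ↔ x = 1 ∨ x = t := by
  refine ⟨?_, fun h => h.elim (· ▸ one_mem _) (· ▸ mem_zpowers _)⟩
  rintro ⟨k, rfl⟩
  have h2 : t ^ (2 : ℤ) = 1 := by rw [zpow_two, tt]
  rcases Int.even_or_odd' k with ⟨m, rfl | rfl⟩ <;> simp [zpow_add, zpow_mul, h2]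

theorem cj2 {y : G} (y3 : y ^ 3 = 1) (x : G) : y * (y * x * y⁻¹) * y⁻¹ = y⁻¹ * x * y := by
  have yi : y * y = y⁻¹ := eq_inv_of_mul_eq_one_left (by rw [← y3, pow_three, mul_assoc])
  calc _ = (y * y) * x * (y * y)⁻¹ := by group
    _ = _ := by rw [yi, inv_inv]

/-- `y` has order three and acts on `P / K` without fixed points. -/
structure FP (P K : Subgroup G) (y : G) : Prop where
  nK : ∀ c ∈ P, ∀ k ∈ K, c * k * c⁻¹ ∈ K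
  yP : ∀ x ∈ P, y * x * y⁻¹ ∈ P
  yK : ∀ x ∈ K, y * x * y⁻¹ ∈ K
  y3 : y ^ 3 = 1
  fpf : ∀ x ∈ P, x⁻¹ * (y * x * y⁻¹) ∈ K → x ∈ K

theorem FP.of_ea {P K : Subgroup G} {y : G} (le : K ≤ P) (ea : EA K)
    (nK : ∀ c ∈ P, ∀ k ∈ K, c * k * c⁻¹ ∈ K) (yP : ∀ x ∈ P, y * x * y⁻¹ ∈ P)
    (yK : ∀ x ∈ K, y * x * y⁻¹ ∈ K) (y3 : y ^ 3 = 1)
    (hf : ∀ x ∈ P, x * y = y * x → x ∈ K) : FP P K y := by
  refine ⟨nK, yP, yK, y3, fun x hx hk => ?_⟩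
  set k := x⁻¹ * (y * x * y⁻¹) with hk'
  have e1 : y * x * y⁻¹ = x * k := by rw [hk']; group
  have k1 := yK _ hk
  have k2 := yK _ k1
  have e2 : k * (y * k * y⁻¹) * (y * (y * k * y⁻¹) * y⁻¹) = 1 := by
    have : y * (y * (y * x * y⁻¹) * y⁻¹) * y⁻¹ = x := by rw [cj2 y3]; group
    rw [e1] at this
    rw [show y * (x * k) * y⁻¹ = y * x * y⁻¹ * (y * k * y⁻¹) by group, e1] at this
    rw [show y * (x * k * (y * k * y⁻¹)) * y⁻¹ =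
      y * x * y⁻¹ * (y * k * y⁻¹) * (y * (y * k * y⁻¹) * y⁻¹) by group, e1] at this
    calc _ = x⁻¹ * (x * k * (y * k * y⁻¹) * (y * (y * k * y⁻¹) * y⁻¹)) := by group
      _ = 1 := by rw [this, inv_mul_cancel]
  have e3 : k * (y * (y * k * y⁻¹) * y⁻¹) = y * k * y⁻¹ := by
    rw [eq_inv_of_mul_eq_one_right e2, ea.inv (mul_mem hk k1), ← mul_assoc, ea _ hk, one_mul]
  have := hf _ (mul_mem hx (le k1)) (by
    calc x * (y * k * y⁻¹) * y = x * (k * (y * (y * k * y⁻¹) * y⁻¹)) * y := by rw [e3]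
      _ = x * k * (y * (y * k * y⁻¹) * y⁻¹) * y := by group
      _ = _ := by rw [← e1]; group)
  exact (K.mul_mem_cancel_right k1).1 this

namespace FP

variable [Finite G] {P K : Subgroup G} {y : G} (h : FP P K y)
include h

theorem yP' {x : G} (hx : x ∈ P) : y⁻¹ * x * y ∈ P := cj2 h.y3 x ▸ h.yP _ (h.yP _ hx)

theorem yK' {x : G} (hx : x ∈ K) : y⁻¹ * x * y ∈ K := cj2 h.y3 x ▸ h.yK _ (h.yK _ hx)

theorem all : (∀ x ∈ P, x * (y * x * y⁻¹) * (y⁻¹ * x * y) ∈ K) ∧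
    (∀ x ∈ P, ∀ w ∈ P, ∀ v ∈ P, ⁅⁅x, w⁆, v⁆ ∈ K) ∧
    ∀ x ∈ P, ∀ w ∈ P, ⁅x, y * w * y⁻¹⁆ * (y⁻¹ * ⁅x, w⁆ * y)⁻¹ ∈ K := by
  have PN : P ≤ Nm K := fun c hc => mem_normalizer_fintype (h.nK c hc)
  have yN : y ∈ Nm K := mem_normalizer_fintype h.yK
  let f := QuotientGroup.mk' (K.subgroupOf (Nm K))
  have hf : ∀ n : Nm K, f n = 1 ↔ (n : G) ∈ K := fun n => QuotientGroup.eq_one_iff n
  let P' := (P.subgroupOf (Nm K)).map f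
  have m : ∀ {x} (hx : x ∈ P), f ⟨x, PN hx⟩ ∈ P' := fun hx => ⟨_, hx, rfl⟩
  have a1 : ∀ x ∈ P', f ⟨y, yN⟩ * x * (f ⟨y, yN⟩)⁻¹ ∈ P' := by
    rintro _ ⟨x, hx, rfl⟩
    exact ⟨⟨y, yN⟩ * x * ⟨y, yN⟩⁻¹, h.yP _ hx, by simp⟩
  have a2 : f ⟨y, yN⟩ ^ 3 = 1 := by
    rw [← map_pow, show (⟨y, yN⟩ : Nm K) ^ 3 = 1 from Subtype.ext h.y3, map_one]
  have a3 : ∀ x ∈ P', f ⟨y, yN⟩ * x * (f ⟨y, yN⟩)⁻¹ = x → x = 1 := by
    rintro _ ⟨x, hx, rfl⟩ e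
    refine (hf _).2 (h.fpf _ hx ((hf (x⁻¹ * (⟨y, yN⟩ * x * ⟨y, yN⟩⁻¹))).1 ?_))
    rw [map_mul, map_mul, map_mul, map_inv, map_inv, e, inv_mul_cancel]
  obtain ⟨b1, b2⟩ := int_aux a1 a2 a3
  refine ⟨fun x hx => (hf (⟨x, PN hx⟩ * (⟨y, yN⟩ * ⟨x, PN hx⟩ * ⟨y, yN⟩⁻¹) *
      (⟨y, yN⟩⁻¹ * ⟨x, PN hx⟩ * ⟨y, yN⟩))).1 ?_,
    fun x hx w hw v hv => (hf ⁅⁅(⟨x, PN hx⟩ : Nm K), (⟨w, PN hw⟩ : Nm K)⁆, (⟨v, PN hv⟩ : Nm K)⁆).1 ?_,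
    fun x hx w hw => (hf (⁅(⟨x, PN hx⟩ : Nm K), (⟨y, yN⟩ * ⟨w, PN hw⟩ * ⟨y, yN⟩⁻¹ : Nm K)⁆ *
      (⟨y, yN⟩⁻¹ * ⁅(⟨x, PN hx⟩ : Nm K), (⟨w, PN hw⟩ : Nm K)⁆ * ⟨y, yN⟩)⁻¹)).1 ?_⟩
  · simpa only [map_mul, map_inv] using b1 _ (m hx)
  · rw [map_commutatorElement, map_commutatorElement, commutatorElement_eq_one_iff_mul_comm]
    exact b2 _ (m hx) _ (m hw) _ (m hv)
  · simp only [map_mul, map_inv, map_commutatorElement]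
    rw [int_tw a1 a2 a3 (m hx) (m hw), mul_inv_cancel]

theorem norm {x : G} (hx : x ∈ P) : x * (y * x * y⁻¹) * (y⁻¹ * x * y) ∈ K := h.all.1 x hx

theorem cls {x w v : G} (hx : x ∈ P) (hw : w ∈ P) (hv : v ∈ P) : ⁅⁅x, w⁆, v⁆ ∈ K :=
  h.all.2.1 x hx w hw v hv

theorem tw {x w : G} (hx : x ∈ P) (hw : w ∈ P) :
    ⁅x, y * w * y⁻¹⁆ * (y⁻¹ * ⁅x, w⁆ * y)⁻¹ ∈ K := h.all.2.2 x hx w hw

/-- If `x` centralizes `w` modulo `K` then it centralizes the conjugates. -/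
theorem tw_mem {x w : G} (hx : x ∈ P) (hw : w ∈ P) (e : ⁅x, w⁆ ∈ K) : ⁅x, y * w * y⁻¹⁆ ∈ K :=
  (K.mul_mem_cancel_right (inv_mem (h.yK' e))).1 (h.tw hx hw)

theorem inv : FP P K y⁻¹ := by
  refine ⟨h.nK, fun x hx => by rw [inv_inv]; exact h.yP' hx,
    fun x hx => by rw [inv_inv]; exact h.yK' hx, by rw [inv_pow, h.y3, inv_one], fun x hx e => ?_⟩
  rw [inv_inv] at e
  refine h.fpf x hx ?_
  have := inv_mem (h.yK _ e)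
  rwa [show (y * (x⁻¹ * (y⁻¹ * x * y)) * y⁻¹)⁻¹ = x⁻¹ * (y * x * y⁻¹) by group] at this

end FP

end Cfsg.Agent.H81.Em
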