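import Cfsg.Agent.H81.EmFp

/-!
Elementary tools, and the consequences of the setup.
-/

set_option autoImplicit false

namespace Cfsg.Agent.H81.Em

open Subgroup Cfsg.Agent.H62
open scoped commutatorElement

universe u

variable {G : Type u} [Group G]

theorem rl {a b c : G} (h : a * b = c) (x : G) : a * (b * x) = c * x := by rw [← mul_assoc, h]

theorem fix_of_comm {a b : G} (h : a * b = b * a) : a * b * a⁻¹ = b := by
  rw [h, mul_inv_cancel_right]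

theorem comm_of_fix {a b : G} (h : a * b * a⁻¹ = b) : a * b = b * a := mul_inv_eq_iff_eq_mul.1 h

theorem cj_mul {c x y x' y' : G} (h : c * x * c⁻¹ = x') (h' : c * y * c⁻¹ = y') :
    c * (x * y) * c⁻¹ = x' * y' := by rw [← h, ← h']; group

theorem cj_comp {c d x y w : G} (h : c * x * c⁻¹ = y) (h' : d * y * d⁻¹ = w) :
    d * c * x * (d * c)⁻¹ = w := by rw [← h', ← h]; group

theorem cj_symm {c x y : G} (h : c * x * c⁻¹ = y) : c⁻¹ * y * c = x := by rw [← h]; group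

theorem cj_comm {c x y : G} (h : x * y = y * x) :
    c * x * c⁻¹ * (c * y * c⁻¹) = c * y * c⁻¹ * (c * x * c⁻¹) := by
  calc _ = c * (x * y) * c⁻¹ := by group
    _ = _ := by rw [h]; group

theorem cj_sq {x : G} (c : G) (h : x * x = 1) : c * x * c⁻¹ * (c * x * c⁻¹) = 1 := by
  calc _ = c * (x * x) * c⁻¹ := by group
    _ = _ := by rw [h]; group

theorem comm_of_sq {x y : G} (hx : x * x = 1) (hy : y * y = 1) (h : x * y * (x * y) = 1) :
    x * y = y * x := by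
  rw [← inv_eq_of_sq h, mul_inv_rev, inv_eq_of_sq hx, inv_eq_of_sq hy]

theorem Two.mul {x y : G} (hx : Two x) (hy : Two y) (h : x * y = y * x) : Two (x * y) := by
  obtain ⟨k, hk⟩ := hx
  obtain ⟨l, hl⟩ := hy
  refine ⟨k + l, ?_⟩
  rw [Commute.mul_pow h, pow_add, pow_mul, hk, mul_comm (2 ^ k), pow_mul, hl, one_pow, one_pow,
    one_mul]

theorem two_of_sq {x : G} (h : x * x = 1) : Two x := is2_of_sq h

theorem two_of_mem {H : Subgroup G} (h : IsPGroup 2 H) {x : G} (hx : x ∈ H) : Two x :=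
  is2_of_mem h hx

theorem Two.conj {x : G} (h : Two x) (c : G) : Two (c * x * c⁻¹) := Is2.conj h c

theorem Two.cube {x : G} (h : Two x) (h3 : x ^ 3 = 1) : x = 1 :=
  eq_one_of_odd_of_is2 (odd_orderOf_of_cube (by rw [← h3, pow_three, mul_assoc])) h

theorem cyc3 {p x : G} (A B C : G → Prop) (h1 : ∀ w, A w → B (p * w * p⁻¹))
    (h2 : ∀ w, B w → C (p * w * p⁻¹)) (h3 : ∀ w, C w → A (p * w * p⁻¹)) (a : A x) (b : ¬ B x)
    (c : ¬ C x) : 3 ∣ orderOf p := by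
  have k : ∀ n : ℕ, (n % 3 = 0 → A (p ^ n * x * (p ^ n)⁻¹)) ∧
      (n % 3 = 1 → B (p ^ n * x * (p ^ n)⁻¹)) ∧ (n % 3 = 2 → C (p ^ n * x * (p ^ n)⁻¹)) := by
    intro n
    induction n with
    | zero => simpa using a
    | succ n ih =>
      rw [show p ^ (n + 1) * x * (p ^ (n + 1))⁻¹ = p * (p ^ n * x * (p ^ n)⁻¹) * p⁻¹ by group]
      exact ⟨fun e => h3 _ (ih.2.2 (by omega)), fun e => h1 _ (ih.1 (by omega)),
        fun e => h2 _ (ih.2.1 (by omega))⟩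
  have := k (orderOf p)
  rw [pow_orderOf_eq_one, one_mul, inv_one, mul_one] at this
  by_contra e
  rcases (by omega : orderOf p % 3 = 1 ∨ orderOf p % 3 = 2) with e | e
  exacts [b (this.2.1 e), c (this.2.2 e)]

/-- The conjugate `c A c⁻¹`. -/
def cj (c : G) (A : Subgroup G) : Subgroup G := A.map (MulAut.conj c).toMonoidHom

theorem mem_cj {c x : G} {A : Subgroup G} : x ∈ cj c A ↔ c⁻¹ * x * c ∈ A :=
  ⟨by rintro ⟨y, hy, rfl⟩; simpa [mul_assoc] using hy, fun h => ⟨_, h, by simp [mul_assoc]⟩⟩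

theorem card_cj (c : G) (A : Subgroup G) : Nat.card (cj c A) = Nat.card A :=
  (Nat.card_congr (A.equivMapOfInjective _ (MulAut.conj c).injective).toEquiv).symm

theorem mem_C1 {x y : G} : x ∈ C1 y ↔ x * y = y * x := mem_centralizer_singleton_iff

/-- The subgroup `A ∪ b A`. -/
def adj (A : Subgroup G) (b : G) (hb : ∀ x ∈ A, b * x * b⁻¹ ∈ A) (h2 : b * b ∈ A) :
    Subgroup G where
  carrier := {x | x ∈ A ∨ b * x ∈ A}
  one_mem' := Or.inl (one_mem _)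
  mul_mem' := by
    rintro x y (hx | hx) (hy | hy)
    · exact Or.inl (mul_mem hx hy)
    · refine Or.inr ?_
      rw [show b * (x * y) = b * x * b⁻¹ * (b * y) by group]
      exact mul_mem (hb _ hx) hy
    · exact Or.inr (mul_assoc b x y ▸ mul_mem hx hy)
    · refine Or.inl ?_
      rw [show x * y = (b * b)⁻¹ * (b * (b * x) * b⁻¹) * (b * y) by group]
      exact mul_mem (mul_mem (inv_mem h2) (hb _ hx)) hy
  inv_mem' := by
    rintro x (hx | hx)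
    · exact Or.inl (inv_mem hx)
    · refine Or.inr ?_
      rw [show b * x⁻¹ = b * (b * x)⁻¹ * b⁻¹ * (b * b) by group]
      exact mul_mem (hb _ (inv_mem hx)) h2

section adj

variable {A H : Subgroup G} {b : G} {hb : ∀ x ∈ A, b * x * b⁻¹ ∈ A} {h2 : b * b ∈ A}

theorem mem_adj {x : G} : x ∈ adj A b hb h2 ↔ x ∈ A ∨ b * x ∈ A := Iff.rfl

theorem le_adj : A ≤ adj A b hb h2 := fun _ => Or.inl

theorem self_mem_adj : b ∈ adj A b hb h2 := Or.inr h2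

theorem adj_le (h : A ≤ H) (h' : b ∈ H) : adj A b hb h2 ≤ H := by
  rintro x (hx | hx)
  · exact h hx
  · exact (mul_mem_cancel_left h').1 (h hx)

theorem card_adj (h : b ∉ A) : Nat.card (adj A b hb h2) = 2 * Nat.card A := by
  rw [H8.card_eq_card_mul_relIndex (le_adj (hb := hb) (h2 := h2)),
    relIndex_eq_two_iff_exists_notMem_and'.2 ⟨b, self_mem_adj, h, fun _ hx => hx.symm⟩, mul_comm]

end adj

theorem card_zp {t : G} (tt : t * t = 1) (t1 : t ≠ 1) : Nat.card (zpowers t) = 2 := by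
  rw [Nat.card_zpowers, orderOf_two_of_sq tt t1]

section Fin

variable [Finite G]

theorem two_mul_le {H K : Subgroup G} (h : H ≤ K) {x : G} (hx : x ∈ K) (hn : x ∉ H) :
    2 * Nat.card H ≤ Nat.card K := by
  obtain ⟨n, hn1⟩ := card_dvd_of_le h
  have h1 : n ≠ 1 := fun e => hn ((eq_of_le_of_card_ge h (by rw [hn1, e, mul_one])).ge hx)
  have h2 : n ≠ 0 := fun e => Nat.card_pos.ne' (by rw [hn1, e, mul_zero])
  rw [hn1, mul_comm]
  exact Nat.mul_le_mul_left _ (by omega)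

theorem mul_mem_of_card {U W : Subgroup G} (hUW : U ≤ W) (h : Nat.card W ≤ 2 * Nat.card U)
    {a b : G} (ha : a ∈ W) (hb : b ∈ W) (a1 : a ∉ U) (b1 : b ∉ U) : a * b ∈ U := by
  have h1 := two_mul_le hUW ha a1
  have h2 := H8.card_eq_card_mul_relIndex hUW
  have h3 : (U.subgroupOf W).index = 2 :=
    Nat.eq_of_mul_eq_mul_left (Nat.card_pos (α := U)) (by rw [← relIndex, ← h2]; omega)
  exact (mul_mem_iff_of_index_two h3 (a := ⟨a, ha⟩) (b := ⟨b, hb⟩)).2 (iff_of_false a1 b1)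

theorem card_le_two_mul {D P : Subgroup G} (h : ∀ x ∈ D, ∀ y ∈ D, x ∉ P → y ∉ P → x * y ∈ P) :
    Nat.card D ≤ 2 * Nat.card (D ⊓ P : Subgroup G) := by
  by_cases e : D ≤ P
  · rw [inf_eq_left.2 e]; omega
  obtain ⟨b, hb, b1⟩ := not_forall₂_iff_aux e
  have : (D ⊓ P).relIndex D = 2 :=
    relIndex_eq_two_iff_exists_notMem_and'.2 ⟨b, hb, fun k => b1 (mem_inf.1 k).2, fun x hx => by
      by_cases e : x ∈ P
      · exact Or.inr ⟨hx, e⟩
      · exact Or.inl ⟨mul_mem hb hx, h _ hb _ hx b1 e⟩⟩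
  rw [H8.card_eq_card_mul_relIndex (inf_le_left : D ⊓ P ≤ D), this, mul_comm]
where
  not_forall₂_iff_aux {D P : Subgroup G} (e : ¬ D ≤ P) : ∃ b ∈ D, b ∉ P := by
    by_contra k
    exact e fun x hx => by_contra fun k' => k ⟨x, hx, k'⟩

theorem card_le_two {B : Subgroup G} {b : G} (hb : b ∈ B) (b1 : b ≠ 1) (bb : b * b = 1)
    (h : Nat.card B ≤ 2) {x : G} (hx : x ∈ B) : x = 1 ∨ x = b :=
  (mem_zp bb).1 ((eq_of_le_of_card_ge (zpowers_le.2 hb) (by rwa [card_zp bb b1])).ge hx)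

theorem conj_inv_mem {A : Subgroup G} {c : G} (h : ∀ x ∈ A, c * x * c⁻¹ ∈ A) {x : G}
    (hx : x ∈ A) : c⁻¹ * x * c ∈ A := conj_mem_of_norm' (mem_normalizer_of_forall h) hx

end Fin

theorem int_cen {X : Type u} [Group X] [Finite X] {P : Subgroup X} {y s b : X}
    (hy : ∀ x ∈ P, y * x * y⁻¹ ∈ P) (y3 : y ^ 3 = 1) (hf : ∀ x ∈ P, y * x * y⁻¹ = x → x = 1)
    (hs : ∀ x ∈ P, s * x * s ∈ P) (ss : s * s = 1) (sy : s * y * s = y⁻¹) (hb : b ∈ P)
    (sb : s * b * s = b) (h : ∀ x ∈ P, s * x * s = x → ⁅b, x⁆ = 1) {q : X} (hq : q ∈ P) :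
    ⁅b, q⁆ = 1 := by
  have f : FP P ⊥ y := ⟨fun c _ k hk => by simp_all, hy, fun k hk => by simp_all, y3,
    fun x hx e => hf x hx (inv_mul_eq_one.1 e).symm⟩
  have c := (int_aux hy y3 hf).2
  have si := inv_eq_of_sq ss
  have cP : ∀ a ∈ P, ∀ b ∈ P, ⁅a, b⁆ ∈ P := fun a ha b hb => by
    rw [commutatorElement_def]
    exact mul_mem (mul_mem (mul_mem ha hb) (inv_mem ha)) (inv_mem hb)
  have rr : ∀ a ∈ P, ∀ b ∈ P, ∀ v ∈ P, ⁅v, a * b⁆ = ⁅v, a⁆ * ⁅v, b⁆ := fun a ha b hb v hv => by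
    calc _ = ⁅v, a⁆ * (a * ⁅v, b⁆ * a⁻¹) := by simp only [commutatorElement_def]; group
      _ = _ := by rw [← c v hv b hb a ha, mul_inv_cancel_right]
  have s1 : ∀ x, s * (y * x * y⁻¹) * s = y⁻¹ * (s * x * s) * y := fun x => by
    calc _ = s * y * s * (s * x * s) * (s * y * s)⁻¹ := by
          simp only [mul_inv_rev, si, mul_assoc, rl ss, one_mul]
      _ = _ := by rw [sy, inv_inv]
  have s2 : ∀ x, s * (y⁻¹ * x * y) * s = y * (s * x * s) * y⁻¹ := fun x => by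
    calc _ = (s * y * s)⁻¹ * (s * x * s) * (s * y * s) := by
          simp only [mul_inv_rev, si, mul_assoc, rl ss, one_mul]
      _ = _ := by rw [sy, inv_inv]
  have fx : ∀ k ∈ P, y⁻¹ * k * y = y * k * y⁻¹ → k = 1 := fun k hk e => by
    have := hf _ (hy _ hk) (by rw [cj2 y3, e])
    calc k = y⁻¹ * (y * k * y⁻¹) * y := by group
      _ = 1 := by rw [this]; group
  have t1 : ∀ w ∈ P, ⁅b, y * w * y⁻¹⁆ = y⁻¹ * ⁅b, w⁆ * y := fun w hw => int_tw hy y3 hf hb hw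
  have t2 : ∀ w ∈ P, ⁅b, y⁻¹ * w * y⁆ = y * ⁅b, w⁆ * y⁻¹ := fun w hw => by
    rw [← cj2 y3, t1 _ (hy _ hw), t1 _ hw, ← cj2 y3 (y⁻¹ * ⁅b, w⁆ * y)]; group
  have k1 : ∀ w ∈ P, s * w * s = w⁻¹ → ⁅b, w⁆ = 1 := fun w hw e => by
    have e' : s * w⁻¹ * s = w := by rw [← e]; simp [mul_assoc, si, rl ss, ss]
    have c1 := mem_bot.1 (f.tw_mem (hy _ hw) (hy _ hw) (by simp))
    rw [cj2 y3, commutatorElement_eq_one_iff_commute] at c1
    have := h _ (mul_mem (hy _ hw) (f.yP' (inv_mem hw))) (by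
      calc _ = s * (y * w * y⁻¹) * s * (s * (y⁻¹ * w⁻¹ * y) * s) := by
            simp only [mul_assoc, rl ss, one_mul]
        _ = (y⁻¹ * w * y)⁻¹ * (y * w * y⁻¹) := by rw [s1, s2, e, e']; group
        _ = _ := by rw [← c1.inv_right.eq]; group)
    rw [rr _ (hy _ hw) _ (f.yP' (inv_mem hw)) _ hb, t1 _ hw, t2 _ (inv_mem hw)] at this
    have e2 : ⁅b, w⁻¹⁆ = ⁅b, w⁆⁻¹ := eq_inv_of_mul_eq_one_right (by
      rw [← rr _ hw _ (inv_mem hw) _ hb, mul_inv_cancel, commutatorElement_one_right])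
    refine fx _ (cP _ hb _ hw) ?_
    rw [eq_inv_of_mul_eq_one_left this, e2]; group
  have k2 : ∀ q ∈ P, s * ⁅b, q⁆ * s = ⁅b, q⁆ := fun q hq => by
    have := k1 _ (mul_mem (inv_mem hq) (hs _ hq)) (by simp [mul_assoc, si, rl ss, ss])
    calc _ = ⁅s * b * s, s * q * s⁆ := by
          simp only [commutatorElement_def, mul_inv_rev, si, mul_assoc, rl ss, one_mul]
      _ = ⁅b, q * (q⁻¹ * (s * q * s))⁆ := by rw [sb, mul_inv_cancel_left]
      _ = _ := by rw [rr _ hq _ (mul_mem (inv_mem hq) (hs _ hq)) _ hb, this, mul_one]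
  have := k2 _ (hy _ hq)
  rw [t1 _ hq, s2, k2 _ hq] at this
  exact fx _ (cP _ hb _ hq) this.symm

theorem FP.cen [Finite G] {P K : Subgroup G} {y s b : G} (h : FP P K y)
    (sP : ∀ x ∈ P, s * x * s ∈ P) (sK : ∀ x ∈ K, s * x * s⁻¹ ∈ K) (ss : s * s = 1)
    (sy : s * y * s = y⁻¹) (hb : b ∈ P) (sb : s * b * s = b)
    (e : ∀ x ∈ P, s * x * s * x⁻¹ ∈ K → ⁅b, x⁆ ∈ K) {q : G} (hq : q ∈ P) : ⁅b, q⁆ ∈ K := by
  have PN : P ≤ Nm K := fun c hc => mem_normalizer_fintype (h.nK c hc)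
  have yN : y ∈ Nm K := mem_normalizer_fintype h.yK
  have sN : s ∈ Nm K := mem_normalizer_fintype sK
  let f := QuotientGroup.mk' (K.subgroupOf (Nm K))
  have hf : ∀ n : Nm K, f n = 1 ↔ (n : G) ∈ K := fun n => QuotientGroup.eq_one_iff n
  let P' := (P.subgroupOf (Nm K)).map f
  have m : ∀ {x} (hx : x ∈ P), f ⟨x, PN hx⟩ ∈ P' := fun hx => ⟨_, hx, rfl⟩
  refine (hf ⁅(⟨b, PN hb⟩ : Nm K), (⟨q, PN hq⟩ : Nm K)⁆).1 ?_
  rw [map_commutatorElement]
  refine int_cen (P := P') (y := f ⟨y, yN⟩) (s := f ⟨s, sN⟩) ?_ ?_ ?_ ?_ ?_ ?_ (m hb) ?_ ?_ (m hq)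
  · rintro _ ⟨x, hx, rfl⟩
    exact ⟨⟨y, yN⟩ * x * ⟨y, yN⟩⁻¹, h.yP _ hx, by simp⟩
  · rw [← map_pow, show (⟨y, yN⟩ : Nm K) ^ 3 = 1 from Subtype.ext h.y3, map_one]
  · rintro _ ⟨x, hx, rfl⟩ e
    refine (hf _).2 (h.fpf _ hx ((hf (x⁻¹ * (⟨y, yN⟩ * x * ⟨y, yN⟩⁻¹))).1 ?_))
    rw [map_mul, map_mul, map_mul, map_inv, map_inv, e, inv_mul_cancel]
  · rintro _ ⟨x, hx, rfl⟩
    exact ⟨⟨s, sN⟩ * x * ⟨s, sN⟩, sP _ hx, by simp⟩
  · rw [← map_mul, show (⟨s, sN⟩ * ⟨s, sN⟩ : Nm K) = 1 from Subtype.ext ss, map_one]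
  · rw [← map_mul, ← map_mul, ← map_inv]
    exact congrArg f (Subtype.ext sy)
  · rw [← map_mul, ← map_mul]
    exact congrArg f (Subtype.ext sb)
  · rintro _ ⟨x, hx, rfl⟩ k
    rw [← map_commutatorElement]
    refine (hf _).2 (e _ hx ((hf (⟨s, sN⟩ * x * ⟨s, sN⟩ * x⁻¹)).1 ?_))
    rw [map_mul, map_mul, map_mul, k, map_inv, mul_inv_cancel]

end Cfsg.Agent.H81.Em
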