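import Cfsg.Agent.H81.EmBas

/-!
The case `A₅`: the group `R = C(t) ∩ C(z)`.
-/

set_option autoImplicit false

namespace Cfsg.Agent.H81.Em

open Subgroup Cfsg.Agent.H62
open scoped commutatorElement

universe u

variable {G : Type u} [Group G]

theorem Loc5.cmQ {t z y : G} {Q T : Subgroup G} (l : Loc5 t z y Q T) {x w : G} (hx : x ∈ Q)
    (hw : w ∈ Q) : ⁅x, w⁆ ∈ zpowers t := by
  have k : ∀ x ∈ Q, x * x ∈ zpowers t := fun x hx =>
    (l.sq x hx).elim (· ▸ one_mem _) (· ▸ mem_zpowers _)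
  convert mul_mem (mul_mem (k x hx) (k _ (mul_mem (inv_mem hx) hw))) (inv_mem (k w hw)) using 1
  rw [commutatorElement_def]; group

theorem Kit.fpT {a t r z g h y : G} {Q T : Subgroup G} (k : Kit a t r z g h)
    (l : Loc5 t z y Q T) : FP T (zpowers t) y :=
  k.fp k.tt k.t1 l.y3 l.y1 l.yt (l.QT l.tQ) l.le (fun _ => two_of_mem l.two) l.yT

theorem Kit.rR {a t r z g h x : G} (k : Kit a t r z g h) (h1 : x * t = t * x) (h2 : x * z = z * x) :
    r * x * r * t = t * (r * x * r) ∧ r * x * r * z = z * (r * x * r) := by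
  have e : r * (t * z) * r = t := by rw [← k.rtr]; simp [mul_assoc, rl k.rr, k.rr]
  exact ⟨by simpa only [k.ri, e] using cj_comm (c := r) (Commute.mul_right h1 h2).eq,
    by simpa only [k.ri, k.rzr] using cj_comm (c := r) h2⟩

/-- **RD** -/
theorem rd : RDStmt.{u} := by
  intro G _ _ a t r z g h k y Q T l
  have f := k.fpT l
  set R := C1 t ⊓ C1 z with hR
  have m : ∀ x, x ∈ R ↔ x * t = t * x ∧ x * z = z * x := fun x => by rw [mem_inf, mem_C1, mem_C1]
  have RT : ∀ x ∈ R, x ∈ T := fun x hx => l.cen x ((m x).1 hx).1 ((m x).1 hx).2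
  have tR : t ∈ R := (m t).2 ⟨rfl, k.zt.symm⟩
  have zR : z ∈ R := (m z).2 ⟨k.zt, rfl⟩
  have KR : zpowers t ≤ R := zpowers_le.2 tR
  have n := f.norm l.zT
  have s2 := cj_sq y k.zz
  have s3 : y⁻¹ * z * y * (y⁻¹ * z * y) = 1 := by simpa only [inv_inv] using cj_sq y⁻¹ k.zz
  have z2 : y * z * y⁻¹ ∈ R := (m _).2 ⟨l.le _ (l.yT _ l.zT), (comm_of_sq k.zz s2 (by
    rcases (mem_zp k.tt).1 n with n | n <;> rw [eq_mul_inv_of_mul_eq n, inv_eq_of_sq s3]
    · rw [one_mul, s3]
    · rw [mul_assoc, ← mul_assoc _ t, l.le _ (f.yP' l.zT), mul_assoc t, s3, mul_one, k.tt])).symm⟩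
  have z3 : y⁻¹ * z * y ∈ R := (R.mul_mem_cancel_left (mul_mem zR z2)).1 (KR n)
  have c0 : ∀ x ∈ R, ⁅z, x⁆ ∈ zpowers t := fun x hx => by
    rw [commutatorElement_eq_one_iff_mul_comm.2 ((m x).1 hx).2.symm]; exact one_mem _
  have sq : ∀ x ∈ R, x * x ∈ zpowers t := fun x hx => by
    have xT := RT x hx
    have k1 : ∀ x ∈ Q, x * x ∈ zpowers t := fun x hx =>
      (l.sq x hx).elim (· ▸ one_mem _) (· ▸ mem_zpowers _)
    have k2 : ∀ w, w * w = 1 → ⁅w, x⁻¹⁆ ∈ zpowers t → x * w ∈ Q → x * x ∈ zpowers t :=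
      fun w ww e hw => by
        convert mul_mem (k1 _ hw) e using 1
        simp only [commutatorElement_def, inv_eq_of_sq ww, inv_inv, mul_assoc, rl ww, one_mul,
          mul_inv_cancel_left]
    rcases l.cov x xT with e | e | e | e
    · exact k1 x e
    · exact k2 z k.zz (c0 _ (inv_mem hx)) e
    · refine k2 _ s2 ?_ e
      convert f.yK _ (f.inv.tw_mem l.zT (inv_mem xT) (c0 _ (inv_mem hx))) using 1
      simp only [commutatorElement_def]; group
    · refine k2 _ s3 ?_ e
      convert f.yK' (f.tw_mem l.zT (inv_mem xT) (c0 _ (inv_mem hx))) using 1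
      simp only [commutatorElement_def]; group
  have ea : EA R := fun x hx => by
    refine ((mem_zp k.tt).1 (sq x hx)).resolve_right fun e => ?_
    have := sq _ ((m _).2 (k.rR ((m x).1 hx).1 ((m x).1 hx).2))
    rw [show r * x * r * (r * x * r) = r * (x * x) * r by simp [mul_assoc, rl k.rr], e, k.rtr,
      mul_mem_cancel_left (mem_zpowers t), mem_zp k.tt] at this
    rcases this with e | e
    · exact k.z1 e
    · exact l.zQ (e ▸ l.tQ)
  have yR : ∀ x ∈ R, y * x * y⁻¹ ∈ R := fun x hx => (m _).2 ⟨l.le _ (l.yT _ (RT x hx)), by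
    simpa [mul_assoc] using cj_comm (c := y) (ea.comm hx z3)⟩
  have hat : ∀ x ∈ T, ⁅z, x⁆ ∈ zpowers t → x ∈ R := fun x hx e => by
    by_contra c
    have k1 : ∀ x ∈ T, ⁅z, x⁆ ∈ zpowers t → x ∉ R → x * z * x⁻¹ = z * t := fun x hx e c => by
      rcases (mem_zp k.tt).1 e with e | e
      · exact (c ((m x).2 ⟨l.le x hx, (commutatorElement_eq_one_iff_mul_comm.1 e).symm⟩)).elim
      · rw [← e, commutatorElement_def, k.zi]
        simp only [mul_assoc, rl k.zz, one_mul]
    have h1 := k1 x hx e c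
    have h2 := k1 _ (l.yT x hx) (f.tw_mem l.zT hx e) fun e => c (by
      simpa [mul_assoc] using conj_inv_mem yR e)
    have h3 := k1 _ (f.yP' hx) (by simpa only [inv_inv] using f.inv.tw_mem l.zT hx e) fun e => c (by
      simpa [mul_assoc] using yR _ e)
    have h4 := cj_comp h3 (cj_comp (cj_mul h2 (fix_of_comm (l.le _ (l.yT x hx))))
      (cj_mul (cj_mul h1 (fix_of_comm (l.le x hx))) (fix_of_comm (l.le x hx))))
    rw [fix_of_comm ((m _).1 (KR (f.norm hx))).2, mul_assoc, k.tt, mul_one] at h4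
    exact k.t1 (mul_eq_left.1 h4.symm)
  refine ⟨m, ea, yR, fun c hc x hx => ?_, fun s hs s1 q hq e => ?_, ?_⟩
  · have xT := RT x hx
    have : ⁅c, x⁆ ∈ R := hat _ (mul_mem (mul_mem (mul_mem hc xT) (inv_mem hc)) (inv_mem xT))
      (by rw [← commutatorElement_inv]; exact inv_mem (f.cls hc xT l.zT))
    simpa [commutatorElement_def] using mul_mem this hx
  · have qT := l.QT hq
    have k1 : ∀ w, s * w ∈ Q → ⁅w, q⁆ ∈ zpowers t := fun w hw => by
      have := f.nK _ (inv_mem (RT s hs)) _ (l.cmQ hw hq)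
      convert this using 1
      simp only [commutatorElement_def, mul_inv_rev, inv_inv, mul_assoc, inv_mul_cancel_left]
      rw [← mul_assoc s⁻¹, (Commute.inv_inv e).symm.eq, mul_assoc, inv_mul_cancel, mul_one]
    rcases l.cov s (RT s hs) with e | e | e | e
    · exact (s1 e).elim
    · exact hat q qT (k1 z e)
    · have := hat _ (f.yP' qT) (by
        convert f.yK' (k1 _ e) using 1
        simp only [commutatorElement_def]; group)
      simpa [mul_assoc] using yR _ this
    · have := hat _ (f.yP _ qT) (by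
        convert f.yK _ (k1 _ e) using 1
        simp only [commutatorElement_def]; group)
      simpa [mul_assoc] using conj_inv_mem yR this
  · let A1 := adj (Q ⊓ R) z (fun x hx => by rwa [fix_of_comm (ea.comm zR hx.2)]) (k.zz ▸ one_mem _)
    have l1 : A1 ≤ R := adj_le inf_le_right zR
    have c1 : Nat.card A1 = 2 * _ := card_adj fun e => l.zQ (mem_inf.1 e).1
    let A2 := adj A1 (y * z * y⁻¹) (fun x hx => by rwa [fix_of_comm (ea.comm z2 (l1 hx))])
      (s2 ▸ one_mem A1)
    have c2 : Nat.card A2 = 2 * _ := card_adj (by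
        rintro (e | e)
        · exact l.zQ (by simpa [mul_assoc] using conj_inv_mem (l.nrm y l.yt) e.1)
        · exact l.z2 e.1)
    suffices e : A2 = R by rw [e] at c2; omega
    refine le_antisymm (adj_le l1 z2) fun x hx => ?_
    rcases l.cov x (RT x hx) with e | e | e | e
    · exact .inl (.inl ⟨e, hx⟩)
    · exact .inl (.inr ⟨ea.comm hx zR ▸ e, mul_mem zR hx⟩)
    · exact .inr (.inl ⟨ea.comm hx z2 ▸ e, mul_mem z2 hx⟩)
    · refine .inr (.inr ⟨?_, mul_mem zR (mul_mem z2 hx)⟩)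
      have := mul_mem (zpowers_le.2 l.tQ n) (ea.comm hx z3 ▸ e)
      rwa [mul_assoc, rl s3, one_mul, mul_assoc] at this

end Cfsg.Agent.H81.Em
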