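import Cfsg.Agent.H81.EmBas

/-!
The solvable case: the group `B = Q ∩ Q^r`.
-/

set_option autoImplicit false

namespace Cfsg.Agent.H81.Em

open Subgroup Cfsg.Agent.H62
open scoped commutatorElement

universe u

variable {G : Type u} [Group G]

/-- The data of the solvable case. -/
structure S3 (a t r z g h : G) (Q B : Subgroup G) : Prop extends Kit a t r z g h, Loc3 t Q where
  memB : ∀ x, x ∈ B ↔ x ∈ Q ∧ r * x * r ∈ Q

namespace S3

variable {a t r z g h : G} {Q B : Subgroup G} (s : S3 a t r z g h Q B)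
include s

theorem gQ {x : G} (hx : x ∈ Q) : g * x * g⁻¹ ∈ Q := s.nrm g s.tg.symm x hx

theorem nzQ : z ∉ Q := s.toKit.zQ s.two fun _ => s.gQ

theorem BQ {x : G} (hx : x ∈ B) : x ∈ Q := ((s.memB x).1 hx).1

theorem Br {x : G} (hx : x ∈ B) : r * x * r ∈ B :=
  (s.memB _).2 ⟨((s.memB x).1 hx).2, by simpa [mul_assoc, rl s.rr, s.rr] using s.BQ hx⟩

theorem Bt {x : G} (hx : x ∈ B) : x * t = t * x := s.le x (s.BQ hx)

theorem rc {x y : G} (e : x * y = y * x) : r * x * r * (r * y * r) = r * y * r * (r * x * r) := by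
  simpa only [s.ri] using cj_comm (c := r) e

theorem rrr (x : G) : r * (r * x * r) * r = x := by simp [mul_assoc, rl s.rr, s.rr]

theorem rmul (x y : G) : r * (x * y) * r = r * x * r * (r * y * r) := by
  simp [mul_assoc, rl s.rr]

theorem rtzr : r * (t * z) * r = t := by rw [← s.rtr, s.rrr]

theorem Bz {x : G} (hx : x ∈ B) : x * z = z * x := by
  have := s.rc (s.Bt (s.Br hx))
  rw [s.rrr, s.rtr, ← mul_assoc, s.Bt hx, mul_assoc, mul_assoc] at this
  exact mul_left_cancel this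

theorem tB : t ∉ B := fun e => s.nzQ ((Q.mul_mem_cancel_left s.tQ).1 (s.rtr ▸ s.BQ (s.Br e)))

theorem B1 {x : G} (hx : x ∈ B) (e : x ∈ zpowers t) : x = 1 :=
  ((mem_zp s.tt).1 e).resolve_right fun e => s.tB (e ▸ hx)

theorem twoQ {x : G} (hx : x ∈ Q) : Two x := two_of_mem s.two hx

theorem orz {f : G} (h2 : Two f) (c1 : f * t = t * f) (c2 : f * z = z * f) : f ∈ Q ∨ f * z ∈ Q :=
  or_iff_not_imp_left.2 fun e => s.mul f z c1 s.zt h2 (two_of_sq s.zz)
    (h2.mul (two_of_sq s.zz) c2) e s.nzQ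

theorem dec {f : G} (h2 : Two f) (c1 : f * t = t * f) (c2 : f * z = z * f) :
    f ∈ B ∨ f * t ∈ B ∨ f * z ∈ B ∨ f * (t * z) ∈ B := by
  have c3 : f * (t * z) = t * z * f := (Commute.mul_right c1 c2).eq
  have o := s.orz (f := r * f * r) (by simpa only [s.ri] using h2.conj r)
    (by simpa only [s.rtzr] using s.rc c3) (by simpa only [s.rzr] using s.rc c2)
  simp only [s.memB, s.rmul, s.rtr, s.rzr, s.rtzr]
  have e : ∀ x, x * (t * z) = x * z * t := fun x => by rw [mul_assoc, s.zt]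
  rcases s.orz h2 c1 c2 with p | p <;> rcases o with o | o
  · exact .inl ⟨p, o⟩
  · exact .inr (.inl ⟨mul_mem p s.tQ, e _ ▸ mul_mem o s.tQ⟩)
  · refine .inr (.inr (.inr ⟨e _ ▸ mul_mem p s.tQ, ?_⟩))
    rw [mul_assoc t, s.zz, mul_one]
    exact mul_mem o s.tQ
  · exact .inr (.inr (.inl ⟨p, o⟩))

theorem fpQ : FP Q (zpowers t) g :=
  s.toKit.fp s.tt s.t1 s.g3 s.g1 s.tg.symm s.tQ s.le (fun _ => s.twoQ) fun _ => s.gQ

theorem cardA [Finite G] : Nat.card (Q ⊓ C1 z : Subgroup G) = 2 * Nat.card B := by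
  rw [← card_adj (hb := fun x hx => by rwa [fix_of_comm (s.Bt hx).symm])
    (h2 := s.tt ▸ one_mem _) s.tB]
  congr 2
  refine le_antisymm (fun x hx => ?_) (adj_le (fun x hx => ⟨s.BQ hx, mem_C1.2 (s.Bz hx)⟩)
    ⟨s.tQ, mem_C1.2 s.zt.symm⟩)
  rcases s.dec (s.twoQ hx.1) (s.le x hx.1) (mem_C1.1 hx.2) with e | e | e | e
  · exact .inl e
  · exact .inr (s.le x hx.1 ▸ e)
  · exact (s.nzQ ((Q.mul_mem_cancel_left hx.1).1 (s.BQ e))).elim
  · exact (s.nzQ ((Q.mul_mem_cancel_left s.tQ).1 ((Q.mul_mem_cancel_left hx.1).1 (s.BQ e)))).elim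

theorem exR [Finite G] : ∃ R : Subgroup G, (∀ x, x ∈ R ↔ Two x ∧ x * t = t * x ∧ x * z = z * x) ∧
    Nat.card R = 4 * Nat.card B := by
  refine ⟨adj (Q ⊓ C1 z) z (fun x hx => by rwa [fix_of_comm (mem_C1.1 hx.2).symm])
    (s.zz ▸ one_mem _), fun x => ⟨?_, fun hx => ?_⟩, ?_⟩
  · rintro (hx | hx)
    · exact ⟨s.twoQ hx.1, s.le x hx.1, mem_C1.1 hx.2⟩
    · have e : x = z * (z * x) := by rw [rl s.zz, one_mul]
      have c := mem_C1.1 hx.2
      rw [e]
      exact ⟨(two_of_sq s.zz).mul (s.twoQ hx.1) c.symm, Commute.mul_left s.zt (s.le _ hx.1),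
        Commute.mul_left rfl c⟩
  · rcases s.orz hx.1 hx.2.1 hx.2.2 with e | e
    · exact .inl ⟨e, mem_C1.2 hx.2.2⟩
    · exact .inr ⟨hx.2.2 ▸ e, mem_C1.2 (Commute.mul_left rfl hx.2.2)⟩
  · rw [card_adj fun e => s.nzQ (mem_inf.1 e).1, s.cardA]; ring

theorem goal [Finite G] (e : Nat.card B ≤ 2) : Goal G := by
  obtain ⟨R, m, c⟩ := s.exR
  have p : 0 < Nat.card B := Nat.card_pos
  have tR : t ∈ R := (m t).2 ⟨two_of_sq s.tt, rfl, s.zt.symm⟩
  have zR : z ∈ R := (m z).2 ⟨two_of_sq s.zz, s.zt, rfl⟩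
  refine ⟨R, fun x hx => ?_, by omega, fun x h1 h2 => (m x).2 ⟨h1, h2 t tR, h2 z zR⟩⟩
  have b2 : ∀ y ∈ B, y * y = 1 := fun y hy => by
    have := orderOf_dvd_iff_pow_eq_one.1 (B.orderOf_dvd_natCard hy)
    rcases (by omega : Nat.card B = 1 ∨ Nat.card B = 2) with e | e <;> rw [e] at this
    · rw [pow_one] at this; rw [this, one_mul]
    · rwa [pow_two] at this
  obtain ⟨h1, h2, h3⟩ := (m x).1 hx
  have k : ∀ w, w * w = 1 → x * w = w * x → x * w ∈ B → x * x = 1 := fun w ww c e => by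
    have := b2 _ e
    rwa [mul_assoc, ← mul_assoc w, ← c, mul_assoc, ww, mul_one] at this
  rcases s.dec h1 h2 h3 with e | e | e | e
  exacts [b2 _ e, k t s.tt h2 e, k z s.zz h3 e, k _ s.tztz (Commute.mul_right h2 h3) e]

theorem one_of [Finite G] {f : G} (hf : f ∈ Q) (c : f * r = r * f) (e : a⁻¹ * f * a ∈ Q) : f = 1 := by
  by_contra f1
  obtain ⟨n, h1, h2⟩ := Is2.exists_invol (s.twoQ hf) f1
  have c2 : Commute (a ^ 2) (f ^ n) :=
    s.tr ▸ (Commute.mul_left (s.le f hf).symm c.symm).pow_right n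
  have m : ∀ i : ℕ, a ^ i * f ^ n * (a ^ i)⁻¹ ∈ Q := fun i => by
    rcases Nat.even_or_odd' i with ⟨j, rfl | rfl⟩
    · rw [pow_mul, fix_of_comm (c2.pow_left j)]
      exact pow_mem hf n
    · have := pow_mem e n
      rw [show a⁻¹ * f * a = a⁻¹ * f * a⁻¹⁻¹ by rw [inv_inv], conj_pow,
        ← fix_of_comm (c2.pow_left (j + 1))] at this
      convert this using 1
      rw [← pow_mul]; group
  refine h2 (s.nmA _ h1 fun i => comm_of_sq (cj_sq _ h1) (cj_sq _ (cj_sq _ h1)) ?_)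
  have n1 := s.fpQ.norm (m i)
  have n2 := s.le _ (s.fpQ.yP' (m i))
  have n3 : g⁻¹ * (a ^ i * f ^ n * (a ^ i)⁻¹) * g * (g⁻¹ * (a ^ i * f ^ n * (a ^ i)⁻¹) * g) = 1 := by
    simpa only [inv_inv] using cj_sq g⁻¹ (cj_sq (a ^ i) h1)
  rcases (mem_zp s.tt).1 n1 with n1 | n1 <;> rw [eq_mul_inv_of_mul_eq n1, inv_eq_of_sq n3]
  · rw [one_mul, n3]
  · rw [mul_assoc, ← mul_assoc _ t, n2, mul_assoc t, n3, mul_one, s.tt]

theorem uniqB [Finite G] {f f' : G} (hf : f ∈ Q) (hf' : f' ∈ Q) (c : f * r = r * f) (c' : f' * r = r * f')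
    (f1 : f ≠ 1) (f2 : f' ≠ 1) : f' = f := by
  have k : ∀ x ∈ Q, x * r = r * x → x ≠ 1 → a⁻¹ * x * a * z ∈ Q := fun x hx c x1 => by
    have c1 : x * z = z * x := by
      have : Commute x (t * r * (t * r)) :=
        (Commute.mul_right (s.le x hx) c).mul_right (Commute.mul_right (s.le x hx) c)
      rwa [s.tr, ← pow_add, ← s.hz] at this
    refine (s.orz (by simpa only [inv_inv] using (s.twoQ hx).conj a⁻¹) ?_ ?_).resolve_left
      fun e => x1 (s.one_of hx c e)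
    · simpa only [inv_inv, cj_symm s.hr.symm] using cj_comm (c := a⁻¹) c
    · simpa only [inv_inv, cj_symm (fix_of_comm s.az)] using cj_comm (c := a⁻¹) c1
  refine mul_inv_eq_one.1 (s.one_of (mul_mem hf' (inv_mem hf))
    (Commute.mul_left c' (Commute.inv_left c)) ?_)
  convert mul_mem (k _ hf' c' f2) (inv_mem (k _ hf c f1)) using 1
  group

theorem exb [Finite G] (e : B ≠ ⊥) : ∃ b ∈ B, b * b = 1 ∧ b ≠ 1 ∧ (∀ x ∈ B, x * b = b * x) ∧
    r * b * r = b := by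
  have two : IsPGroup 2 B := s.two.to_le fun _ => s.BQ
  obtain ⟨y, h1, h2, h3⟩ := exists_central two le_rfl e fun c hc x hx =>
    mul_mem (mul_mem hc hx) (inv_mem hc)
  obtain ⟨n, h4, h5⟩ := Is2.exists_invol (s.twoQ (s.BQ h1)) h2
  have h6 : ∀ x ∈ B, x * y ^ n = y ^ n * x := fun x hx => Commute.pow_right (h3 x hx) n
  have h7 := pow_mem h1 n
  generalize y ^ n = w at *
  by_cases c : r * w * r = w
  · exact ⟨w, h7, h4, h5, h6, c⟩
  have h8 : ∀ x ∈ B, x * (r * w * r) = r * w * r * x := fun x hx => by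
    simpa only [s.rrr] using s.rc (h6 _ (s.Br hx))
  have h9 : r * w * r * (r * w * r) = 1 := by simpa only [s.ri] using cj_sq r h4
  refine ⟨w * (r * w * r), mul_mem h7 (s.Br h7), ?_, fun e => c ?_,
    fun x hx => Commute.mul_right (h6 x hx) (h8 x hx), ?_⟩
  · rw [mul_assoc, ← mul_assoc (r * w * r), ← h8 _ h7, mul_assoc, h9, mul_one, h4]
  · rw [eq_inv_of_mul_eq_one_right e, inv_eq_of_sq h4]
  · rw [s.rmul, s.rrr, h8 _ h7]

end S3

end Cfsg.Agent.H81.Em
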