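import Cfsg.Agent.H81.EmSol1

/-!
The solvable case: an involution of `B` with trivial norm.
-/

set_option autoImplicit false

namespace Cfsg.Agent.H81.Em

open Subgroup Cfsg.Agent.H62
open scoped commutatorElement

universe u

variable {G : Type u} [Group G]

/-- A central involution of `B` that is fixed by `r`. -/
structure S4 (a t r z g h b : G) (Q B : Subgroup G) : Prop extends S3 a t r z g h Q B where
  bB : b ∈ B
  bb : b * b = 1
  b1 : b ≠ 1
  cb : ∀ x ∈ B, x * b = b * x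
  rb : r * b * r = b

namespace S4

variable [Finite G] {a t r z g h b : G} {Q B : Subgroup G} (s : S4 a t r z g h b Q B)
include s

theorem fixB {x : G} (hx : x ∈ B) (e : r * x * r = x) : x = 1 ∨ x = b :=
  or_iff_not_imp_left.2 fun x1 => s.uniqB (s.BQ s.bB) (s.BQ hx)
    (comm_of_fix (s.ri.symm ▸ s.rb)).symm (comm_of_fix (s.ri.symm ▸ e)).symm s.b1 x1

theorem tb : t * b = b * t := (s.Bt s.bB).symm

theorem zb : z * b = b * z := (s.Bz s.bB).symm

theorem bt : b ∉ zpowers t := fun e => s.b1 (s.B1 s.bB e)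

theorem last {v u b0 : G} (hv : v = g * b * g⁻¹) (e1 : g⁻¹ * b * g = b * v) (vb : v * b = b * v)
    (vv : v * v = 1) (uu : u * u = 1) (zv : z * v = b * v * z) (zu : z * u = b * u * z)
    (ub : u * b = b * u) (ut : u * t = b * t * u) (h0 : b0 ∈ B) (sq : b0 * b0 = b)
    (v0 : v * b0 = b0 * v) (u0 : u * b0 = b0 * u) (uv : u * v * u = v * (b0 * z)) : False := by
  have t0 := s.Bt h0
  have z0 := s.Bz h0
  have vQ : v ∈ Q := hv ▸ s.gQ (s.BQ s.bB)
  have vt := s.le v vQ
  obtain ⟨x, hx, xx, xn⟩ : ∃ x, (x = b0 ∨ x = b0 * t) ∧ x * x = b ∧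
      x * (g * x * g⁻¹) * (g⁻¹ * x * g) = 1 := by
    rcases (mem_zp s.tt).1 (s.fpQ.norm (s.BQ h0)) with n | n
    · exact ⟨b0, .inl rfl, sq, n⟩
    refine ⟨b0 * t, .inr rfl, by simp only [mul_assoc, rl t0.symm, s.tt, mul_one, sq], ?_⟩
    have c1 := s.le _ (s.gQ (s.BQ h0))
    have c2 := s.le _ (s.fpQ.yP' (s.BQ h0))
    rw [cj_mul rfl (fix_of_comm s.tg.symm), show g⁻¹ * (b0 * t) * g = g⁻¹ * b0 * g * t by
      rw [mul_assoc, mul_assoc, s.tg]; group]
    calc _ = b0 * (g * b0 * g⁻¹) * (g⁻¹ * b0 * g) * t := by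
          generalize g * b0 * g⁻¹ = p at c1
          generalize g⁻¹ * b0 * g = q at c2
          simp only [mul_assoc, rl c1.symm, rl c2.symm, s.tt, rl s.tt, one_mul]
      _ = 1 := by rw [n, s.tt]
  have xQ : x ∈ Q := by rcases hx with rfl | rfl; exacts [s.BQ h0, mul_mem (s.BQ h0) s.tQ]
  have xz : x * z = z * x := by
    rcases hx with rfl | rfl; exacts [z0, Commute.mul_left z0 s.zt.symm]
  have xv : x * v = v * x := by
    rcases hx with rfl | rfl; exacts [v0.symm, Commute.mul_left v0.symm vt.symm]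
  set d := g * x * g⁻¹ with hd
  have dQ : d ∈ Q := s.gQ xQ
  have dt := s.le d dQ
  have dd : d * d = v := by rw [hv, ← xx]; exact (cj_mul rfl rfl).symm
  have e2 : g⁻¹ * x * g = (x * d)⁻¹ := eq_inv_of_mul_eq_one_right xn
  have dx : d * x = x * d := by
    have : (x * d)⁻¹ * (x * d)⁻¹ = b * v := by rw [← e2, ← e1, ← xx]; group
    rw [← mul_inv_rev, inv_eq_iff_eq_inv, inv_eq_of_sq (by
      simp only [mul_assoc, rl vb, rl s.bb, vv, one_mul] : b * v * (b * v) = 1), ← xx, ← dd] at this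
    simp only [mul_assoc, mul_right_inj] at this
    simpa only [← mul_assoc, mul_left_inj] using this
  have d0 : d * b0 = b0 * d := by
    rcases hx with rfl | rfl
    · exact dx
    · have := Commute.mul_right dx dt
      rwa [mul_assoc, s.tt, mul_one] at this
  have db : d * b = b * d := sq ▸ Commute.mul_right d0 d0
  have dv : d * v = v * d := dd ▸ Commute.mul_right (Commute.refl d) (Commute.refl d)
  have dz : d * z * d⁻¹ = z * v * x⁻¹ := by
    have : z * d * z = (x * d)⁻¹ := by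
      rw [hd, s.zcj, ← xz, mul_assoc x, s.zz, mul_one, e2]
    calc _ = z * (z * d * z) * d⁻¹ := by simp only [mul_assoc, rl s.zz, one_mul]
      _ = z * (d * d)⁻¹ * x⁻¹ := by
          simp only [this, mul_inv_rev, mul_assoc, (Commute.inv_inv dx).eq,
            rl (Commute.inv_inv dx).eq]
      _ = _ := by rw [dd, inv_eq_of_sq vv]
  let F := closure ({b0, t} : Set G)
  have f0 : b0 ∈ F := subset_closure (by simp)
  have ft : t ∈ F := subset_closure (by simp)
  have fb : b ∈ F := sq ▸ mul_mem f0 f0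
  have fx : x ∈ F := by rcases hx with rfl | rfl; exacts [f0, mul_mem f0 ft]
  have le : ∀ H : Subgroup G, b0 ∈ H → t ∈ H → F ≤ H := fun H h1 h2 =>
    (closure_le _).2 (by rintro _ (rfl | rfl) <;> assumption)
  have fz : ∀ f ∈ F, f * z = z * f := fun f hf =>
    mem_C1.1 (le (C1 z) (mem_C1.2 z0) (mem_C1.2 s.zt.symm) hf)
  have ui := inv_eq_of_sq uu
  have p0 : d * u * b0 * (d * u)⁻¹ = b0 := cj_comp (fix_of_comm u0) (fix_of_comm d0)
  have pF : ∀ f ∈ F, d * u * f * (d * u)⁻¹ ∈ F := fun f hf => by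
    refine le (F.comap (MulAut.conj (d * u)).toMonoidHom) ?_ ?_ hf
    · exact (p0.symm ▸ f0 : d * u * b0 * (d * u)⁻¹ ∈ F)
    · have : d * u * t * (d * u)⁻¹ = b * t := cj_comp (mul_inv_eq_of_eq_mul ut)
        (cj_mul (fix_of_comm db) (fix_of_comm dt))
      exact (this.symm ▸ mul_mem fb ft : d * u * t * (d * u)⁻¹ ∈ F)
  have pz : d * u * z * (d * u)⁻¹ = z * v * (b * x⁻¹) := by
    have : u * z * u⁻¹ = b * z := by
      simp only [ui, mul_assoc, zu, rl ub, rl uu, one_mul]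
    rw [cj_comp this (cj_mul (fix_of_comm db) dz)]
    simp only [mul_assoc, rl vb, rl s.zb]
  have pv : d * u * v * (d * u)⁻¹ = z * (b * (b0 * x⁻¹)) := by
    rw [cj_comp (ui.symm ▸ uv) (cj_mul (fix_of_comm dv) (cj_mul (fix_of_comm d0) dz))]
    simp only [mul_assoc, rl v0, rl zv, rl vb, rl (s.cb _ h0), rl vv, rl s.zb, rl z0.symm, one_mul]
  have o := s.o3 (cyc3 (p := d * u) (x := z) (fun w => z⁻¹ * w ∈ F) (fun w => (z * v)⁻¹ * w ∈ F)
    (fun w => v⁻¹ * w ∈ F) (fun w hw => ?_) (fun w hw => ?_) (fun w hw => ?_) (by simp)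
    (fun e => ?_) fun e => ?_)
  · have := s.c4 o.1 o.2 (Commute.pow_right (comm_of_fix p0).symm 4) (s.twoQ (s.BQ h0))
    exact s.b1 (sq ▸ this)
  · rw [← mul_inv_cancel_left z w, cj_mul pz rfl, mul_assoc, inv_mul_cancel_left]
    exact mul_mem (mul_mem fb (inv_mem fx)) (pF _ hw)
  · rw [← mul_inv_cancel_left (z * v) w, cj_mul (cj_mul pz pv) rfl]
    have m1 := mul_mem fb (inv_mem fx)
    have m2 := mul_mem fb (mul_mem f0 (inv_mem fx))
    convert mul_mem fb (mul_mem m1 (mul_mem m2 (pF _ hw))) using 1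
    have := fz _ m1
    generalize b * x⁻¹ = p at this
    simp only [mul_assoc, inv_eq_of_sq vv, rl this, rl zv, rl s.zz, rl vb, rl vv, one_mul,
      ← rl this]
  · rw [← mul_inv_cancel_left v w, cj_mul pv rfl, mul_assoc, inv_mul_cancel_left]
    exact mul_mem (mul_mem fb (mul_mem f0 (inv_mem fx))) (pF _ hw)
  · rw [mul_inv_rev, inv_mul_cancel_right, inv_mem_iff] at e
    have := fz _ e
    rw [zv, mul_left_inj, eq_comm, mul_eq_right] at this
    exact s.b1 this
  · exact s.nzQ ((Q.mul_mem_cancel_left (inv_mem vQ)).1 (le Q (s.BQ h0) s.tQ e))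

theorem eps0 (n1 : b * (g * b * g⁻¹) * (g⁻¹ * b * g) = 1) : False := by
  have n2 : b * (h * b * h⁻¹) * (h⁻¹ * b * h) = 1 := by
    have := congrArg (fun x => r * x * r) n1
    simpa only [s.rmul b, s.rmul (b * _), s.rcj, s.rcj', s.rb, mul_one, s.rr] using this
  have tb := s.tb
  have zb := s.zb
  obtain ⟨v, hv⟩ : ∃ v, v = g * b * g⁻¹ := ⟨_, rfl⟩
  obtain ⟨u, hu⟩ : ∃ u, u = r * v * r := ⟨_, rfl⟩
  have hu' : u = h * b * h⁻¹ := by rw [hu, hv, s.rcj, s.rb]
  have vQ : v ∈ Q := hv ▸ s.gQ (s.BQ s.bB)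
  have vt := s.le v vQ
  have vv : v * v = 1 := hv ▸ cj_sq g s.bb
  have e0 : g⁻¹ * b * g * (g⁻¹ * b * g) = 1 := by simpa only [inv_inv] using cj_sq g⁻¹ s.bb
  have e1 : g⁻¹ * b * g = b * v := by
    rw [hv, eq_inv_of_mul_eq_one_left n1, inv_eq_of_sq e0]
  have vb : v * b = b * v := (comm_of_sq s.bb vv (e1 ▸ e0)).symm
  have zv : z * v = b * v * z := by
    rw [← e1, eq_comm, ← eq_mul_inv_iff_mul_eq, s.zi, hv, s.zcj, zb, mul_assoc b, s.zz, mul_one]
  have uu : u * u = 1 := by simpa only [s.ri, hu] using cj_sq r vv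
  have ub : u * b = b * u := by simpa only [s.rb, ← hu] using s.rc vb
  have zu : z * u = b * u * z := by
    simpa only [s.rmul z, s.rmul (b * v), s.rmul b, s.rb, s.rzr, ← hu] using
      congrArg (fun x => r * x * r) zv
  have ut : u * t = b * t * u := by
    have := s.rc vt
    rw [← hu, s.rtr, mul_assoc t, zu, ← mul_assoc, ← mul_assoc, mul_left_inj] at this
    rw [this, ← mul_assoc, tb]
  have vi := inv_eq_of_sq vv
  have ui := inv_eq_of_sq uu
  have bi := inv_eq_of_sq s.bb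
  obtain ⟨c, hc⟩ : ∃ c, c = v * u * (v * u) := ⟨_, rfl⟩
  have ct : c * t = t * c := by
    simp only [hc, mul_assoc, ut, rl ut, rl vt, rl vb, rl ub, rl tb, rl s.bb, one_mul]
  have cz : c * z = z * c := by
    simp only [hc, mul_assoc, zu, rl zu, rl zv, rl zb, rl vb, rl ub, rl s.bb, one_mul]
  have vc : v * c * v = c⁻¹ := by
    simp only [hc, mul_assoc, mul_inv_rev, vi, ui, rl vv, one_mul]
  have rc : r * c * r = c⁻¹ := by
    rw [hc, s.rmul, s.rmul, ← hu, hu, s.rrr, ← hu]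
    simp only [mul_assoc, mul_inv_rev, vi, ui]
  have c2 : Two c := Is2.of_sq (s.twoQ (by
    convert mul_mem (s.nrm c ct v vQ) vQ using 1
    simp only [← vc, mul_assoc, vv, rl vv, mul_one, one_mul]))
  have com : ∀ b0 ∈ B, r * b0 * r = b0⁻¹ → ∀ e ∈ B, e * b0 = b0 * e → v * e = e * v →
      v * b0 * v = b0⁻¹ * e → e * e = 1 → b0 * b0 = 1 ∨ b0 * b0 = b := by
    intro b0 h0 r0 e he e1 e2 e3 e4
    have k := s.fpQ.cls vQ (s.BQ h0) vQ
    have k1 : ⁅v, b0⁆ = e * (b0 * b0)⁻¹ := by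
      rw [commutatorElement_def, vi, e3, (Commute.inv_right e1).symm.eq]; group
    have e5 : v * b0 * v⁻¹ = b0⁻¹ * e := by rw [vi, e3]
    have k2 : v * ⁅v, b0⁆⁻¹ * v⁻¹ = e * (b0 * b0)⁻¹ := by
      rw [k1, mul_inv_rev, inv_inv, inv_eq_of_sq e4,
        cj_mul (cj_mul e5 e5) (fix_of_comm e2)]
      simp only [mul_assoc, mul_inv_rev, e4, mul_one, rl (Commute.inv_right e1).symm.eq]
    have k3 : ⁅⁅v, b0⁆, v⁆ = (b0 * b0 * (b0 * b0))⁻¹ := by
      rw [commutatorElement_def, mul_assoc, mul_assoc, ← mul_assoc v, k2, k1]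
      simp only [mul_assoc, mul_inv_rev, rl (Commute.inv_right e1).symm.eq, rl e4, one_mul]
    rw [k3, inv_mem_iff] at k
    have := s.B1 (mul_mem (mul_mem h0 h0) (mul_mem h0 h0)) k
    exact s.fixB (mul_mem h0 h0) (by rw [s.rmul, r0, ← mul_inv_rev, inv_eq_of_sq this])
  have zB : z ∉ B := fun e => s.nzQ (s.BQ e)
  rcases s.dec c2 ct cz with e | e | e | e
  · rcases com c e rc 1 (one_mem _) (by simp) (by simp) (by rw [vc, mul_one]) (one_mul 1) with
      k | k
    · rcases s.fixB e (by rw [rc, inv_eq_of_sq k]) with k | k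
      · exact s.b1 (s.nmB b s.bb n1 n2 (hv ▸ hu' ▸ comm_of_sq vv uu (hc ▸ k)))
      · refine s.b1 (s.lam s.bb tb zb n1 n2 ?_)
        have uv : u * v = b * v * u := by
          have : v * u * (b * v * u) = b * c := by simp only [hc, mul_assoc, rl ub, rl vb]
          rw [k, s.bb] at this
          rw [eq_inv_of_mul_eq_one_right this, mul_inv_rev, vi, ui]
        rw [← hv, ← hu']
        simp only [mul_assoc, uv, rl vt, rl zb, rl zv, rl tb, rl vb, rl s.bb, one_mul]
    · have k1 : ⁅v, c⁆ = b := by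
        rw [commutatorElement_def, vi, vc, ← mul_inv_rev, k, bi]
      have := s.fpQ.yK _ (k1 ▸ s.fpQ.cls vQ (s.BQ e) (s.fpQ.yP' (s.BQ e)))
      refine s.bt ?_
      convert this using 1
      refine k1.symm.trans ?_
      rw [hv]
      simp only [commutatorElement_def]; group
  · refine zB ?_
    convert mul_mem e (s.Br e) using 1
    simp only [s.rmul, rc, s.rtr, mul_assoc, rl ct, mul_inv_cancel_left, rl s.tt, one_mul]
  · have r0 : r * (c * z) * r = (c * z)⁻¹ := by
      rw [s.rmul, rc, s.rzr, mul_inv_rev, s.zi, (Commute.inv_left cz).eq]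
    have v0 : v * (c * z) * v = (c * z)⁻¹ * b := by
      rw [mul_inv_rev, s.zi, ← (Commute.inv_left cz).eq, ← vc]
      simp only [mul_assoc, zv, zb, rl vb, rl vv, one_mul]
    rcases com _ e r0 b s.bB (s.cb _ e).symm vb v0 s.bb with k | k
    · rw [inv_eq_of_sq k] at r0 v0
      refine s.b1 (mul_eq_left.1 (v0.symm.trans ?_))
      rcases s.fixB e r0 with k | k <;> rw [k]
      · rw [mul_one, vv]
      · rw [vb, mul_assoc, vv, mul_one]
    · have v1 : v * (c * z) = c * z * v := comm_of_fix (by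
        rw [vi, v0, ← k, inv_mul_cancel_left])
      refine s.last hv e1 vb vv uu zv zu ub ut e k v1 ?_ ?_
      · have := s.rc v1
        rw [r0, ← hu] at this
        exact Commute.inv_right_iff.1 this
      · simp only [hc, mul_assoc, s.zz, rl vv, one_mul, mul_one]
  · refine zB ?_
    convert mul_mem e (s.Br e) using 1
    rw [s.rmul, rc, s.rtzr]
    simp only [mul_assoc, rl ct, rl cz, mul_inv_cancel_left, s.zt, rl s.tt,
      one_mul]

end S4

end Cfsg.Agent.H81.Em
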