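import Cfsg.Agent.H81.EmSol2

/-!
The solvable case: an involution of `B` with norm `t`.
-/

set_option autoImplicit false

namespace Cfsg.Agent.H81.Em

open Subgroup Cfsg.Agent.H62
open scoped commutatorElement

universe u

variable {G : Type u} [Group G]

/-- The element of order three that centralizes `b`. -/
structure Rho (t z b p : G) : Prop where
  p3 : p ^ 3 = 1
  p1 : p ≠ 1
  pb : p * b * p⁻¹ = b
  pt : p * t * p⁻¹ = t * z
  ptz : p * (t * z) * p⁻¹ = b * z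
  pbz : p * (b * z) * p⁻¹ = t

namespace S4

variable [Finite G] {a t r z g h b : G} {Q B : Subgroup G} (s : S4 a t r z g h b Q B)
include s

theorem rho (n1 : b * (g * b * g⁻¹) * (g⁻¹ * b * g) = t) :
    ∃ p, Rho t z b p ∧ ∃ v ∈ Q, v * z * v⁻¹ = b * t * z := by
  have tb := s.tb
  have zb := s.zb
  have zt := s.zt
  have bQ := s.BQ s.bB
  have bt : b * t * (b * t) = 1 := by simp only [mul_assoc, rl tb, rl s.bb, s.tt, one_mul]
  have n2 : b * t * (g * (b * t) * g⁻¹) * (g⁻¹ * (b * t) * g) = 1 := by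
    have c1 := s.le _ (s.gQ bQ)
    have c2 := s.le _ (s.fpQ.yP' bQ)
    rw [cj_mul rfl (fix_of_comm s.tg.symm), show g⁻¹ * (b * t) * g = g⁻¹ * b * g * t by
      rw [mul_assoc, mul_assoc, s.tg]; group]
    calc _ = b * (g * b * g⁻¹) * (g⁻¹ * b * g) * t := by
          generalize g * b * g⁻¹ = p at c1
          generalize g⁻¹ * b * g = q at c2
          simp only [mul_assoc, rl c1.symm, rl c2.symm, s.tt, rl s.tt, one_mul]
      _ = 1 := by rw [n1, s.tt]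
  obtain ⟨v, hv⟩ : ∃ v, v = g * (b * t) * g⁻¹ := ⟨_, rfl⟩
  have vQ : v ∈ Q := hv ▸ s.gQ (mul_mem bQ s.tQ)
  have vt := s.le v vQ
  have vv : v * v = 1 := hv ▸ cj_sq g bt
  have vi := inv_eq_of_sq vv
  have e0 : g⁻¹ * (b * t) * g * (g⁻¹ * (b * t) * g) = 1 := by
    simpa only [inv_inv] using cj_sq g⁻¹ bt
  have e1 : g⁻¹ * (b * t) * g = b * t * v := by
    rw [hv, eq_inv_of_mul_eq_one_left n2, inv_eq_of_sq e0]
  have vb : v * b = b * v := by
    have := Commute.mul_right (comm_of_sq bt vv (e1 ▸ e0)).symm vt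
    rwa [mul_assoc, s.tt, mul_one] at this
  have zv : z * v = b * t * v * z := by
    rw [← e1, eq_comm, ← eq_mul_inv_iff_mul_eq, s.zi, hv, s.zcj]
    simp only [mul_assoc, rl zb, rl zt, rl s.zz, one_mul]
  have vz : v * z * v⁻¹ = b * t * z := by
    simp only [vi, mul_assoc, zv, rl vb, rl vt, rl vv, one_mul]
  obtain ⟨u, hu⟩ : ∃ u, u = r * v * r := ⟨_, rfl⟩
  have uc : ∀ {x y}, v * x * v⁻¹ = y → u * (r * x * r) * u⁻¹ = r * y * r := fun e => by
    rw [← e, hu]; simp only [mul_inv_rev, s.ri, mul_assoc, rl s.rr, one_mul]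
  have ub : u * b * u⁻¹ = b := by simpa only [s.rb] using uc (fix_of_comm vb)
  have utz : u * (t * z) * u⁻¹ = t * z := by simpa only [s.rtr] using uc (fix_of_comm vt)
  have uz : u * z * u⁻¹ = b * t := by
    have := uc vz
    rwa [s.rzr, s.rmul, s.rmul, s.rb, s.rtr, s.rzr, mul_assoc b, mul_assoc t, s.zz, mul_one] at this
  have ut : u * t * u⁻¹ = b * z := by
    have := cj_mul utz uz
    rw [mul_assoc t, s.zz, mul_one] at this
    simp only [this, mul_assoc, rl zb, zt, rl tb, rl s.tt, one_mul]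
  have p0 : v * u * b * (v * u)⁻¹ = b := cj_comp ub (fix_of_comm vb)
  have p1 : v * u * t * (v * u)⁻¹ = t * z := cj_comp ut (by
    rw [cj_mul (fix_of_comm vb) vz]; simp only [mul_assoc, rl s.bb, one_mul])
  have p2 : v * u * (t * z) * (v * u)⁻¹ = b * z := cj_comp utz (by
    rw [cj_mul (fix_of_comm vt) vz]; simp only [mul_assoc, rl tb, rl s.tt, one_mul])
  have p3 : v * u * (b * z) * (v * u)⁻¹ = t := cj_comp (cj_mul ub uz) (by
    rw [rl s.bb, one_mul, fix_of_comm vt])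
  have o := s.o3 (cyc3 (p := v * u) (x := t) (· = t) (· = t * z) (· = b * z)
    (fun w e => e ▸ p1) (fun w e => e ▸ p2) (fun w e => e ▸ p3) rfl
    (fun e => s.z1 (mul_eq_left.1 e.symm))
    fun e => s.nzQ ((Q.mul_mem_cancel_left bQ).1 (e ▸ s.tQ)))
  generalize v * u = p at p0 p1 p2 p3 o
  have c4 : ∀ {x y w}, p * x * p⁻¹ = y → p * y * p⁻¹ = w → p * w * p⁻¹ = x →
      p ^ 4 * x * (p ^ 4)⁻¹ = y := fun h1 h2 h3 => by
    rw [show p ^ 4 = p * (p * (p * p)) by simp only [pow_succ, pow_zero, one_mul, mul_assoc]]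
    exact cj_comp (cj_comp (cj_comp h1 h2) h3) h1
  exact ⟨p ^ 4, ⟨o.1, o.2, c4 p0 p0 p0, c4 p1 p2 p3, c4 p2 p3 p1, c4 p3 p1 p2⟩, v, vQ, vz⟩

variable {p : G} {R : Subgroup G} (o : Rho t z b p)
  (m : ∀ x, x ∈ R ↔ Two x ∧ x * t = t * x ∧ x * z = z * x)
include m

theorem cenR {y : G} (hy : y ∈ B) (c : ∀ x ∈ B, x * y = y * x) {x : G} (hx : x ∈ R) :
    x * y = y * x := by
  obtain ⟨h1, h2, h3⟩ := (m x).1 hx
  have k : ∀ w, w * y = y * w → x * w ∈ B → x * y = y * x := fun w e hw => by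
    have := Commute.mul_left (c _ hw) (Commute.inv_left e)
    rwa [mul_inv_cancel_right] at this
  have yt := (s.Bt hy).symm
  have yz := (s.Bz hy).symm
  rcases s.dec h1 h2 h3 with e | e | e | e
  exacts [c _ e, k t yt e, k z yz e, k _ (Commute.mul_left yt yz) e]

theorem BR {y : G} (hy : y ∈ B) : y ∈ R := (m y).2 ⟨s.twoQ (s.BQ hy), s.Bt hy, s.Bz hy⟩

theorem tR : t ∈ R := (m t).2 ⟨two_of_sq s.tt, rfl, s.zt.symm⟩

theorem zR : z ∈ R := (m z).2 ⟨two_of_sq s.zz, s.zt, rfl⟩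

include o

theorem pR {x : G} (hx : x ∈ R) : p * x * p⁻¹ ∈ R := by
  have c := s.cenR m s.bB s.cb hx
  obtain ⟨h1, h2, h3⟩ := (m x).1 hx
  have c1 : x * (b * z) = b * z * x := Commute.mul_right c h3
  refine (m _).2 ⟨h1.conj p, o.pbz ▸ cj_comm c1, ?_⟩
  have := cj_mul o.pbz o.pt
  rw [rl s.tt, one_mul] at this
  exact this ▸ cj_comm (Commute.mul_right c1 h2)

theorem cenb {y : G} (hy : y ∈ B) (yy : y * y = 1) (c : ∀ x ∈ B, x * y = y * x) :
    y = 1 ∨ y = b := by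
  obtain ⟨E, bE, tE, zE, le, eB⟩ : ∃ E : Subgroup G, b ∈ E ∧ t ∈ E ∧ z ∈ E ∧
      (∀ H : Subgroup G, b ∈ H → t ∈ H → z ∈ H → E ≤ H) ∧ ∀ x ∈ E, x ∈ B → x = 1 ∨ x = b := by
    have l : zpowers b ≤ B := zpowers_le.2 s.bB
    let E1 := adj (zpowers b) t (fun x hx => by rwa [fix_of_comm (s.Bt (l hx)).symm])
      (s.tt ▸ one_mem _)
    have l1 : E1 ≤ Q ⊓ C1 z := adj_le (fun x hx => ⟨s.BQ (l hx), mem_C1.2 (s.Bz (l hx))⟩)
      ⟨s.tQ, mem_C1.2 s.zt.symm⟩
    refine ⟨adj E1 z (fun x hx => by rwa [fix_of_comm (mem_C1.1 (l1 hx).2).symm])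
      (s.zz ▸ one_mem _), le_adj (le_adj (mem_zpowers b)), le_adj self_mem_adj, self_mem_adj,
      fun H h1 h2 h3 => adj_le (adj_le (zpowers_le.2 h1) h2) h3, ?_⟩
    rintro x ((e | e) | e) hx
    · exact (mem_zp s.bb).1 e
    · exact (s.tB ((B.mul_mem_cancel_right hx).1 (l e))).elim
    · exact (s.nzQ ((Q.mul_mem_cancel_right (s.BQ hx)).1 (l1 e).1)).elim
  have lZ : E ≤ omZ R := le _ (mem_omZ.2 ⟨s.BR m s.bB, s.bb, fun _ => s.cenR m s.bB s.cb⟩)
    (mem_omZ.2 ⟨s.tR m, s.tt, fun x hx => ((m x).1 hx).2.1⟩)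
    (mem_omZ.2 ⟨s.zR m, s.zz, fun x hx => ((m x).1 hx).2.2⟩)
  have pE : ∀ x ∈ E, p * x * p⁻¹ ∈ E := fun x hx => by
    refine le (E.comap (MulAut.conj p).toMonoidHom) ?_ ?_ ?_ hx
    · exact (o.pb.symm ▸ bE : p * b * p⁻¹ ∈ E)
    · exact (o.pt.symm ▸ mul_mem tE zE : p * t * p⁻¹ ∈ E)
    · have := cj_mul o.pb o.pbz
      rw [rl s.bb, one_mul] at this
      exact (this.symm ▸ mul_mem bE tE : p * z * p⁻¹ ∈ E)
  have f : FP R E p := FP.of_ea (fun x hx => (mem_omZ.1 (lZ hx)).1)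
    (fun x hx => (mem_omZ.1 (lZ hx)).2.1)
    (fun c hc x hx => by rwa [fix_of_comm ((mem_omZ.1 (lZ hx)).2.2 c hc)]) (fun _ => s.pR o m) pE o.p3
    fun x hx e => zpowers_le.2 bE (s.cen2 o.p3 o.p1 s.bb s.b1 (comm_of_fix o.pb).symm
      ((m x).1 hx).1 e (s.cenR m s.bB s.cb hx))
  have y2 : ∀ y ∈ B, y * y = 1 → (∀ x ∈ B, x * y = y * x) → y ∈ E ∨ r * y * r = y * b :=
    fun y hy yy c => by
      rcases s.fixB (mul_mem hy (s.Br hy)) (by rw [s.rmul, s.rrr, c _ (s.Br hy)]) with e | e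
      · rw [mul_eq_one_iff_inv_eq, inv_eq_of_sq yy] at e
        rcases s.fixB hy e.symm with rfl | rfl
        exacts [.inl (one_mem _), .inl bE]
      · exact .inr (by rw [← e, rl yy, one_mul])
  refine eB y ((y2 y hy yy c).elim id fun e => ?_) hy
  have yR := s.BR m hy
  have wR := s.pR o m yR
  have wc : ∀ x ∈ R, x * (p * y * p⁻¹) = p * y * p⁻¹ * x := fun x hx => by
    simpa [mul_assoc] using cj_comm (c := p) (s.cenR m hy c (f.yP' hx))
  have k : ∀ w ∈ E, p * y * p⁻¹ * w ∈ B → y ∈ E := fun w hw e' => by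
    obtain ⟨w1, w2, w3⟩ := mem_omZ.1 (lZ hw)
    rcases y2 _ e' (by rw [mul_assoc, ← mul_assoc w, wc w w1, mul_assoc _ w, w2, mul_one,
      cj_sq p yy]) (fun x hx => Commute.mul_right (wc x (s.BR m hx)) (w3 x (s.BR m hx))) with q | q
    · simpa [mul_assoc] using f.yK' ((E.mul_mem_cancel_right hw).1 q)
    · refine f.fpf y yR ((E.mul_mem_cancel_right hw).1 ?_)
      rw [inv_eq_of_sq yy, mul_assoc]
      rcases s.fixB (mul_mem hy e') (by
        rw [s.rmul, e, q, s.cb _ e', mul_assoc, rl s.bb, one_mul]) with q | q <;> rw [q]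
      exacts [one_mem _, bE]
  obtain ⟨h1, h2, h3⟩ := (m _).1 wR
  rcases s.dec h1 h2 h3 with q | q | q | q
  exacts [k 1 (one_mem _) (by rwa [mul_one]), k t tE q, k z zE q, k _ (mul_mem tE zE) q]

theorem bQ {q : G} (hq : q ∈ Q) : ⁅b, q⁆ ∈ zpowers t := by
  refine s.fpQ.cen (s := z) (fun x hx => by simpa only [s.zi] using s.nrm z s.zt x hx) (fun x hx => ?_) s.zz s.zg
    (s.BQ s.bB) (by rw [s.zb, mul_assoc, s.zz, mul_one]) (fun x hx e => ?_) hq
  · rcases (mem_zp s.tt).1 hx with rfl | rfl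
    · simp
    · rwa [fix_of_comm s.zt]
  have xt := s.le x hx
  have xR : ∀ w ∈ R, x⁻¹ * w * x⁻¹⁻¹ ∈ R := fun w hw => by
    obtain ⟨h1, h2, h3⟩ := (m w).1 hw
    have e1 : x * z * x⁻¹ = z * (z * x * z * x⁻¹) := by simp only [mul_assoc, rl s.zz, one_mul]
    have e2 : w * (x * z * x⁻¹) = x * z * x⁻¹ * w := by
      rw [e1]
      rcases (mem_zp s.tt).1 e with e | e <;> rw [e]
      exacts [by rwa [mul_one], Commute.mul_right h3 h2]
    refine (m _).2 ⟨h1.conj _, ?_, ?_⟩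
    · simpa only [fix_of_comm (Commute.inv_left xt).eq] using cj_comm (c := x⁻¹) h2
    · simpa [mul_assoc] using cj_comm (c := x⁻¹) e2
  have b1 : x * b * x⁻¹ ∈ R := by simpa only [inv_inv] using conj_inv_mem xR (s.BR m s.bB)
  have b2 : ∀ w ∈ R, w * (x * b * x⁻¹) = x * b * x⁻¹ * w := fun w hw => by
    simpa [mul_assoc] using cj_comm (c := x) (s.cenR m s.bB s.cb (xR w hw))
  have b3 := s.nrm x xt b (s.BQ s.bB)
  have b4 := cj_sq x s.bb
  have b5 : ⁅b, x⁆ = b * (x * b * x⁻¹) := by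
    rw [commutatorElement_def, inv_eq_of_sq s.bb]; group
  have b6 : x * b * x⁻¹ ∉ zpowers t := fun e => s.bt (by
    simpa [mul_assoc] using s.fpQ.nK _ (inv_mem hx) _ e)
  obtain ⟨h1, h2, h3⟩ := (m _).1 b1
  rw [b5]
  rcases s.dec h1 h2 h3 with q | q | q | q
  · rcases s.cenb o m q b4 fun w hw => b2 w (s.BR m hw) with q | q
    · exact (b6 (q ▸ one_mem _)).elim
    · rw [q, s.bb]; exact one_mem _
  · rcases s.cenb o m q (by rw [mul_assoc, ← mul_assoc t, ← h2, mul_assoc _ t, s.tt, mul_one, b4])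
      fun w hw => Commute.mul_right (b2 w (s.BR m hw)) (s.Bt hw) with q | q
    · exact (b6 (eq_inv_of_mul_eq_one_left q ▸ inv_mem (mem_zpowers t))).elim
    · rw [eq_mul_inv_of_mul_eq q, rl s.bb, one_mul]; exact inv_mem (mem_zpowers t)
  · exact (s.nzQ ((Q.mul_mem_cancel_left b3).1 (s.BQ q))).elim
  · exact (s.nzQ ((Q.mul_mem_cancel_left s.tQ).1 ((Q.mul_mem_cancel_left b3).1 (s.BQ q)))).elim

end S4

end Cfsg.Agent.H81.Em
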