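import Cfsg.Agent.H81.EmSol3

/-!
The solvable case: the end.
-/

set_option autoImplicit false

namespace Cfsg.Agent.H81.Em

open Subgroup Cfsg.Agent.H62
open scoped commutatorElement

universe u

variable {G : Type u} [Group G]

namespace S4

variable [Finite G] {a t r z g h b : G} {Q B : Subgroup G} (s : S4 a t r z g h b Q B)
include s

theorem eps1 (n1 : b * (g * b * g⁻¹) * (g⁻¹ * b * g) = t) : Nat.card B ≤ 2 := by
  obtain ⟨p, o, v, vQ, vz⟩ := s.rho n1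
  obtain ⟨R, m, cR⟩ := s.exR
  obtain ⟨c, hc⟩ := s.pair p b o.p3 o.p1 s.bb s.b1 (comm_of_fix o.pb).symm
  have l := hc ▸ s.toLoc3.conj c
  have cP := card_cj c Q
  generalize cj c Q = P at l cP
  have pb := comm_of_fix o.pb
  have RP : R ≤ P := fun x hx => l.thr x p (s.cenR m s.bB s.cb hx) pb o.p3 o.p1 ((m x).1 hx).1
    ((m _).1 (mul_mem hx (s.pR o m hx))).1
  have f : FP P (zpowers b) p := s.fp s.bb s.b1 o.p3 o.p1 pb l.tQ l.le
    (fun _ => two_of_mem l.two) (l.nrm p pb)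
  have tP := RP (s.tR m)
  have zP := RP (s.zR m)
  have c1 : Nat.card P ≤ 2 * Nat.card (P ⊓ C1 t : Subgroup G) := by
    have k : ∀ x ∈ Q, x ∉ C1 b → x * b * x⁻¹ = b * t := fun x hx e => by
      rcases (mem_zp s.tt).1 (s.bQ o m hx) with q | q
      · exact (e (mem_C1.2 (commutatorElement_eq_one_iff_mul_comm.1 q).symm)).elim
      · rw [← q, commutatorElement_def, inv_eq_of_sq s.bb]
        simp only [mul_assoc, rl s.bb, one_mul]
    have k1 := card_le_two_mul (D := Q) (P := C1 b) fun x hx y hy h1 h2 => mem_C1.2 (comm_of_fix (by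
      rw [cj_comp (k y hy h2) (cj_mul (k x hx h1) (fix_of_comm (s.le x hx))), mul_assoc, s.tt,
        mul_one]))
    let D := adj (Q ⊓ C1 b) z (fun x hx => ⟨s.nrm z s.zt x hx.1, mem_C1.2 (by
      simpa only [fix_of_comm s.zb] using cj_comm (c := z) (mem_C1.1 hx.2))⟩) (s.zz ▸ one_mem _)
    have d1 : Nat.card D = 2 * _ := card_adj fun e => s.nzQ (mem_inf.1 e).1
    have d2 : D ≤ C1 b ⊓ C1 t := adj_le (fun x hx => ⟨hx.2, mem_C1.2 (s.le x hx.1)⟩)
      ⟨mem_C1.2 s.zb, mem_C1.2 s.zt⟩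
    have d3 : ∀ x ∈ D, Two x := by
      rintro x (hx | hx)
      · exact s.twoQ hx.1
      · refine Is2.of_sq (s.twoQ ?_)
        convert mul_mem (s.nrm z s.zt _ hx.1) hx.1 using 1
        simp only [mul_assoc, s.zi, rl s.zz, one_mul]
    have d4 := card_le_two_mul (D := D) (P := P) fun x hx y hy h1 h2 =>
      l.mul x y (mem_C1.1 (d2 hx).1) (mem_C1.1 (d2 hy).1) (d3 x hx) (d3 y hy)
        (d3 _ (mul_mem hx hy)) h1 h2
    have d5 : Nat.card (D ⊓ P : Subgroup G) ≤ Nat.card (P ⊓ C1 t : Subgroup G) :=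
      card_le_of_le fun x hx => ⟨hx.2, (d2 hx.1).2⟩
    omega
  have Pt : ∀ q ∈ P, q * t * q⁻¹ = t ∨ q * t * q⁻¹ = t * b := fun q hq => by
    have e0 : ∀ q, q * t * q⁻¹ = t * ⁅t, q⁆ := fun q => by
      rw [commutatorElement_def, s.ti]; simp only [mul_assoc, rl s.tt, one_mul]
    have kP : ⁅t, q⁆ ∈ P := mul_mem (mul_mem (mul_mem tP hq) (inv_mem tP)) (inv_mem hq)
    have : ⁅t, q⁆ ∈ zpowers b := by
      by_cases h1 : q ∈ C1 t
      · rw [commutatorElement_eq_one_iff_mul_comm.2 (mem_C1.1 h1).symm]; exact one_mem _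
      have tw := f.tw tP hq
      by_cases h2 : p * q * p⁻¹ ∈ C1 t
      · rw [commutatorElement_eq_one_iff_mul_comm.2 (mem_C1.1 h2).symm, one_mul, inv_mem_iff] at tw
        simpa [mul_assoc] using f.yK _ tw
      have h3 := mem_C1.1 (mul_mem_of_card inf_le_left c1 (inv_mem hq) (f.yP q hq)
        (fun e => h1 (inv_mem_iff.1 e.2)) fun e => h2 e.2).2
      have h4 := cj_comp (d := q) (fix_of_comm h3) rfl
      rw [mul_inv_cancel_left, e0, e0, mul_right_inj] at h4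
      rw [h4] at tw
      refine f.inv.fpf _ kP ?_
      convert f.nK _ (inv_mem kP) _ (inv_mem tw) using 1
      group
    rw [e0]
    exact ((mem_zp s.bb).1 this).imp (fun e => by rw [e, mul_one]) fun e => by rw [e]
  have cq : ∀ {q x y x' y'}, p * x * p⁻¹ = x' → p * y * p⁻¹ = y' → q * x * q⁻¹ = y →
      p * q * p⁻¹ * x' * (p * q * p⁻¹)⁻¹ = y' := fun h1 h2 h3 => by rw [← h1, ← h2, ← h3]; group
  have Ptz : ∀ q ∈ P, q * (t * z) * q⁻¹ = t * z ∨ q * (t * z) * q⁻¹ = t * z * b := fun q hq => by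
    have e : p * (p⁻¹ * q * p) * p⁻¹ = q := by group
    exact (Pt _ (f.yP' hq)).imp (fun k => e ▸ cq o.pt o.pt k)
      fun k => e ▸ cq o.pt (cj_mul o.pt o.pb) k
  have inR : ∀ x ∈ P, x * t = t * x → x * (t * z) = t * z * x → x ∈ R := fun x hx h1 h2 =>
    (m x).2 ⟨two_of_mem l.two hx, h1, by
      rwa [← mul_assoc, h1, mul_assoc, mul_assoc, mul_right_inj] at h2⟩
  have cA := s.cardA
  have pos : 0 < Nat.card B := Nat.card_pos
  by_cases hA : ∀ q ∈ P, q * t * q⁻¹ = t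
  · have : P ≤ R := fun x hx => inR x hx (comm_of_fix (hA x hx)) (comm_of_fix (by
      have := cq o.pt o.pt (hA _ (f.yP' hx))
      rwa [show p * (p⁻¹ * x * p) * p⁻¹ = x by group] at this))
    have k1 := card_le_of_le this
    have k2 := (s.low (H := Q ⊓ C1 z) s.fpQ inf_le_left fun x hx => .inl (by
      rw [← mem_C1.1 hx.2, mul_assoc, s.zz, mul_one])).1
    rw [cA] at k2
    nlinarith
  push Not at hA
  obtain ⟨q, hq, qt⟩ := hA
  replace qt := (Pt q hq).resolve_left qt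
  obtain ⟨q, hq, qt, qz⟩ : ∃ q ∈ P, q * t * q⁻¹ = t ∧ q * z * q⁻¹ = b * z := by
    rcases Ptz q hq with e | e
    · refine ⟨_, f.yP _ (f.yP _ hq), cq o.pbz o.pbz (cq o.ptz o.ptz e), ?_⟩
      have h1 := cq o.ptz (cj_mul o.ptz o.pb) (cq o.pt (cj_mul o.pt o.pb) qt)
      have h2 := cj_mul (fix_of_comm (l.le _ (f.yP _ (f.yP _ hq)))) h1
      rw [rl s.bb, one_mul] at h2
      rw [h2]
      simp only [mul_assoc, s.zb, rl s.bb, one_mul]
    · have h1 := cj_mul qt e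
      rw [rl s.tt, one_mul] at h1
      have h2 : q * (b * z) * q⁻¹ = b * z := by
        rw [cj_mul (fix_of_comm (l.le q hq)) h1]
        simp only [mul_assoc, rl s.tb, s.zb, rl s.tt, rl s.bb, one_mul]
      refine ⟨_, f.yP _ hq, cq o.pbz o.pbz h2, ?_⟩
      have h3 := cj_mul (cq o.pbz o.pbz h2) (cq o.pt (cj_mul o.pt o.pb) qt)
      rw [rl s.tt, one_mul] at h3
      rw [h3]
      simp only [mul_assoc, rl s.tt, one_mul, s.zb]
  obtain ⟨q, hq, qb, qz⟩ : ∃ q ∈ Q, q * b * q⁻¹ = b ∧ q * z * q⁻¹ = b * z := by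
    by_cases e : q ∈ Q
    · exact ⟨q, e, fix_of_comm (l.le q hq), qz⟩
    · exact ⟨q * z, s.mul q z (comm_of_fix qt) s.zt (two_of_mem l.two hq) (two_of_sq s.zz)
        (two_of_mem l.two (mul_mem hq zP)) e s.nzQ, fix_of_comm (l.le _ (mul_mem hq zP)),
        cj_comp (fix_of_comm rfl) qz⟩
  obtain ⟨k, kQ, kz⟩ : ∃ k ∈ Q, k * z * k⁻¹ = t * z := ⟨q * v, mul_mem hq vQ, cj_comp vz (by
    rw [cj_mul (cj_mul qb (fix_of_comm (s.le q hq))) qz]
    simp only [mul_assoc, rl s.tb, rl s.bb, one_mul])⟩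
  have kt := fix_of_comm (s.le k kQ)
  have ktz := cj_mul kt kz
  rw [rl s.tt, one_mul] at ktz
  let H := adj (Q ⊓ C1 z) k (fun x hx => ⟨s.nrm k (s.le k kQ) x hx.1, mem_C1.2
    (ktz ▸ cj_comm (Commute.mul_right (s.le x hx.1) (mem_C1.1 hx.2)))⟩)
    ⟨mul_mem kQ kQ, mem_C1.2 (comm_of_fix (cj_comp kz ktz))⟩
  have h1 : Nat.card H = 2 * _ := card_adj fun e => s.t1 (by
    rw [fix_of_comm (mem_C1.1 (mem_inf.1 e).2)] at kz
    exact mul_eq_right.1 kz.symm)
  have h2 := (s.low (H := H) s.fpQ (adj_le inf_le_left kQ) (by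
    rintro x (hx | hx)
    · exact .inl (by rw [← mem_C1.1 hx.2, mul_assoc, s.zz, mul_one])
    · right
      calc z * x * z = k⁻¹ * (k * z * k⁻¹) * (k * x * z) := by group
        _ = k⁻¹ * (t * (k * x)) := by
            rw [kz, mem_C1.1 hx.2]; simp only [mul_assoc, rl s.zz, one_mul]
        _ = _ := by rw [← s.le _ hx.1]; group)).1
  have h3 : Nat.card (P ⊓ C1 t : Subgroup G) ≤ Nat.card (P ⊓ C1 (t * z) : Subgroup G) := by
    rw [← card_cj p]
    refine card_le_of_le fun x hx => ?_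
    have e : p * (p⁻¹ * x * p) * p⁻¹ = x := by group
    exact ⟨e ▸ f.yP _ (mem_cj.1 hx).1, mem_C1.2 (e ▸ o.pt ▸ cj_comm (mem_C1.1 (mem_cj.1 hx).2))⟩
  have h4 := card_mul_card_le (inf_le_left : P ⊓ C1 t ≤ P) (inf_le_left : P ⊓ C1 (t * z) ≤ P)
  have h5 : Nat.card ((P ⊓ C1 t) ⊓ (P ⊓ C1 (t * z)) : Subgroup G) ≤ Nat.card R :=
    card_le_of_le fun x hx => inR x hx.1.1 (mem_C1.1 hx.1.2) (mem_C1.1 hx.2.2)
  have pP : 0 < Nat.card P := Nat.card_pos
  have h6 : Nat.card P * Nat.card P ≤ 16 * Nat.card B * Nat.card P := by nlinarith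
  have h7 := Nat.le_of_mul_le_mul_right h6 pP
  rw [h1, cA] at h2
  nlinarith

end S4

/-- **SOL** -/
theorem sol : SolStmt.{u} := by
  intro G _ _ a t r z g h k Q l
  have s : S3 a t r z g h Q (Q ⊓ cj r Q) := ⟨k, l, fun x => by rw [mem_inf, mem_cj, k.ri]⟩
  refine s.goal ?_
  by_cases e : Q ⊓ cj r Q = ⊥
  · rw [e, card_bot]; omega
  obtain ⟨b, h1, h2, h3, h4, h5⟩ := s.exb e
  have s4 : S4 a t r z g h b Q _ := ⟨s, h1, h2, h3, h4, h5⟩
  rcases (mem_zp k.tt).1 (s.fpQ.norm (s.BQ h1)) with n | n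
  exacts [(s4.eps0 n).elim, s4.eps1 n]

end Cfsg.Agent.H81.Em
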