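import Cfsg.Agent.H97.JmDefs

/-! Project JM, piece SM: a small overgroup of the normaliser of the group of order `2 ^ 10`. -/

set_option autoImplicit false

namespace Cfsg.Agent.H97.JM

open Subgroup

universe u

namespace SM

variable {G : Type u} [Group G] [Finite G] {A B : Subgroup G}

theorem index_ge {S : Type u} [Group S] [Finite S] [IsSimpleGroup S] (h : 31 ∣ Nat.card S)
    (X : Subgroup S) (n : X.index ≠ 1) : 31 ≤ X.index := by
  rcases (normalCore_normal X).eq_bot_or_eq_top with k | k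
  · rw [normalCore_eq_ker, MonoidHom.ker_eq_bot_iff] at k
    have := h.trans (card_dvd_of_injective _ k)
    rw [Nat.card_perm] at this
    exact (Nat.Prime.dvd_factorial (by norm_num)).1 this
  · exact absurd (index_eq_one.2 (top_le_iff.1 (k ▸ normalCore_le X))) n

theorem rel_ne (X Y : Subgroup G) : X.relIndex Y ≠ 0 := index_ne_zero_of_finite

theorem le_of_small (h2 : ∀ a ∈ A, a * a = 1) (hA : Nat.card A = 2 ^ 10)
    (hB : B ≤ normalizer (A : Set G)) (hs : B ⊔ A = normalizer (A : Set G)) [IsSimpleGroup B]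
    (h31 : 31 ∣ Nat.card B)
    (irr : ∀ W : Subgroup G, W ≤ A → normalizer (A : Set G) ≤ normalizer (W : Set G) → W = ⊥ ∨ W = A)
    {D : Subgroup G} (hD : D ≤ normalizer (A : Set G))
    (i : D.relIndex (normalizer (A : Set G)) ≤ 33) : A ≤ D := by
  have dm : D ⊔ A ≤ normalizer (A : Set G) := sup_le hD le_normalizer
  by_cases c : (D ⊔ A).relIndex B = 1
  · have e : normalizer (A : Set G) ≤ D ⊔ A := hs ▸ sup_le (relIndex_eq_one.1 c) le_sup_right
    have ab : ∀ a ∈ A, ∀ b ∈ A, a * b * a⁻¹ = b := fun a ha b hb => by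
      have k := h2 _ (mul_mem ha hb)
      calc a * b * a⁻¹ = a * b * a⁻¹ * (a * a) * (b * b) := by rw [h2 a ha, h2 b hb]; group
        _ = a * b * (a * b) * b := by group
        _ = b := by rw [k, one_mul]
    rcases irr (D ⊓ A) inf_le_right (e.trans (sup_le
      ((le_inf le_normalizer hD).trans inf_normalizer_le_normalizer_inf)
      fun a ha => mem_normalizer_fintype fun n hn => by rw [ab a ha n hn.2]; exact hn)) with k | k
    · have := (relIndex_le_of_le_right (H := D) le_normalizer (rel_ne _ _)).trans i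
      rw [← inf_relIndex_right, k, relIndex_bot_left, hA] at this
      omega
    · exact k ▸ inf_le_left
  · have a : 31 ≤ (D ⊔ A).relIndex (normalizer (A : Set G)) :=
      (index_ge h31 _ c).trans (relIndex_le_of_le_right hB (rel_ne _ _))
    rw [← relIndex_mul_relIndex D (D ⊔ A) _ le_sup_left dm] at i
    have b := rel_ne D (D ⊔ A)
    have : D.relIndex (D ⊔ A) = 1 := by
      by_contra n
      have := Nat.mul_le_mul (show 2 ≤ D.relIndex (D ⊔ A) by omega) a
      omega
    exact le_sup_right.trans (relIndex_eq_one.1 this)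

omit [Finite G] in
theorem two (hB : B ≤ normalizer (A : Set G)) (hs : B ⊔ A = normalizer (A : Set G))
    [IsSimpleGroup B] {X : Subgroup G} (h1 : A ≤ X) (h2 : X ≤ normalizer (A : Set G))
    (h3 : B ≤ normalizer (X : Set G)) : X ≤ A ∨ B ≤ X := by
  rcases (normal_subgroupOf_of_le_normalizer h3).eq_bot_or_eq_top with k | k
  · refine Or.inl fun x hx => ?_
    have m : x ∈ (↑(B ⊔ A) : Set G) := by rw [hs]; exact h2 hx
    rw [coe_mul_of_left_le_normalizer_right B A hB] at m
    obtain ⟨b, hb, a, ha, rfl⟩ := m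
    have : (⟨b, hb⟩ : B) ∈ X.subgroupOf B := (mul_mem_cancel_right (h1 ha)).1 hx
    rw [k, mem_bot] at this
    have e : b = 1 := congrArg Subtype.val this
    show b * a ∈ A
    rw [e, one_mul]
    exact ha
  · exact Or.inr (subgroupOf_eq_top.1 k)

end SM

theorem pSM : SM.{u} := by
  intro G _ _ A B H h2 hA hB _ hs hS cB irr hH hc
  have h31 : 31 ∣ Nat.card B := by rw [cB]; norm_num
  set M := normalizer (A : Set G) with hM
  have s1 : ∀ h ∈ H, ∀ a ∈ A, h * a * h⁻¹ ∈ M := fun h hh a ha => by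
    let M' := M.map (MulAut.conj h⁻¹).toMonoidHom
    have l : M' ≤ H := by
      rintro _ ⟨m, hm, rfl⟩
      exact mul_mem (mul_mem (inv_mem hh) (hH hm)) (inv_mem (inv_mem hh))
    have c : Nat.card M' = Nat.card M := card_map_of_injective (MulAut.conj h⁻¹).injective
    have i : M'.relIndex H ≤ 33 := by
      have e := relIndex_mul_relIndex ⊥ M' H bot_le l
      rw [relIndex_bot_left, relIndex_bot_left, c] at e
      rw [← e, mul_comm 33] at hc
      exact Nat.le_of_mul_le_mul_left hc Nat.card_pos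
    obtain ⟨m, hm, e⟩ := (SM.le_of_small h2 hA hB hs h31 irr (D := M' ⊓ M) inf_le_right (by
      rw [inf_relIndex_right]
      exact (relIndex_le_of_le_right hH (SM.rel_ne _ _)).trans i) ha).1
    have e' : h⁻¹ * m * h⁻¹⁻¹ = a := e
    rw [← e', show h * (h⁻¹ * m * h⁻¹⁻¹) * h⁻¹ = m by group]
    exact hm
  let K : Subgroup G := closure {x | ∃ h ∈ H, ∃ a ∈ A, x = h * a * h⁻¹}
  have k1 : A ≤ K := fun a ha => subset_closure ⟨1, one_mem _, a, ha, by group⟩
  have k2 : K ≤ M := (closure_le _).2 (by rintro _ ⟨h, hh, a, ha, rfl⟩; exact s1 h hh a ha)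
  have k3 : H ≤ normalizer (K : Set G) := fun g hg => mem_normalizer_fintype fun n hn => by
    have : K ≤ K.comap (MulAut.conj g).toMonoidHom := (closure_le _).2 (by
      rintro _ ⟨h, hh, a, ha, rfl⟩
      exact subset_closure ⟨g * h, mul_mem hg hh, a, ha, by
        show g * (h * a * h⁻¹) * g⁻¹ = _
        group⟩)
    exact this hn
  intro h hh
  refine mem_normalizer_fintype fun a ha => ?_
  rcases SM.two hB hs k1 k2 (hB.trans (hH.trans k3)) with k | k
  · exact k (subset_closure ⟨h, hh, a, ha, rfl⟩)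
  · have km : M ≤ K := hs ▸ sup_le k k1
    let A' := A.map (MulAut.conj h).toMonoidHom
    have a1 : A' ≤ M := by
      rintro _ ⟨x, hx, rfl⟩
      exact s1 h hh x hx
    have a2 : B ≤ normalizer (A' : Set G) := fun b hb => mem_normalizer_fintype (by
      rintro _ ⟨x, hx, rfl⟩
      have m : h⁻¹ * b * h⁻¹⁻¹ ∈ M := k2 ((mem_normalizer_iff.1 (k3 (inv_mem hh)) b).1 (k hb))
      refine ⟨_, (mem_normalizer_iff.1 m x).1 hx, ?_⟩
      show h * (h⁻¹ * b * h⁻¹⁻¹ * x * (h⁻¹ * b * h⁻¹⁻¹)⁻¹) * h⁻¹ = b * (h * x * h⁻¹) * b⁻¹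
      group)
    have p : IsPGroup 2 A := IsPGroup.of_card hA
    rcases SM.two hB hs (X := A' ⊔ A) le_sup_right (sup_le a1 le_normalizer)
      ((le_inf a2 hB).trans (normalizer_inf_normalizer_le_normalizer_sup _ _)) with q | q
    · exact q (mem_sup_left ⟨a, ha, rfl⟩)
    · obtain ⟨n, hn⟩ := IsPGroup.iff_card.1
        (((p.map _).to_sup_of_normal_right' p a1).to_le q)
      rw [hn] at h31
      exact absurd ((Nat.Prime.dvd_of_dvd_pow (by norm_num) h31)) (by norm_num)

end Cfsg.Agent.H97.JM
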