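import Cfsg.Agent.H24.JnDefs

/-! Project JN, piece GL2: from the computed data to the isomorphism with `Aut M₂₂`. -/

set_option autoImplicit false

namespace Cfsg.Agent.H24.JN

open Subgroup

universe u

namespace GL2

variable {G : Type u} [Group G] [Finite G]

theorem two_inj : ∀ i j : Fin 10, 2 ^ i.1 % 11 = 2 ^ j.1 % 11 → i = j := by decide

omit [Finite G] in
theorem conj_h {x h : G} (hx : h * x * h⁻¹ = x ^ 2) (i : ℕ) :
    h ^ i * x * (h ^ i)⁻¹ = x ^ 2 ^ i := by
  induction i with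
  | zero => simp
  | succ i ih =>
    rw [pow_succ' h, mul_inv_rev, show h * h ^ i * x * ((h ^ i)⁻¹ * h⁻¹) =
      h * (h ^ i * x * (h ^ i)⁻¹) * h⁻¹ by group, ih, ← conj_pow, hx, ← pow_mul, pow_succ']

theorem mem_N {x g : G} (hg : g * x * g⁻¹ ∈ zpowers x) :
    g ∈ normalizer ((zpowers x : Subgroup G) : Set G) :=
  mem_normalizer_fintype (by
    rintro _ ⟨k, rfl⟩
    simp only
    rw [← conj_zpow]
    exact zpow_mem hg k)

theorem cen {M : Subgroup G} {x h : G} (xM : x ∈ M) (hM : h ∈ M) (ox : orderOf x = 11)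
    (hx : h * x * h⁻¹ = x ^ 2)
    (c : Nat.card ↥(M ⊓ normalizer ((zpowers x : Subgroup G) : Set G)) = 110) :
    M ⊓ centralizer ({x} : Set G) = zpowers x := by
  have k : ∀ a ∈ M ⊓ centralizer ({x} : Set G), ∀ i : ℕ,
      a * h ^ i * x * (a * h ^ i)⁻¹ = x ^ 2 ^ i := fun a ha i => by
    have e : Commute a x := mem_centralizer_singleton_iff.1 ha.2
    rw [show a * h ^ i * x * (a * h ^ i)⁻¹ = a * (h ^ i * x * (h ^ i)⁻¹) * a⁻¹ by group,
      conj_h hx, (e.pow_right _).eq, mul_inv_cancel_right]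
  let f : ↥(M ⊓ centralizer ({x} : Set G)) × Fin 10 →
      ↥(M ⊓ normalizer ((zpowers x : Subgroup G) : Set G)) := fun p =>
    ⟨p.1 * h ^ p.2.1, mul_mem p.1.2.1 (pow_mem hM _), mem_N (by
      rw [k _ p.1.2]; exact pow_mem (mem_zpowers x) _)⟩
  have inj : Function.Injective f := by
    rintro ⟨a, i⟩ ⟨b, j⟩ e
    have e1 : (a : G) * h ^ i.1 = b * h ^ j.1 := congrArg Subtype.val e
    have e2 := k _ a.2 i
    rw [e1, k _ b.2, pow_eq_pow_iff_modEq, ox] at e2
    obtain rfl := two_inj _ _ e2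
    exact Prod.ext (Subtype.ext (mul_right_cancel e1)) rfl
  have le := Nat.card_le_card_of_injective f inj
  rw [Nat.card_prod, Nat.card_fin, c] at le
  refine (eq_of_le_of_card_ge
    (zpowers_le.2 (mem_inf.2 ⟨xM, mem_centralizer_singleton_iff.2 rfl⟩)) ?_).symm
  rw [Nat.card_zpowers, ox]
  omega

theorem card_N {K : Type u} [Group K] {M : Subgroup G} (ι : K →* G) (hι : Function.Injective ι)
    (hM : ∀ k, ι k ∈ M) (y : K) : Nat.card (normalizer ((zpowers y : Subgroup K) : Set K)) ∣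
      Nat.card ↥(M ⊓ normalizer ((zpowers (ι y) : Subgroup G) : Set G)) := by
  rw [← card_map_of_injective hι]
  refine card_dvd_of_le ?_
  rintro _ ⟨g, hg, rfl⟩
  refine ⟨hM g, mem_N ?_⟩
  obtain ⟨k, hk⟩ := mem_zpowers_iff.1 ((mem_normalizer_iff.1 hg _).1 (mem_zpowers y))
  rw [← map_inv, ← map_mul, ← map_mul, ← hk, map_zpow]
  exact zpow_mem (mem_zpowers _) k

end GL2

theorem pGL2 (hSI : SI.{u}) (hID : ID.{u}) : GL2.{u} := by
  intro G _ _ M K x h s D cM c1 c2
  have i2 : (K.subgroupOf M).index = 2 := D.idx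
  have cK : Nat.card (K.subgroupOf M) = 443520 := by
    have := (K.subgroupOf M).card_mul_index
    rw [i2, cM] at this
    omega
  have odd : ∀ (y : G) (hy : y ∈ M) (n : ℕ), orderOf y + 1 = n * 2 →
      (⟨y, hy⟩ : M) ∈ K.subgroupOf M := fun y hy n e => by
    have := sq_mem_of_index_two i2 (⟨y, hy⟩ ^ n)
    rwa [← pow_mul, ← e, pow_succ, show (⟨y, hy⟩ : M) ^ orderOf y = 1 from
      Subtype.ext (pow_orderOf_eq_one y), one_mul] at this
  let ι : K.subgroupOf M →* G := M.subtype.comp (K.subgroupOf M).subtype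
  have hι : Function.Injective ι := M.subtype_injective.comp (K.subgroupOf M).subtype_injective
  let x' : K.subgroupOf M := ⟨_, odd x D.xM 6 (by rw [D.x11])⟩
  let s' : K.subgroupOf M := ⟨_, odd s D.sM 4 (by rw [D.s7])⟩
  have ox : orderOf x' = 11 := (orderOf_injective ι hι x').symm.trans D.x11
  have os : orderOf s' = 7 := (orderOf_injective ι hι s').symm.trans D.s7
  have cx := GL2.cen D.xM D.hM D.x11 D.hx c1
  have cx' : centralizer ({x'} : Set (K.subgroupOf M)) = zpowers x' := by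
    refine le_antisymm (fun c hc => ?_) (zpowers_le.2 (mem_centralizer_singleton_iff.2 rfl))
    have m : ι c ∈ zpowers x := cx ▸ ⟨c.1.2, mem_centralizer_singleton_iff.2
      ((map_mul ι c x').symm.trans ((congrArg ι (mem_centralizer_singleton_iff.1 hc)).trans
        (map_mul ι x' c)))⟩
    obtain ⟨k, hk⟩ := mem_zpowers_iff.1 m
    exact mem_zpowers_iff.2 ⟨k, hι (by rw [map_zpow]; exact hk)⟩
  have hS := hSI _ x' s' cK ox os cx' (c1 ▸ GL2.card_N ι hι (fun k => k.1.2) x')
    (c2 ▸ GL2.card_N ι hι (fun k => k.1.2) s')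
  refine hID M _ i2 hS cK (eq_bot_iff.2 fun c hc => mem_bot.2 ?_)
  have m : (c : G) ∈ zpowers x := cx ▸ ⟨c.2, mem_centralizer_singleton_iff.2
    (congrArg Subtype.val (hc _ x'.2)).symm⟩
  obtain ⟨k, hk⟩ := mem_zpowers_iff.1 m
  have e : c = ((x' ^ k : K.subgroupOf M) : M) := Subtype.ext (hk.symm.trans (map_zpow ι x' k).symm)
  have z : x' ^ k ∈ center (K.subgroupOf M) := mem_center_iff.2 fun g => Subtype.ext (by
    rw [coe_mul, coe_mul, ← e]; exact hc _ g.2)
  rcases (inferInstance : (center (K.subgroupOf M)).Normal).eq_bot_or_eq_top with q | q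
  · rw [q, mem_bot] at z
    rw [e, z, coe_one]
  · have : zpowers x' = ⊤ := cx' ▸ top_le_iff.1 (q ▸ center_le_centralizer _)
    have := congrArg (fun A : Subgroup (K.subgroupOf M) => Nat.card A) this
    simp only [Nat.card_zpowers, card_top, ox, cK] at this
    omega

end Cfsg.Agent.H24.JN
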