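import Cfsg.Agent.H97.JnDefs

/-! Project JN, piece QP: the subgroup of order `12144` is maximal. -/

set_option autoImplicit false

namespace Cfsg.Agent.H97.JM

open Subgroup

universe u

namespace QP

def t1 (n : ℕ) : Bool :=
  n % 12144 != 0 || n % 29 != 0 || n % 43 != 0 || n / 12144 % 23 != 1 || !ok n ||
    n == 86775571046077562880

def t2 (n : ℕ) : Bool :=
  n % 12144 != 0 || n % 121 == 0 || n / 12144 % 23 != 1 || n / 12144 % 11 != 1 || !ok n ||
    n == 12144

theorem a1 : allD t1 = true := by decide +kernel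

theorem a2 : allD t2 = true := by decide +kernel

theorem core (hSYL : SYL.{u}) (K : Type u) [Group K] [Finite K] (M : Subgroup K) (x : K)
    (hx : orderOf x = 11) (cM : Nat.card M = 12144)
    (hN : normalizer ((zpowers x : Subgroup K) : Set K) ≤ M) :
    ¬ 121 ∣ Nat.card K ∧ Nat.card K / 12144 % 11 = 1 := by
  have : Fact (Nat.Prime 11) := ⟨by norm_num⟩
  have hP : Nat.card (zpowers x) = 11 ^ 1 := by rw [Nat.card_zpowers, hx, pow_one]
  have h2 : ¬ 11 ^ (1 + 1) ∣ Nat.card K := by
    intro h
    obtain ⟨Q, hQ, hPQ⟩ := Sylow.exists_subgroup_card_pow_succ h hP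
    have hcomm : IsMulCommutative Q := IsPGroup.isMulCommutative_of_card_eq_prime_sq (p := 11) hQ
    have hle : Q ≤ M := fun q hq => hN (mem_normalizer_fintype fun n hn => by
      have : q * n = n * q := congrArg Subtype.val (hcomm.is_comm.comm ⟨q, hq⟩ ⟨n, hPQ hn⟩)
      rw [this, mul_inv_cancel_right]
      exact hn)
    have := card_dvd_of_le hle
    rw [hQ, cM] at this
    norm_num at this
  have hidx : ¬ 11 ∣ (zpowers x).index := by
    intro h
    apply h2
    rw [← (zpowers x).card_mul_index, hP, pow_succ]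
    exact Nat.mul_dvd_mul_left _ h
  refine ⟨h2, ?_⟩
  have := hSYL K 11 ((IsPGroup.of_card hP).toSylow hidx) M ⊤ (le_normalizer.trans hN) le_top
    (inf_le_right.trans hN)
  rwa [card_top, cM] at this

theorem eqns : True := by
  have := @t1.eq_1; have := @t2.eq_1; trivial

end QP

theorem qQP (hALLD : ALLD) (hOK : OK.{u}) (hSYL : SYL.{u}) (_hCONG : CONG.{u}) : QP.{u} := by
  intro G _ _ C M X h x cM hX hh hx oX oh hn ox hc
  have : Fact (Nat.Prime 23) := ⟨by norm_num⟩
  have cN : Nat.card (normalizer ((zpowers X : Subgroup G) : Set G)) = 506 :=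
    (C.big 23 22 (by simp) X oX).2
  have hN : normalizer ((zpowers X : Subgroup G) : Set G) ≤ M := by
    have m1 : X ∈ M ⊓ normalizer ((zpowers X : Subgroup G) : Set G) :=
      ⟨hX, le_normalizer (mem_zpowers X)⟩
    have m2 : h ∈ M ⊓ normalizer ((zpowers X : Subgroup G) : Set G) :=
      ⟨hh, mem_normalizer_fintype (by
        rintro _ ⟨k, rfl⟩
        simp only
        rw [← conj_zpow]
        exact zpow_mem hn k)⟩
    have d1 := Subgroup.orderOf_dvd_natCard _ m1
    have d2 := Subgroup.orderOf_dvd_natCard _ m2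
    rw [oX] at d1
    rw [oh] at d2
    have d := Nat.Coprime.mul_dvd_of_dvd_of_dvd (by norm_num) d1 d2
    have e := eq_of_le_of_card_ge (inf_le_right (a := M)) (cN.le.trans (Nat.le_of_dvd Nat.card_pos d))
    exact e ▸ inf_le_left
  let S : Sylow 23 G := Sylow.ofCard (zpowers X) (by
    have hp : Nat.Prime 23 := by norm_num
    have a := (hp.pow_dvd_iff_le_factorization (k := 1) (n := 86775571046077562880)
      (by norm_num)).1 (by norm_num)
    have b := mt (hp.pow_dvd_iff_le_factorization (k := 2) (n := 86775571046077562880)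
      (by norm_num)).2 (by norm_num)
    rw [C.card, show (86775571046077562880 : ℕ).factorization 23 = 1 by omega, Nat.card_zpowers, oX]
    rfl)
  refine ⟨fun e => ?_, fun H hH => ?_⟩
  · rw [e, card_top, C.card] at cM; norm_num at cM
  have dG : Nat.card H ∣ 86775571046077562880 := by
    rw [← C.card]; exact card_subgroup_dvd_card H
  have dM : 12144 ∣ Nat.card H := by rw [← cM]; exact card_dvd_of_le hH.le
  have s23 : Nat.card H / 12144 % 23 = 1 := by
    rw [← cM]
    exact hSYL G 23 S M H (le_normalizer.trans hN) hH.le (inf_le_right.trans hN)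
  have okH := hOK G C H
  by_cases hd : 29 ∣ Nat.card H ∧ 43 ∣ Nat.card H
  · have := hALLD _ QP.a1 _ dG
    simp only [QP.t1, Nat.mod_eq_zero_of_dvd dM, Nat.mod_eq_zero_of_dvd hd.1,
      Nat.mod_eq_zero_of_dvd hd.2, s23, okH, bne_self_eq_false, Bool.not_true, Bool.false_or,
      beq_iff_eq] at this
    exact eq_top_of_card_eq H (by rw [this, C.card])
  exfalso
  obtain ⟨n121, s11⟩ := QP.core hSYL H (M.subgroupOf H) ⟨x, hH.le hx⟩
    (by rw [← ox]; exact (orderOf_injective H.subtype H.subtype_injective ⟨x, hH.le hx⟩).symm)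
    (by rw [Nat.card_congr (subgroupOfEquivOfLe hH.le).toEquiv, cM]) fun g hg => by
      obtain ⟨k, hk⟩ := mem_zpowers_iff.1 ((mem_normalizer_iff.1 hg _).1 (mem_zpowers _))
      refine (hc H hH.le g g.2 (mem_zpowers_iff.2 ⟨k, ?_⟩)).resolve_right hd
      simpa using congrArg Subtype.val hk
  have n121' : Nat.card H % 121 ≠ 0 := fun e => n121 (Nat.dvd_of_mod_eq_zero e)
  have := hALLD _ QP.a2 _ dG
  simp only [QP.t2, Nat.mod_eq_zero_of_dvd dM, s23, s11, okH, bne_self_eq_false, Bool.not_true,
    Bool.false_or, Bool.or_false, Bool.or_eq_true, beq_iff_eq, n121', false_or] at this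
  exact hH.ne (eq_of_le_of_card_ge hH.le (by rw [this, cM]))

end Cfsg.Agent.H97.JM
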