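import Mathlib
import Cfsg.Agent.H81.LyT0

/-!
# The Lyons group: upper bound for the centraliser of an element of order three
-/

set_option autoImplicit false
set_option maxRecDepth 1000000
set_option linter.all false
set_option Elab.async false

namespace Cfsg.Agent.H81.Ly

open Cfsg.Agent.H42 Cfsg.Agent.H46 Cfsg.Agent.H81.DCE MulAction
open Cfsg.Agent.H44 (ev Sat gen wgen lettersIn invW)
open scoped MatrixGroups

theorem cnt_x0 : Nat.ble (cnt (fun i => M7.O.commB (cl i) x7) 15624) 504 = true := by decide +kernel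

theorem cnt_x1 : Nat.ble (cnt (fun i => M7.O.commB (M7.O.mul (M7.O.mul x7 (cl i)) xi7) (cl i)) 15624) 504 = true := by
  decide +kernel

theorem trace_of_R {p w n : ℕ} {mul act : ℕ → ℕ → ℕ} {one : ℕ}
    (D : MatData (fun a : ℕ => (a : ZMod p)) w p n mul act one) {a : ℕ} {g : GL (Fin n) (ZMod p)}
    (h : (D.coded (Equiv.refl _)).R a g) :
    Matrix.trace (g : Matrix (Fin n) (Fin n) (ZMod p)) = ((∑ i ∈ Finset.range n, lane w a (n * i + i) : ℕ) : ZMod p) := by
  rw [← h.2, Nat.cast_sum, ← Fin.sum_univ_eq_sum_range (fun i => ((lane w a (n * i + i) : ℕ) : ZMod p))]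
  rfl

/-- The trace. -/
noncomputable def tr7 (a : ℕ) : ℕ := frc a fun a => Nat.mod (Nat.add (Nat.add (Nat.add (Nat.add (Nat.add (Nat.add
  (fld 14 a 0) (fld 14 a 8)) (fld 14 a 16)) (fld 14 a 24)) (fld 14 a 32)) (fld 14 a 40)) (fld 14 a 48)) 5

theorem tr7_eq (a : ℕ) : tr7 a = (∑ i ∈ Finset.range 7, lane 14 a (7 * i + i)) % 5 := by
  unfold tr7
  rw [frc_eq]
  simp only [Finset.sum_range_succ, Finset.sum_range_zero, zero_add]
  rfl

theorem tr7_conj {a b : ℕ} {g h : K0} (ha : C7.R a g) (hb : C7.R b h) (e : IsConj g h) : tr7 a = tr7 b := by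
  obtain ⟨k, rfl⟩ := isConj_iff.mp e
  have h1 := trace_of_R M7.matData ha
  have h2 := trace_of_R M7.matData hb
  rw [map_mul, map_mul, map_inv, Units.val_mul, Units.val_mul, Matrix.trace_units_conj, h1] at h2
  rw [tr7_eq, tr7_eq]
  exact (ZMod.natCast_eq_natCast_iff' _ _ _).mp h2

/-- The test for the class of `x`. -/
noncomputable def triB (a : ℕ) : Bool :=
  andB (Nat.beq (tr7 a) 3) (M7.O.eqB (M7.O.mul (M7.O.mul a a) a) M7.O.one)

theorem cnt_x2 : Nat.ble (cnt (fun i => triB (el2 i)) 6048) 56 = true := by decide +kernel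
theorem cnt_x3 : Nat.ble (cnt (fun i => triB (el3 i)) 2880) 20 = true := by decide +kernel
theorem cnt_x4 : Nat.ble (cnt (fun i => triB (el4 i)) 1008) 2 = true := by decide +kernel

theorem xK_cube : xK * xK * xK = 1 :=
  C7.eq_of_eqB (C7.R_mul (C7.R_mul R_x7 R_x7) R_x7) C7.R_one (by decide +kernel)

theorem triB_of (a : ℕ) (y : K0) (hy : IsConj xK y) (h : C7.R a y) : triB a = true := by
  have h0 : Nat.beq (tr7 x7) 3 = true := by decide +kernel
  refine andB_iff.mpr ⟨tr7_conj R_x7 h hy ▸ h0, (C7.eqB_iff (C7.R_mul (C7.R_mul h h) h) C7.R_one).mpr ?_⟩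
  obtain ⟨g, rfl⟩ := isConj_iff.mp hy
  rw [conj_mul, conj_mul, xK_cube, mul_one, mul_inv_cancel]

theorem card_cent_xK_le : Nat.card (Subgroup.centralizer {xK}) ≤ 378000 :=
  card_cent_le R_x7 (by decide +kernel) (ble_iff.mp cnt_x0) card_Cp_x

theorem card_cent_x_le :
    Nat.card (Subgroup.centralizer {el 24}) ≤ 7506 * Nat.card (Subgroup.centralizer {xK}) := by
  have h := card_cent_phi_le xK
  have h0 := card_cent_xK_le
  have h1 := fix1_le R_x7 R_xi7 (ble_iff.mp cnt_x1)
  have h2 := fix_le tab_el2 sort2 card_stab.2.1 triB triB_of (ble_iff.mp cnt_x2)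
  have h3 := fix_le tab_el3 sort3 card_stab.2.2.1 triB triB_of (ble_iff.mp cnt_x3)
  have h4 := fix_le tab_el4 sort4 card_stab.2.2.2 triB triB_of (ble_iff.mp cnt_x4)
  rw [phi_xK] at h
  exact h.trans (Nat.mul_le_mul_right _ (by omega))

end Cfsg.Agent.H81.Ly
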