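import Mathlib
import Cfsg.Agent.H81.LyT0

/-!
# The Lyons group: the long root elements of `SU₃(5)`
-/

set_option autoImplicit false
set_option maxRecDepth 1000000
set_option linter.all false
set_option Elab.async false

namespace Cfsg.Agent.H81.Ly

open Cfsg.Agent.H42 Cfsg.Agent.H46 Cfsg.Agent.H81.DCE MulAction
open Cfsg.Agent.H44 (ev Sat gen wgen lettersIn invW)
open scoped MatrixGroups

/-- An element of order five. -/
noncomputable def o5 (a : ℕ) : Bool := M7.O.ordChk (M7.O.sq a) 5 [5]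

/-- Conjugation with `c5`. -/
noncomputable def cj5 (a : ℕ) : ℕ := M7.O.mul (M7.O.mul (c7 5) a) (c7 6)

/-- The test for the long root elements commuting with `x`. -/
noncomputable def tst (a : ℕ) : Bool :=
  orB (notB (M7.O.commB a x7)) (orB (M7.O.eqB a (c7 5)) (frc (M7.O.mul a (c7 6)) fun v => frc (cj5 v) fun v1 =>
    frc (M7.O.mul v (cj5 v1)) fun w => orB (o5 w) (o5 (M7.O.mul v1 w))))

theorem tst_w0 : allW (fun i => tst (cl i)) 0 1953 = true := by decide +kernel
theorem tst_w1 : allW (fun i => tst (cl i)) 1953 1953 = true := by decide +kernel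
theorem tst_w2 : allW (fun i => tst (cl i)) 3906 1953 = true := by decide +kernel
theorem tst_w3 : allW (fun i => tst (cl i)) 5859 1953 = true := by decide +kernel
theorem tst_w4 : allW (fun i => tst (cl i)) 7812 1953 = true := by decide +kernel
theorem tst_w5 : allW (fun i => tst (cl i)) 9765 1953 = true := by decide +kernel
theorem tst_w6 : allW (fun i => tst (cl i)) 11718 1953 = true := by decide +kernel
theorem tst_w7 : allW (fun i => tst (cl i)) 13671 1953 = true := by decide +kernel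

theorem tst_all : allB (fun i => tst (cl i)) 15624 = true := by
  refine allB_iff.mpr fun i hi => ?_
  have key : ∀ lo : ℕ, allW (fun i => tst (cl i)) lo 1953 = true → lo ≤ i → i < lo + 1953 →
      tst (cl i) = true := fun lo h h1 h2 => by
    have := of_allB h (i := i - lo) (by omega)
    rwa [show Nat.add lo (i - lo) = i by simp only [Nat.add_eq]; omega] at this
  by_cases h0 : i < 1953
  · exact key _ tst_w0 (by omega) (by omega)
  by_cases h1 : i < 3906
  · exact key _ tst_w1 (by omega) (by omega)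
  by_cases h2 : i < 5859
  · exact key _ tst_w2 (by omega) (by omega)
  by_cases h3 : i < 7812
  · exact key _ tst_w3 (by omega) (by omega)
  by_cases h4 : i < 9765
  · exact key _ tst_w4 (by omega) (by omega)
  by_cases h5 : i < 11718
  · exact key _ tst_w5 (by omega) (by omega)
  by_cases h6 : i < 13671
  · exact key _ tst_w6 (by omega) (by omega)
  exact key _ tst_w7 (by omega) (by omega)

theorem kk6 : kk 6 = (kk 5)⁻¹ := (kk_iv 5 (by norm_num) (by norm_num)).1

theorem c5_comm_x : kk 5 * xK = xK * kk 5 :=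
  (C7.commB_iff (R_kk 5 (by norm_num) (by norm_num)) R_x7).mp (by decide +kernel)

/-- A subgroup of order prime to five, centralising `x` and normalised by `c5`, centralises `c5`. -/
theorem le_Cp {N : Subgroup K0} (h1 : N ≤ Subgroup.centralizer {xK}) (h2 : ∀ n ∈ N, kk 5 * n * (kk 5)⁻¹ ∈ N)
    (h3 : ¬ 5 ∣ Nat.card N) : N ≤ Cp := by
  intro n hn
  obtain ⟨i, hi, hR⟩ := enum_cl (n * kk 5 * n⁻¹) (isConj_iff.mpr ⟨n, rfl⟩)
  have r5 := R_kk 5 (by norm_num) (by norm_num)
  have r6 := kk6 ▸ R_kk 6 (by norm_num) (by norm_num)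
  have h4 := of_allB tst_all hi
  generalize cl i = a at hR h4
  have h5 : ∀ {b : ℕ} {g : K0}, C7.R b g → g ∈ N → o5 b ≠ true := fun hb hg e => h3 (by
    have h6 := N.orderOf_dvd_natCard (N.mul_mem hg hg)
    rwa [C7.orderOf_of_ordChk (C7.R_sq hb) (by norm_num) (by norm_num) (l := [5])
      (by simp [Nat.primeFactorsList_prime Nat.prime_five]) e] at h6)
  rcases orB_iff.mp h4 with h | h
  · have h6 := Subgroup.mem_centralizer_singleton_iff.mp (h1 hn)
    have h7 : n * kk 5 * n⁻¹ * xK = xK * (n * kk 5 * n⁻¹) := by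
      have h4 : n⁻¹ * xK = xK * n⁻¹ := by rw [inv_mul_eq_iff_eq_mul, ← mul_assoc, h6, mul_inv_cancel_right]
      rw [mul_assoc, h4, ← mul_assoc, mul_assoc n, c5_comm_x, ← mul_assoc, h6]
      simp only [mul_assoc]
    rw [(C7.commB_iff hR R_x7).mpr h7] at h
    exact absurd h (by decide)
  rcases orB_iff.mp h with h | h
  · rw [Cp_eq, Subgroup.mem_centralizer_singleton_iff]
    exact mul_inv_eq_iff_eq_mul.mp (C7.eq_of_eqB hR r5 h)
  · rw [frc_eq, frc_eq, frc_eq] at h
    have v0 := C7.R_mul hR r6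
    have m0 : n * kk 5 * n⁻¹ * (kk 5)⁻¹ ∈ N := by
      have := N.mul_mem hn (h2 _ (N.inv_mem hn))
      simpa only [mul_assoc] using this
    have v1 := C7.R_mul (C7.R_mul r5 v0) r6
    have v2 := C7.R_mul v0 (C7.R_mul (C7.R_mul r5 v1) r6)
    have m2 := N.mul_mem m0 (h2 _ (h2 _ m0))
    exact ((orB_iff.mp h).elim (h5 v2 m2) (h5 (C7.R_mul v1 v2) (N.mul_mem (h2 _ m0) m2))).elim

noncomputable def qW (j : ℕ) : List ℕ := H44.nth [] [[9, 11, 11, 16], [9, 14, 9, 15]] j
noncomputable def q7 : ℕ → ℕ := getL [(nat_lit 0x100000030000002000c0040000001000c00200000010008000000000100000000000003000000000000010000001000000000000000000001000c0020000000000000000000010000000000000000000000000001), (nat_lit 0x10000002000c000000c004000000100000030008001000800000000010000000000800000000000000001000000400040000000000000000100000030000000000000000000010000000000000000000000000001)]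

theorem R_q7 : ∀ j < 2, C7.R (q7 j) (ev kk (qW j)) := by
  have h : allB (fun j => andB (lettersIn 76 (qW j)) (Nat.beq (M7.O.word c7 (qW j)) (q7 j))) 2 = true := by
    decide +kernel
  intro j hj
  obtain ⟨h1, h2⟩ := andB_iff.mp (of_allB h hj)
  exact beq_iff.mp h2 ▸ R_word7 h1

/-- A Sylow 5-subgroup of `SU₃(5)`. -/
def Q5 : Subgroup K0 := Subgroup.closure (C7.gens q7 2)

noncomputable def tQ_t : BT := (.leaf (nat_lit 0xaf4af3af2af19ea9e99e89e79649e39e29e096095e8d98d88d78d68538d28d18cf84f84d8cc84c8cb84b8ca84a8497c47c37c27c173e7bd7bc7ba73a7387b77377b67367b57357347b37337b27326b16b06af6ae62b6aa6a96a76276256a46246a36236a26226216a062069f61f69e61e51d59c59b59951951759651659551559451451359251259151159051058f48e40e48d40d48c40c40b48a40a489409488408487407386306385305384304383303282202281201180100000))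
noncomputable def tQ_r : ℕ → ℕ := memo (look tQ_t (nat_lit 341) (nat_lit 12) (nat_lit 4095))
noncomputable def tQ_p (i : ℕ) : ℕ := bits (tQ_r i) (nat_lit 0) (nat_lit 127)
noncomputable def tQ_g (i : ℕ) : ℕ := bits (tQ_r i) (nat_lit 7) (nat_lit 1)
noncomputable def tQ_d (i : ℕ) : ℕ := bits (tQ_r i) (nat_lit 8) (nat_lit 15)

noncomputable def elQ : ℕ → ℕ := M7.O.tabW q7 2 tQ_p tQ_g tQ_d

theorem enum_Q5 : C7.Enum Q5 elQ 125 := by
  have h : allB (fun x => allB (M7.O.edgeChk q7 elQ 125 (fun x j => getL [1, 2, 3, 4, 5, 6, 7, 8, 9, 10, 11, 12, 13, 14, 15, 16, 17, 18, 19, 20, 21, 22, 23, 21, 24, 25, 26, 27, 28, 29, 0, 30, 31, 32, 33, 34, 35, 36, 37, 35, 38, 39, 40, 41, 42, 43, 44, 38, 32, 42, 45, 46, 34, 45, 36, 47, 39, 48, 49, 0, 50, 51, 52, 53, 54, 55, 56, 54, 57, 58, 59, 60, 61, 62, 63, 57, 51, 61, 64, 65, 53, 64, 55, 66, 58, 67, 68, 1, 2, 59, 60, 68, 62, 69, 65, 70, 66, 71, 67, 72, 73, 74, 75, 76, 77, 75, 78, 79, 80, 81, 82, 83, 84, 78, 6, 82, 85,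 86, 74, 85, 76, 87, 79, 88, 89, 3, 4, 80, 81, 89, 83, 90, 86, 91, 87, 92, 88, 93, 90, 5, 91, 73, 92, 77, 93, 84, 94, 13, 95, 96, 97, 98, 99, 100, 101, 95, 10, 99, 102, 103, 12, 102, 14, 104, 96, 105, 106, 7, 8, 97, 98, 106, 100, 107, 103, 108, 104, 109, 105, 110, 107, 9, 108, 11, 109, 94, 110, 101, 111, 24, 18, 28, 112, 113, 20, 112, 22, 114, 25, 115, 116, 15, 16, 26, 27, 116, 29, 117, 113, 118, 114, 119, 115, 120, 117, 17, 118, 19, 119, 23, 120, 111, 30, 40, 41, 49, 43, 121, 46, 122, 47, 123, 48, 124, 121, 31, 122, 33, 123, 37, 124, 44, 69, 50, 70, 52, 71, 56, 72, 63] (Nat.add (Nat.mul 2 x) j))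
      (fun _ _ => M7.O.one) x) 2) 125 = true := by decide +kernel
  exact C7.enum_tabW (by norm_num) (by norm_num) (fun j hj => ⟨_, R_q7 j hj⟩) (by decide +kernel)
    fun x hx => of_allB h hx

theorem card_Q5 : Nat.card Q5 = 125 := by
  have h : distinctB elQ 125 = true := by decide +kernel
  refine le_antisymm (enum_Q5.card_le C7) (Coded.Tab.le_card C7 (f := elQ) (fun i _ => ?_) (inj_of_distinctB h))
  exact C7.mem_tabW (by norm_num) (C7.tab_closure fun j hj => ⟨_, R_q7 j hj⟩) _ _ _ i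

theorem Q5_le : Q5 ≤ Cp ⊓ Subgroup.centralizer {xK} :=
  le_inf (Cp_eq ▸ closure_le_cent C7 (R_kk 5 (by norm_num) (by norm_num)) (by decide +kernel))
    (closure_le_cent C7 R_x7 (by decide +kernel))

theorem center_Q5 {z : K0} (hz : z ∈ Q5) (h1 : z ≠ 1) (h2 : ∀ y ∈ Q5, y * z = z * y) : kk 5 ∈ Subgroup.zpowers z := by
  have h : allB (fun i => orB (M7.O.eqB (elQ i) M7.O.one) (orB (notB (M7.O.commB (q7 0) (elQ i)))
      (orB (notB (M7.O.commB (q7 1) (elQ i))) (anyL (fun e => M7.O.eqB (M7.O.pow (elQ i) e) (c7 5)) [1, 2, 3, 4])))) 125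
      = true := by decide +kernel
  obtain ⟨i, hi, hR⟩ := enum_Q5 z hz
  have h3 := of_allB h hi
  generalize elQ i = a at hR h3
  have h4 : ∀ j < 2, notB (M7.O.commB (q7 j) a) ≠ true := fun j hj e => by
    rw [(C7.commB_iff (R_q7 j hj) hR).mpr (h2 _ (Subgroup.subset_closure ⟨j, hj, R_q7 j hj⟩))] at e
    exact absurd e (by decide)
  rcases orB_iff.mp h3 with h | h
  · exact absurd (C7.eq_of_eqB hR C7.R_one h) h1
  obtain ⟨e, -, he⟩ := anyL_iff.mp ((orB_iff.mp ((orB_iff.mp h).resolve_left (h4 0 (by norm_num)))).resolve_left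
    (h4 1 (by norm_num)))
  exact ⟨e, (zpow_natCast _ _).trans (C7.eq_of_eqB (C7.R_pow hR e) (R_kk 5 (by norm_num) (by norm_num)) he)⟩

/-- The involution inverts the generators. -/
theorem Q5_le_of {N : Subgroup K0} (ht : tK ∈ N) (h : ∀ q ∈ Q5, q * tK * q⁻¹ ∈ N) : Q5 ≤ N := by
  have h1 : allB (fun j => M7.O.eqB (M7.O.pow (M7.O.mul (M7.O.mul (M7.O.mul (q7 j) t7) (M7.O.pow (q7 j) 4)) t7) 3) (q7 j)) 2
      = true := by decide +kernel
  have h2 : allB (fun j => M7.O.eqB (M7.O.mul (q7 j) (M7.O.pow (q7 j) 4)) M7.O.one) 2 = true := by decide +kernel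
  refine (Subgroup.closure_le _).mpr ?_
  rintro q ⟨j, hj, hq⟩
  have e1 := C7.eq_of_eqB (C7.R_pow (C7.R_mul (C7.R_mul (C7.R_mul hq R_t7) (C7.R_pow hq 4)) R_t7) 3) hq (of_allB h1 hj)
  have e2 := eq_inv_of_mul_eq_one_right (C7.eq_of_eqB (C7.R_mul hq (C7.R_pow hq 4)) C7.R_one (of_allB h2 hj))
  rw [e2] at e1
  rw [SetLike.mem_coe, ← e1]
  exact N.pow_mem (N.mul_mem (h q (Subgroup.subset_closure ⟨j, hj, hq⟩)) ht) 3

theorem orderOf_tK : orderOf tK = 2 :=
  C7.orderOf_of_ordChk R_t7 (by norm_num) (by norm_num) (l := [2])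
    (by simp [Nat.primeFactorsList_prime Nat.prime_two]) (by decide +kernel)

theorem orderOf_xK : orderOf xK = 3 :=
  C7.orderOf_of_ordChk R_x7 (by norm_num) (by norm_num) (l := [3])
    (by simp [Nat.primeFactorsList_prime Nat.prime_three]) (by decide +kernel)

theorem tK_mem : tK ∈ Cp ⊓ Subgroup.centralizer {xK} :=
  ⟨Cp_eq ▸ Subgroup.mem_centralizer_singleton_iff.mpr
      ((C7.commB_iff R_t7 (R_kk 5 (by norm_num) (by norm_num))).mp (by decide +kernel)),
    Subgroup.mem_centralizer_singleton_iff.mpr ((C7.commB_iff R_t7 R_x7).mp (by decide +kernel))⟩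

theorem xK_mem : xK ∈ Cp ⊓ Subgroup.centralizer {xK} := by
  rw [Cp_eq]
  exact ⟨Subgroup.mem_centralizer_singleton_iff.mpr c5_comm_x.symm, Subgroup.mem_centralizer_singleton_iff.mpr rfl⟩

theorem card_B0 : Nat.card ↥(Cp ⊓ Subgroup.centralizer {xK}) = 750 := by
  have h1 := Subgroup.card_dvd_of_le Q5_le
  have h2 := Subgroup.orderOf_dvd_natCard _ tK_mem
  have h3 := Subgroup.orderOf_dvd_natCard _ xK_mem
  rw [card_Q5] at h1
  rw [orderOf_tK] at h2
  rw [orderOf_xK] at h3
  have h4 := card_Cp_x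
  have h5 : 0 < Nat.card ↥(Cp ⊓ Subgroup.centralizer {xK}) := Nat.card_pos
  have key : ∀ n : ℕ, 125 ∣ n → 2 ∣ n → 3 ∣ n → n ≤ 750 → 0 < n → n = 750 := by
    intro n a b c d e
    have f : 125 * 2 ∣ n := Nat.Coprime.mul_dvd_of_dvd_of_dvd (by norm_num) a b
    have g : 125 * 2 * 3 ∣ n := Nat.Coprime.mul_dvd_of_dvd_of_dvd (by norm_num) f c
    exact le_antisymm d (Nat.le_of_dvd e g)
  exact key _ h1 h2 h3 h4 h5

end Cfsg.Agent.H81.Ly
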