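import Cfsg.Agent.H45.OnDefs

/-! Project ON, piece B26: a line carries at least twenty-six points. -/

set_option autoImplicit false

namespace Cfsg.Agent.H81.OnB26

open Cfsg.Agent.H45.On

universe u v

variable {G : Type u} {Ω : Type v} [Group G] [MulAction G Ω] {S : S0 G Ω} {L : S.Li}

theorem bl_iff (K : L.LK) {g : G} {x a p : Ω} (hg : g • x = x) :
    p ∈ L.Bl x (g • a) ↔ g⁻¹ • p ∈ L.Bl x a := by
  constructor
  · intro h
    have := K.bl g⁻¹ h
    rwa [inv_smul_smul, inv_smul_eq_iff.2 hg.symm] at this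
  · intro h
    have := K.bl g h
    rwa [smul_inv_smul, hg] at this

theorem bl_tr (K : L.LK) {g : G} {x a b : Ω} (hg : g • x = x) (e : L.Bl x a = L.Bl x b) :
    L.Bl x (g • a) = L.Bl x (g • b) := by
  ext p
  rw [bl_iff K hg, bl_iff K hg, e]

/-- the stabiliser of a flag -/
def flag (K : L.LK) (x y : Ω) : Subgroup G where
  carrier := {g | g • x = x ∧ L.Bl x (g • y) = L.Bl x y}
  one_mem' := ⟨one_smul _ _, by rw [one_smul]⟩
  mul_mem' := fun {a b} ha hb => ⟨by rw [mul_smul, hb.1, ha.1], by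
    rw [mul_smul, bl_tr K ha.1 hb.2, ha.2]⟩
  inv_mem' := fun {a} ha => by
    have e : a⁻¹ • x = x := inv_smul_eq_iff.2 ha.1.symm
    exact ⟨e, by rw [← bl_tr K e ha.2, inv_smul_smul]⟩

theorem b26 (h5 : Idx5Stmt.{u}) : B26Stmt.{u, v} := by
  classical
  intro G Ω _ _ _ _ S L K ls dg h6 U z w hU hzw hμ
  obtain ⟨x, y, Mx, My, xy, cx, cy, eU, -⟩ := id hU
  have ox : L.On U x := ⟨Mx, cx, eU ▸ inf_le_left⟩
  have oy : L.On U y := ⟨My, cy, eU ▸ inf_le_right⟩
  rw [K.mu_eq hzw xy] at hμ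
  obtain ⟨M, ⟨cM, U', lU', le', oy'⟩, ne⟩ := Set.exists_ne_of_one_lt_ncard hμ Mx
  have fx : ∀ s ∈ M, s • x = x := S.fx cM.1
  have on : ∀ s ∈ M, L.On U (s • y) := fun s hs => by
    have := K.on s oy
    rwa [cj_of_comm fun m hm => S.comm cM.1 cx.1 ne s hs m ((eU ▸ inf_le_left : U ≤ Mx) hm)] at this
  have nle : ¬ M ≤ flag K x y := fun h => by
    have a := K.five lU' cM le'
    have b := dg y x M xy.symm cM
    have c : {U'' | ∃ s ∈ M, U'' = cj s U'} ⊆
        (fun W => W ⊓ M) '' {W | L.Cp y W ∧ L.Ln (W ⊓ M)} := by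
      rintro _ ⟨s, hs, rfl⟩
      have l1 : cj s U' ≤ M := (cj_le.2 le').trans (cj_self hs).le
      have m : y ∈ L.Bl x (s • y) := by
        rw [(h hs).2]
        exact fun _ _ _ q => q
      obtain ⟨W, cW, l2⟩ := m _ (K.ln s lU') ⟨M, cM, l1⟩ (K.on s oy')
      have e := K.eq_inf (K.ln s lU') cW cM l2 l1 xy.symm
      exact ⟨W, ⟨cW, e ▸ K.ln s lU'⟩, e.symm⟩
    have := (Set.ncard_le_ncard c).trans (Set.ncard_image_le (Set.toFinite _))
    omega
  obtain ⟨s, hs, inj⟩ := h5 M (S.simple cM.1) (S.nab cM.1) _ nle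
  have nx : ∀ i, x ≠ s i • y := fun i e => xy (MulAction.injective (s i) ((fx _ (hs i)).trans e))
  have mx : ∀ a, x ∈ L.Bl x a := fun a _ _ q _ => q
  let T : Fin 5 → Finset Ω := fun i => (Set.toFinite (L.Bl x (s i • y))).toFinset.erase x
  have mT : ∀ i p, p ∈ T i ↔ p ≠ x ∧ p ∈ L.Bl x (s i • y) := fun i p => by
    simp only [T, Finset.mem_erase, Set.Finite.mem_toFinset]
  have cT : ∀ i, 5 ≤ (T i).card := fun i => by
    have := h6 x _ (nx i)
    rw [Set.ncard_eq_toFinset_card _ (Set.toFinite _)] at this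
    have e := Finset.pred_card_le_card_erase (s := (Set.toFinite (L.Bl x (s i • y))).toFinset)
      (a := x)
    simp only [T]
    omega
  have dj : ∀ i ∈ (Finset.univ : Finset (Fin 5)), ∀ j ∈ (Finset.univ : Finset (Fin 5)), i ≠ j →
      Disjoint (T i) (T j) := fun i _ j _ n => Finset.disjoint_left.2 fun p pi pj => by
    rw [mT] at pi pj
    have e1 := ls _ _ _ _ (nx i) pi.1.symm (mx _) pi.2
    have e2 := ls _ _ _ _ (nx j) pj.1.symm (mx _) pj.2
    have e3 := bl_tr K (fx _ (inv_mem (hs i))) (e2.symm.trans e1)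
    rw [inv_smul_smul, ← mul_smul] at e3
    exact n (inj i j ⟨fx _ (mul_mem (inv_mem (hs i)) (hs j)), e3⟩)
  have c1 : 25 ≤ (Finset.univ.biUnion T).card := by
    rw [Finset.card_biUnion dj]
    have := Finset.sum_le_sum (s := (Finset.univ : Finset (Fin 5))) fun i _ => cT i
    simpa using this
  have c2 : x ∉ Finset.univ.biUnion T := fun m => by
    obtain ⟨i, -, m⟩ := Finset.mem_biUnion.1 m
    exact ((mT i x).1 m).1 rfl
  have c3 : (↑(insert x (Finset.univ.biUnion T)) : Set Ω) ⊆ {p | L.On U p} := fun p hp => by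
    rcases Finset.mem_insert.1 hp with rfl | m
    · exact ox
    · obtain ⟨i, -, m⟩ := Finset.mem_biUnion.1 m
      exact ((mT i p).1 m).2 U hU ox (on _ (hs i))
  have := Set.ncard_le_ncard c3
  rw [Set.ncard_coe_finset, Finset.card_insert_of_notMem c2] at this
  unfold S0.Li.be
  omega

theorem eqns : True := by
  have := @flag.eq_1.{0, 0}; trivial

end Cfsg.Agent.H81.OnB26
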