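/-
The module `N ⊗ W` of `S₅ × L₃(2)`.
-/
import Mathlib
import Cfsg.Agent.H81.PenK
import Cfsg.Agent.H49.V8

set_option autoImplicit false
set_option maxRecDepth 100000

namespace Cfsg.Agent.H81.Pen

open Cfsg.Agent.H24.MH Cfsg.Agent.H44 Equiv

/-- The symmetric group. -/
abbrev P5 : Type := Perm (Fin 5)

/-- The linear group. -/
abbrev S3 : Type := Matrix.SpecialLinearGroup (Fin 3) (ZMod 2)

/-- A three-cycle. -/
def px : P5 := swap 0 1 * swap 1 2
/-- A double transposition. -/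
def pa : P5 := swap 0 1 * swap 2 3
/-- A double transposition. -/
def pw : P5 := swap 0 1 * swap 3 4
/-- A transposition. -/
def ps : P5 := swap 0 1
/-- The generators. -/
def pg (i : ℕ) : P5 := [px, pa, pw, ps].getD i 1

variable {V : Type*} [AddCommGroup V]

/-- A bit times a vector. -/
def bt (b : Bool) (ω : V) : V := if b then ω else 0

/-- The vector with coordinates `c`. -/
def Uc (a b c : V) (n : ℕ) : V := bt (n.testBit 0) a + bt (n.testBit 1) b + bt (n.testBit 2) c

theorem bt_add (b : Bool) (u v : V) : bt b (u + v) = bt b u + bt b v := by cases b <;> simp [bt]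

theorem bt_xor (two : ∀ v : V, v + v = 0) (b c : Bool) (u : V) :
    bt (b ^^ c) u = bt b u + bt c u := by cases b <;> cases c <;> simp [bt, two]

theorem smul_bt {M : Type*} [Monoid M] [DistribMulAction M V] (g : M) (b : Bool) (u : V) :
    g • bt b u = bt b (g • u) := by cases b <;> simp [bt]

section
variable [DistribMulAction P5 V]

/-- The vector `n ⊗ ω`. -/
def Tn (n : ℕ) (ω : V) : V := bt (n.testBit 0) ω + bt (n.testBit 1) (px • ω) +
  bt (n.testBit 2) (pw • ω) + bt (n.testBit 3) (pw • px • ω)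

theorem Tn_add (n : ℕ) (u v : V) : Tn n (u + v) = Tn n u + Tn n v := by
  simp only [Tn, smul_add, bt_add]; abel

theorem Tn_zero (u : V) : Tn 0 u = 0 := by simp [Tn, bt]

theorem Tn_bt (n : ℕ) (b : Bool) (u : V) : Tn n (bt b u) = Tn (if b then n else 0) u := by
  cases b <;> simp [bt, Tn_zero, Tn]

theorem Tn_xor (two : ∀ v : V, v + v = 0) (m n : ℕ) (u : V) :
    Tn (m ^^^ n) u = Tn m u + Tn n u := by
  simp only [Tn, Nat.testBit_xor, bt_xor two]; abel

/-- The multiplicity space. -/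
def Wm (V : Type*) [AddCommGroup V] [DistribMulAction P5 V] : AddSubgroup V where
  carrier := {ω | pa • ω = ω ∧ ps • ω = ω}
  zero_mem' := by simp
  add_mem' := fun ha hb => ⟨by rw [smul_add, ha.1, hb.1], by rw [smul_add, ha.2, hb.2]⟩
  neg_mem' := fun ha => ⟨by rw [smul_neg, ha.1], by rw [smul_neg, ha.2]⟩

theorem bt_mem {W : AddSubgroup V} (b : Bool) {u : V} (h : u ∈ W) : bt b u ∈ W := by
  cases b <;> simp [bt, h]

/-- The hypothesis: elements of order three act without fixed points. -/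
structure Fp (V : Type*) [AddCommGroup V] [DistribMulAction P5 V] : Prop where
  two : ∀ v : V, v + v = 0
  fp : ∀ c : P5, c * c * c = 1 → c ≠ 1 → ∀ v : V, c • v = v → v = 0

/-- `σ` acts by the matrix `γ`. -/
def MA (V : Type*) [AddCommGroup V] [DistribMulAction P5 V] (σ : P5) (γ : ℕ) : Prop :=
  ∀ ω ∈ Wm V, ∀ n < 16, σ • Tn n ω = Tn (mm γ n) ω

theorem MA.mul {σ τ : P5} {γ δ : ℕ} (a : MA V σ γ) (b : MA V τ δ) : MA V (σ * τ) (mm γ δ) :=
  fun ω hω n hn => by rw [mul_smul, b ω hω n hn, a ω hω _ (mm_vec_lt _ hn), mm_assoc]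

theorem MA.one : MA V 1 I4 := fun ω hω n hn => by rw [one_smul, mm_I4 n hn]

theorem rel {a b c d : P5} (e : a * b = c * d) (v : V) : a • b • v = c • d • v := by
  rw [← mul_smul, e, mul_smul]

theorem rel1 {a : P5} (e : a * a = 1) (v : V) : a • a • v = v := by rw [← mul_smul, e, one_smul]

namespace Fp
variable (h : Fp V)
include h

theorem cube {c : P5} (e : c * c * c = 1) (n : c ≠ 1) (v : V) : c • c • v = c • v + v := by
  have := h.fp c e n (c • c • v + c • v + v) (by
    rw [smul_add, smul_add, ← mul_smul, ← mul_smul, e, one_smul]; abel)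
  linear_combination (norm := abel1) this - h.two (c • v) - h.two v

theorem xx (v : V) : px • px • v = px • v + v := h.cube (by decide) (by decide) v

theorem ax {u : V} (hu : pa • u = u) : pa • px • u = px • u := by
  have := h.cube (c := px * pa) (by decide) (by decide) u
  simp only [mul_smul, hu] at this
  rw [← h.xx] at this
  exact (smul_left_cancel_iff _).mp this

theorem aw {u : V} (hu : pa • u = u) : pa • pw • u = pw • u + u := by
  have := congrArg (pw • ·) (h.cube (c := pw * pa) (by decide) (by decide) u)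
  simp only [mul_smul, hu, smul_add, rel1 (show pw * pw = 1 by decide)] at this
  rw [this, add_comm]

theorem sx {u : V} (hu : ps • u = u) : ps • px • u = px • u + u := by
  rw [rel (show ps * px = px * px * ps by decide), mul_smul, hu, h.xx]

theorem dec (v : V) : ∃ a ∈ Wm V, ∃ b ∈ Wm V, ∃ c ∈ Wm V, ∃ d ∈ Wm V,
    v = a + px • b + pw • c + pw • px • d := by
  have key : ∀ u : V, pa • u = u → ∃ a ∈ Wm V, ∃ b ∈ Wm V, u = a + px • b := fun u hu => by
    have e1 : pa • (ps • u + u) = ps • u + u := by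
      rw [smul_add, rel (show pa * ps = ps * pa by decide), hu]
    have e2 : ps • (ps • u + u) = ps • u + u := by
      rw [smul_add, rel1 (show ps * ps = 1 by decide), add_comm]
    refine ⟨u + px • (ps • u + u), ⟨by rw [smul_add, hu, h.ax e1], ?_⟩, _, ⟨e1, e2⟩, ?_⟩
    · rw [smul_add, h.sx e2]
      linear_combination (norm := abel1) h.two (ps • u)
    · rw [add_assoc, h.two, add_zero]
  have e1 : pa • (pa • v + v) = pa • v + v := by
    rw [smul_add, rel1 (show pa * pa = 1 by decide), add_comm]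
  obtain ⟨c, hc, d, hd, e⟩ := key _ e1
  obtain ⟨a, ha, b, hb, e'⟩ := key (v + pw • (pa • v + v)) (by
    rw [smul_add, h.aw e1]
    linear_combination (norm := abel1) h.two (pa • v))
  refine ⟨a, ha, b, hb, c, hc, d, hd, ?_⟩
  rw [add_assoc, ← smul_add, ← e, ← e', add_assoc, h.two, add_zero]

theorem uniq {a b c d : V} (ha : a ∈ Wm V) (hb : b ∈ Wm V) (hc : c ∈ Wm V) (hd : d ∈ Wm V)
    (e : a + px • b + pw • c + pw • px • d = 0) : a = 0 ∧ b = 0 ∧ c = 0 ∧ d = 0 := by
  have key : ∀ a ∈ Wm V, ∀ b ∈ Wm V, a + px • b = 0 → a = 0 ∧ b = 0 := fun a ha b hb e => by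
    have := congrArg (ps • ·) e
    simp only [smul_add, ha.2, h.sx hb.2, smul_zero] at this
    have b0 : b = 0 := by linear_combination (norm := abel1) this - e
    exact ⟨by simpa [b0] using e, b0⟩
  have := congrArg (pa • ·) e
  simp only [smul_add, ha.1, h.ax hb.1, h.aw hc.1, h.aw (h.ax hd.1), smul_zero] at this
  obtain ⟨rfl, rfl⟩ := key c hc d hd (by linear_combination (norm := abel1) this - e)
  simpa using key a ha b hb (by simpa using e)

theorem ma_of {σ : P5} {γ : ℕ} (H : ∀ ω ∈ Wm V, σ • ω = Tn (col γ 0) ω ∧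
    σ • px • ω = Tn (col γ 1) ω ∧ σ • pw • ω = Tn (col γ 2) ω ∧ σ • pw • px • ω = Tn (col γ 3) ω) :
    MA V σ γ := fun ω hω n hn => by
  obtain ⟨a, b, c, d⟩ := H ω hω
  have e : ∀ (b : Bool) (m : ℕ), Tn (if b then m else 0) ω = bt b (Tn m ω) := fun b m => by
    cases b <;> simp [bt, Tn_zero]
  rw [mm_vec γ hn, Tn_xor h.two, Tn_xor h.two, Tn_xor h.two, e, e, e, e, ← a, ← b, ← c, ← d, Tn]
  simp only [smul_add, smul_bt, add_assoc]

theorem ma_gen : ∀ i < 4, MA V (pg i) (gen i) := by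
  have t1 : ∀ ω : V, Tn 1 ω = ω := fun ω => by simp (decide := true) [Tn, bt]
  have t2 : ∀ ω : V, Tn 2 ω = px • ω := fun ω => by simp (decide := true) [Tn, bt]
  have t3 : ∀ ω : V, Tn 3 ω = ω + px • ω := fun ω => by simp (decide := true) [Tn, bt]
  have t4 : ∀ ω : V, Tn 4 ω = pw • ω := fun ω => by simp (decide := true) [Tn, bt]
  have t5 : ∀ ω : V, Tn 5 ω = ω + pw • ω := fun ω => by simp (decide := true) [Tn, bt]
  have t8 : ∀ ω : V, Tn 8 ω = pw • px • ω := fun ω => by simp (decide := true) [Tn, bt]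
  have t10 : ∀ ω : V, Tn 10 ω = px • ω + pw • px • ω := fun ω => by simp (decide := true) [Tn, bt]
  have t12 : ∀ ω : V, Tn 12 ω = pw • ω + pw • px • ω := fun ω => by simp (decide := true) [Tn, bt]
  have ww := rel1 (V := V) (show pw * pw = 1 by decide)
  have xw : ∀ ω : V, px • pw • ω = pw • px • px • ω := fun ω => by
    rw [rel (show px * pw = pw * (px * px) by decide), mul_smul]
  have sw := rel (V := V) (show ps * pw = pw * ps by decide)
  intro i hi
  interval_cases i
  · refine h.ma_of (σ := px) fun ω hω => ⟨(t2 ω).symm, ?_, ?_, ?_⟩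
    · rw [h.xx, add_comm]; exact (t3 ω).symm
    · rw [xw, h.xx, smul_add, add_comm]; exact (t12 ω).symm
    · rw [← mul_smul, ← mul_smul, show px * pw * px = pw by decide]
      exact (t4 ω).symm
  · refine h.ma_of (σ := pa) fun ω hω => ⟨hω.1.trans (t1 ω).symm, ?_, ?_, ?_⟩
    · rw [h.ax hω.1]; exact (t2 ω).symm
    · rw [h.aw hω.1, add_comm]; exact (t5 ω).symm
    · rw [h.aw (h.ax hω.1), add_comm]; exact (t10 ω).symm
  · exact h.ma_of (σ := pw) fun ω hω => ⟨(t4 ω).symm, (t8 ω).symm, (ww _).trans (t1 ω).symm,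
      (ww _).trans (t2 ω).symm⟩
  · refine h.ma_of (σ := ps) fun ω hω => ⟨hω.2.trans (t1 ω).symm, ?_, ?_, ?_⟩
    · rw [h.sx hω.2, add_comm]; exact (t3 ω).symm
    · rw [sw, hω.2]; exact (t4 ω).symm
    · rw [sw, h.sx hω.2, smul_add, add_comm]; exact (t12 ω).symm

theorem ma_word : ∀ w : List ℕ, (∀ i ∈ w, i < 4) → MA V (ev pg w) (mw gen w)
  | [], _ => MA.one
  | i :: w, H => by
    rw [ev_cons, mw_cons]
    exact (h.ma_gen i (H i (by simp))).mul (ma_word w fun j hj => H j (by simp [hj]))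

theorem ma_gam {γ : ℕ} (hγ : γ ∈ Gam) : ∃ σ, MA V σ γ := by
  rw [← gamW] at hγ
  obtain ⟨w, hw, rfl⟩ := List.mem_map.mp hγ
  exact ⟨_, h.ma_word w (gamW_lt w hw)⟩

end Fp

/-- The coordinates of `N ⊗ W`. -/
def co (a b c : V) (v : ℕ) : V := Tn (col v 0) a + Tn (col v 1) b + Tn (col v 2) c

theorem co_xor (two : ∀ v : V, v + v = 0) (a b c : V) (u v : ℕ) :
    co a b c (u ^^^ v) = co a b c u + co a b c v := by
  simp only [co, col_xor, Tn_xor two]; abel

theorem co_eq (a b c : V) (v : ℕ) : co a b c v =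
    (bt ((col v 0).testBit 0) a + bt ((col v 1).testBit 0) b + bt ((col v 2).testBit 0) c) +
    px • (bt ((col v 0).testBit 1) a + bt ((col v 1).testBit 1) b + bt ((col v 2).testBit 1) c) +
    pw • (bt ((col v 0).testBit 2) a + bt ((col v 1).testBit 2) b + bt ((col v 2).testBit 2) c) +
    pw • px • (bt ((col v 0).testBit 3) a + bt ((col v 1).testBit 3) b +
      bt ((col v 2).testBit 3) c) := by
  simp only [co, Tn, smul_add, smul_bt]; abel

theorem MA.co {σ : P5} {γ : ℕ} (m : MA V σ γ) {a b c : V} (ha : a ∈ Wm V) (hb : b ∈ Wm V)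
    (hc : c ∈ Wm V) (v : ℕ) : σ • co a b c v = co a b c (mm γ v) := by
  simp only [Pen.co, smul_add, m _ ha _ (col_lt _ _), m _ hb _ (col_lt _ _), m _ hc _ (col_lt _ _)]
  rw [col_mm _ _ (by norm_num), col_mm _ _ (by norm_num), col_mm _ _ (by norm_num)]

theorem Fp.basis [Finite V] (h : Fp V) (hc : Nat.card V = 4096) : ∃ a ∈ Wm V, ∃ b ∈ Wm V,
    ∃ c ∈ Wm V, ∀ i j k : Bool, bt i a + bt j b + bt k c = 0 → i = false ∧ j = false ∧ k = false := by
  have big : ∀ a b : V, ∃ c ∈ Wm V, c ≠ 0 ∧ c ≠ a ∧ c ≠ b ∧ c ≠ a + b := fun a b => by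
    by_contra! r
    let f : Fin 4 → V := ![0, a, b, a + b]
    have : ∀ c ∈ Wm V, ∃ i, f i = c := fun c hc => by
      by_cases c0 : c = 0
      · exact ⟨0, c0.symm⟩
      by_cases c1 : c = a
      · exact ⟨1, c1.symm⟩
      by_cases c2 : c = b
      · exact ⟨2, c2.symm⟩
      exact ⟨3, (r c hc c0 c1 c2).symm⟩
    have := Nat.card_le_card_of_surjective (fun p : Fin 4 × Fin 4 × Fin 4 × Fin 4 =>
      f p.1 + px • f p.2.1 + pw • f p.2.2.1 + pw • px • f p.2.2.2) fun v => by
        obtain ⟨a, ha, b, hb, c, hc, d, hd, rfl⟩ := h.dec v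
        obtain ⟨i, rfl⟩ := this a ha
        obtain ⟨j, rfl⟩ := this b hb
        obtain ⟨k, rfl⟩ := this c hc
        obtain ⟨l, rfl⟩ := this d hd
        exact ⟨(i, j, k, l), rfl⟩
    simp [hc] at this
  obtain ⟨a, ha, a0, -⟩ := big 0 0
  obtain ⟨b, hb, b0, ba, -⟩ := big a 0
  obtain ⟨c, hc, c0, ca, cb, cab⟩ := big a b
  have neg : ∀ u v : V, u + v = 0 → v = u := fun u v e => by
    linear_combination (norm := abel1) e - h.two u
  refine ⟨a, ha, b, hb, c, hc, fun i j k e => ?_⟩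
  cases i <;> cases j <;> cases k <;> simp only [bt, if_true, Bool.false_eq_true, if_false, zero_add,
    add_zero] at e <;> first | exact absurd e ‹_› | exact absurd (neg _ _ e) ‹_› | simp

end

/-- Coordinates of the module. -/
structure Md [DistribMulAction P5 V] [DistribMulAction S3 V] (e : ℕ → V) (γ : P5 → ℕ)
    (B : S3 → ℕ) : Prop where
  xor : ∀ u v, e (u ^^^ v) = e u + e v
  inj : ∀ u < 4096, ∀ v < 4096, e u = e v → u = v
  surj : ∀ x, ∃ v < 4096, e v = x
  g_mem : ∀ σ, γ σ ∈ Gam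
  g_surj : ∀ c ∈ Gam, ∃ σ, γ σ = c
  g_inj : Function.Injective γ
  g_mul : ∀ σ τ, γ (σ * τ) = mm (γ σ) (γ τ)
  g_one : γ 1 = I4
  g_act : ∀ σ v, σ • e v = e (mm (γ σ) v)
  b_mem : ∀ g, B g ∈ SLs
  b_surj : ∀ c ∈ SLs, ∃ g, B g = c
  b_inj : Function.Injective B
  b_mul : ∀ g k, B (g * k) = mm (B k) (B g)
  b_one : B 1 = I4
  b_act : ∀ g, ∀ v < 4096, g • e v = e (mm v (B g))

theorem surj_of_inj {α : Type*} [Finite α] {f : α → ℕ} {l : List ℕ} (hm : ∀ a, f a ∈ l)
    (hi : Function.Injective f) (hc : l.toFinset.card = Nat.card α) : ∀ c ∈ l, ∃ a, f a = c := by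
  intro c hc'
  obtain ⟨a, ha⟩ := (Function.Injective.bijective_of_nat_card_le
    (f := fun a => (⟨f a, List.mem_toFinset.mpr (hm a)⟩ : l.toFinset))
    (fun a b e => hi (congrArg Subtype.val e)) (by rw [Nat.card_eq_finsetCard, hc])).2 ⟨c, List.mem_toFinset.mpr hc'⟩
  exact ⟨a, congrArg Subtype.val ha⟩

theorem exists_md [Finite V] [DistribMulAction P5 V] [DistribMulAction S3 V]
    [SMulCommClass S3 P5 V] (h : Fp V) (hc : Nat.card V = 4096)
    (hy : ∃ (g : S3) (v : V), g • v ≠ v) : ∃ e γ B, Md (V := V) e γ B := by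
  obtain ⟨a, ha, b, hb, c, hc', ind⟩ := h.basis hc
  have mW : ∀ i j k : Bool, bt i a + bt j b + bt k c ∈ Wm V := fun i j k =>
    add_mem (add_mem (bt_mem i ha) (bt_mem j hb)) (bt_mem k hc')
  have inj0 : ∀ v < 4096, co a b c v = 0 → v = 0 := fun v hv e => by
    rw [co_eq] at e
    obtain ⟨e0, e1, e2, e3⟩ := h.uniq (mW _ _ _) (mW _ _ _) (mW _ _ _) (mW _ _ _) e
    obtain ⟨a0, b0, c0⟩ := ind _ _ _ e0
    obtain ⟨a1, b1, c1⟩ := ind _ _ _ e1
    obtain ⟨a2, b2, c2⟩ := ind _ _ _ e2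
    obtain ⟨a3, b3, c3⟩ := ind _ _ _ e3
    refine eq_of_col (by omega) (by norm_num) ?_ ?_ ?_ ?_ <;> rw [col_zero]
    exacts [eq_zero_of_bits _ (col_lt _ _) a0 a1 a2 a3, eq_zero_of_bits _ (col_lt _ _) b0 b1 b2 b3,
      eq_zero_of_bits _ (col_lt _ _) c0 c1 c2 c3, col3 hv]
  have inj : ∀ u < 4096, ∀ v < 4096, co a b c u = co a b c v → u = v := fun u hu v hv e =>
    Nat.xor_eq_zero_iff.mp (inj0 _ (xor_lt (n := 12) hu hv) (by rw [co_xor h.two, e, h.two]))
  have surj : ∀ x, ∃ v < 4096, co a b c v = x := fun x => by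
    obtain ⟨v, hv⟩ := (Function.Injective.bijective_of_nat_card_le
      (f := fun v : Fin 4096 => co a b c v) (fun u v e => Fin.ext (inj _ u.2 _ v.2 e))
      (by simp [hc])).2 x
    exact ⟨v, v.2, hv⟩
  -- the symmetric group
  have uq : ∀ σ : P5, ∀ g < 65536, ∀ g' < 65536, MA V σ g → MA V σ g' → g = g' := by
    intro σ g hg g' hg' m m'
    have : ∀ v < 16, mm g v = mm g' v := fun v hv => inj _ (mm_lt_left _ (by omega)) _
      (mm_lt_left _ (by omega)) (by rw [← m.co ha hb hc', m'.co ha hb hc'])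
    exact eq_of_col hg hg' (by simpa [mm_e0] using this 1 (by norm_num))
      (by simpa [mm_e1] using this 2 (by norm_num))
      (by simpa [mm_e2] using this 4 (by norm_num)) (by simpa [mm_e3] using this 8 (by norm_num))
  choose s hs using fun g : Gam.toFinset => h.ma_gam (List.mem_toFinset.mp g.2)
  have lt : ∀ g : Gam.toFinset, g.1 < 65536 := fun g => gam_lt _ (List.mem_toFinset.mp g.2)
  have sb : Function.Bijective s := Function.Injective.bijective_of_nat_card_le
    (fun g g' e => Subtype.ext (uq _ _ (lt g) _ (lt g') (hs g) (e ▸ hs g')))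
    (by rw [Nat.card_eq_finsetCard, gam_card]; simp [Fintype.card_perm, Nat.factorial])
  choose γ hγ using sb.2
  have mγ : ∀ σ, MA V σ (γ σ) := fun σ => by simpa [hγ] using hs (γ σ)
  -- the linear group
  have row : ∀ (g : S3), ∀ ω ∈ Wm V, ∃ r < 8, g • ω = Uc a b c r := fun g ω hω => by
    have gW : g • ω ∈ Wm V := ⟨by rw [← smul_comm, hω.1], by rw [← smul_comm, hω.2]⟩
    obtain ⟨v, -, e⟩ := surj (g • ω)
    rw [co_eq] at e
    have := (h.uniq (sub_mem (mW _ _ _) gW) (mW _ _ _) (mW _ _ _) (mW _ _ _)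
      (by rw [← sub_eq_zero] at e; rw [← e]; abel)).1
    rw [← sub_eq_zero.mp this]
    generalize (col v 0).testBit 0 = i
    generalize (col v 1).testBit 0 = j
    generalize (col v 2).testBit 0 = k
    refine ⟨i.toNat + 2 * j.toNat + 4 * k.toNat, ?_, ?_⟩ <;> cases i <;> cases j <;> cases k <;>
      first | decide | rfl
  have gT : ∀ (g : S3) (n : ℕ) (ω : V), g • Tn n ω = Tn n (g • ω) := fun g n ω => by
    simp only [Tn, smul_add, smul_bt, smul_comm g]
  have exB : ∀ g : S3, ∃ B ∈ SLs, ∀ v < 4096, g • co a b c v = co a b c (mm v B) := fun g => by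
    obtain ⟨r0, l0, e0⟩ := row g a ha
    obtain ⟨r1, l1, e1⟩ := row g b hb
    obtain ⟨r2, l2, e2⟩ := row g c hc'
    obtain ⟨t3, tb, tm⟩ := tr_spec r0 l0 r1 l1 r2 l2
    have act : ∀ v < 4096, g • co a b c v = co a b c (mm v (tr r0 r1 r2)) := fun v hv => by
      simp only [co, smul_add, gT, e0, e1, e2, Uc, Tn_add, Tn_bt]
      rw [col_mm _ _ (by norm_num), col_mm _ _ (by norm_num), col_mm _ _ (by norm_num),
        mm_vec _ (col_lt _ 0), mm_vec _ (col_lt _ 1), mm_vec _ (col_lt _ 2), col3 hv]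
      simp only [Tn_xor h.two, ite_self, Tn_zero, tb 0 (by norm_num), tb 1 (by norm_num),
        tb 2 (by norm_num)]
      abel
    refine ⟨_, tm.resolve_right ?_, act⟩
    rintro ⟨v, hv, e⟩
    have l : v < 4096 ∧ v ≠ 0 := by clear e; revert v; decide
    have := act v l.1
    rw [e, show co a b c 0 = 0 by simp [co, col_zero, Tn_zero], smul_eq_zero_iff_eq] at this
    exact l.2 (inj0 v l.1 this)
  choose B hB aB using exB
  have uB : ∀ (g : S3) (C : ℕ), col C 3 = 8 → mm 1057 C + 32768 = C →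
      (∀ v < 4096, g • co a b c v = co a b c (mm v C)) → B g = C := fun g C c3 c4 H => by
    rw [← c4, ← (sls_col _ (hB g)).2, inj _ (mm_lt_right (sls_col _ (hB g)).1 (by norm_num)) _
      (mm_lt_right c3 (by norm_num)) ((aB g _ (by norm_num)).symm.trans (H _ (by norm_num)))]
  have bi : Function.Injective B := fun g k e => by
    rcases H49.SL32_simple.eq_bot_or_eq_top_of_normal (MulAction.toPermHom S3 V).ker inferInstance
      with r | r
    · refine (MonoidHom.ker_eq_bot_iff _).mp r (Equiv.ext fun x => ?_)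
      obtain ⟨v, hv, rfl⟩ := surj x
      exact (aB g v hv).trans (e ▸ (aB k v hv).symm)
    · obtain ⟨g, v, n⟩ := hy
      exact absurd (congrArg (· v) (MonoidHom.mem_ker.mp (r.ge (Subgroup.mem_top g)))) n
  refine ⟨co a b c, fun σ => γ σ, B, co_xor h.two a b c, inj, surj,
    fun σ => List.mem_toFinset.mp (γ σ).2, fun g hg => ?_, fun σ τ e => ?_,
    fun σ τ => uq _ _ (lt _) _ (mm_lt _ _) (mγ _) ((mγ σ).mul (mγ τ)),
    uq _ _ (lt _) _ (by decide) (mγ _) MA.one, fun σ v => (mγ σ).co ha hb hc' v, hB,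
    surj_of_inj hB bi (sls_card.trans H49.card_SL32.symm), bi, fun g k => uB _ _ ?_
      (sls_mul _ (hB k) _ (hB g)) fun v hv => ?_, uB _ _ (by decide) (by decide) fun v hv => ?_, aB⟩
  · exact ⟨s ⟨g, List.mem_toFinset.mpr hg⟩, congrArg Subtype.val (sb.1 (hγ _))⟩
  · rw [← hγ σ, ← hγ τ, Subtype.ext e]
  · rw [col_mm _ _ (by norm_num), (sls_col _ (hB g)).1, mm_e3, (sls_col _ (hB k)).1]
  · rw [mul_smul, aB k v hv, aB g _ (mm_lt_right (sls_col _ (hB k)).1 hv), mm_assoc]
  · rw [one_smul, mm_I4' (by omega)]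

end Cfsg.Agent.H81.Pen
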