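import Mathlib
import Cfsg.Agent.H81.QTL
import Cfsg.Agent.H7.PBasic

/-!
The members of `Ξ(G, T)`: abstract data and transport.
-/

set_option autoImplicit false

namespace Cfsg.Agent.H81.QT

open Cfsg Subgroup
open H52 (cnj cmod)
open H83 (SubnIn IsSylowIn resOf PMod)
open scoped commutatorElement

variable {G : Type*} [Group G] {G' : Type*} [Group G'] {p : ℕ}

/-- The data of a member `X` of `Ξ(G, T)`: `Q = O₂(X)`, `F = O_{2,Φ}(X)`. -/
structure XD (p : ℕ) (T X Q F : Subgroup G) : Prop where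
  odd : p ≠ 2
  res : resOf 2 X = X
  TX : T ≤ normalizer (X : Set G)
  Q2 : IsPGroup 2 Q
  QF : Q ≤ F
  FX : F ≤ X
  XQ : X ≤ normalizer (Q : Set G)
  TF : T ≤ normalizer (F : Set G)
  comm : ⁅X, X⁆ ≤ F
  pow : ∀ x ∈ X, x ^ p ∈ F
  pm : PMod p X Q
  nc : ∀ x ∈ X, ¬ X ≤ F ⊔ zpowers x
  irr : ∀ Y : Subgroup G, Y ≤ X → X ≤ normalizer (Y : Set G) → T ≤ normalizer (Y : Set G) → Y = X ∨ Y ≤ F
  sz : (Q.relIndex X = p ^ 2 ∧ ⁅X, X⁆ ≤ Q ∧ ∀ x ∈ X, x ^ p ∈ Q) ∨ (Q.relIndex X = p ^ 3 ∧ ¬ ⁅X, X⁆ ≤ Q)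

theorem norm_of_comm_le {X Y : Subgroup G} (h : ⁅X, Y⁆ ≤ Y) : X ≤ normalizer (Y : Set G) := by
  refine H52.le_normalizer_of_forall_map_conj_le fun g hg => ?_
  rintro _ ⟨y, hy, rfl⟩
  have := Y.mul_mem (h (commutator_mem_commutator hg hy)) hy
  simpa [commutatorElement_def] using this

theorem le_of_map_le' (f : G →* G') {A B X : Subgroup G} (hA : A ≤ X) (hk : X ⊓ f.ker ≤ A) (hB : B ≤ X)
    (h : B.map f ≤ A.map f) : B ≤ A := by
  intro b hb
  obtain ⟨a, ha, e⟩ := h ⟨b, hb, rfl⟩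
  have : a⁻¹ * b ∈ X ⊓ f.ker :=
    ⟨X.mul_mem (X.inv_mem (hA ha)) (hB hb),
      MonoidHom.mem_ker.2 (by rw [map_mul, map_inv, e, inv_mul_cancel])⟩
  simpa using A.mul_mem ha (hk this)

theorem map_norm (f : G →* G') {A B : Subgroup G} (h : A ≤ normalizer (B : Set G)) :
    A.map f ≤ normalizer ((B.map f : Subgroup G') : Set G') := (map_mono h).trans (le_normalizer_map f)

theorem comap_norm (f : G →* G') {A B : Subgroup G'} (h : A ≤ normalizer (B : Set G')) :
    A.comap f ≤ normalizer ((B.comap f : Subgroup G) : Set G) := (comap_mono h).trans (le_normalizer_comap f)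

namespace XD

variable {T X Q F : Subgroup G}

theorem nrm (h : XD p T X Q F) {Y : Subgroup G} (h1 : F ≤ Y) (h2 : Y ≤ X) : X ≤ normalizer (Y : Set G) :=
  norm_of_comm_le ((commutator_mono le_rfl h2).trans (h.comm.trans h1))

theorem le_or (h : XD p T X Q F) {N : Subgroup G} (h1 : X ≤ normalizer (N : Set G))
    (h2 : T ≤ normalizer (N : Set G)) : X ≤ N ∨ X ⊓ N ≤ F :=
  (h.irr (X ⊓ N) inf_le_left (H83.le_norm_inf le_normalizer h1) (H83.le_norm_inf h.TX h2)).imp
    inf_eq_left.1 id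

theorem le_or' (h : XD p T X Q F) (N : Subgroup G) [N.Normal] : X ≤ N ∨ X ⊓ N ≤ F :=
  h.le_or le_normalizer_of_normal le_normalizer_of_normal

theorem exists_not_mem (h : XD p T X Q F) : ∃ x ∈ X, x ∉ F := by
  by_contra hn
  push Not at hn
  exact h.nc 1 X.one_mem (le_sup_of_le_left hn)

theorem ne_bot (h : XD p T X Q F) : X ≠ ⊥ := by
  obtain ⟨x, hx, hn⟩ := h.exists_not_mem
  rintro rfl
  exact hn (mem_bot.1 hx ▸ F.one_mem)

theorem not_inv (h : XD p T X Q F) {x : G} (hx : x ∈ X) (hn : x ∉ F)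
    (hT : ∀ t ∈ T, t * x * t⁻¹ ∈ F ⊔ zpowers x) : False := by
  have hle : F ⊔ zpowers x ≤ X := sup_le h.FX (zpowers_le.2 hx)
  have h1 : T ≤ normalizer ((F ⊔ zpowers x : Subgroup G) : Set G) := by
    refine H52.le_normalizer_of_forall_map_conj_le fun t ht => ?_
    rw [Subgroup.map_sup, H52.map_conj_eq_of_mem_normalizer (h.TF ht), MonoidHom.map_zpowers]
    exact sup_le le_sup_left (zpowers_le.2 (hT t ht))
  rcases h.irr _ hle (h.nrm le_sup_left hle) h1 with e | e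
  · exact h.nc x hx e.ge
  · exact hn (e (mem_sup_right (mem_zpowers x)))

theorem comm_eq (h : XD p T X Q F) : ⁅X, T⁆ = X := by
  rcases h.irr ⁅X, T⁆ (H83.comm_le_left h.TX) (normalizer_commutator_ge_left _ _)
    (normalizer_commutator_ge_right _ _) with e | e
  · exact e
  · exfalso
    obtain ⟨x, hx, hn⟩ := h.exists_not_mem
    refine h.not_inv hx hn fun t ht => ?_
    rw [commutator_comm] at e
    have := (F ⊔ zpowers x).mul_mem (mem_sup_left (e (commutator_mem_commutator ht hx)))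
      (mem_sup_right (mem_zpowers x))
    simpa [commutatorElement_def] using this

theorem map [Finite G] (h : XD p T X Q F) (f : G →* G') (hk : X ⊓ f.ker ≤ Q) :
    XD p (T.map f) (X.map f) (Q.map f) (F.map f) := by
  haveI : Fact (Nat.Prime 2) := ⟨Nat.prime_two⟩
  have hQX := h.QF.trans h.FX
  have hi : (Q.map f).relIndex (X.map f) = Q.relIndex X := by
    rw [← relIndex_comap, ← inf_relIndex_right]
    congr 1
    refine le_antisymm (le_of_map_le' f hQX hk inf_le_right ?_) (le_inf (le_comap_map _ _) hQX)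
    exact map_le_iff_le_comap.2 inf_le_left
  refine ⟨h.odd, by rw [← H83.map_resOf, h.res], map_norm f h.TX, h.Q2.map f, map_mono h.QF, map_mono h.FX,
    map_norm f h.XQ, map_norm f h.TF, by rw [← map_commutator]; exact map_mono h.comm, ?_, ?_, ?_, ?_, ?_⟩
  · rintro _ ⟨x, hx, rfl⟩
    exact ⟨x ^ p, h.pow x hx, map_pow _ _ _⟩
  · rintro _ ⟨x, hx, rfl⟩
    obtain ⟨k, hk⟩ := h.pm x hx
    exact ⟨k, x ^ p ^ k, hk, map_pow _ _ _⟩
  · rintro _ ⟨x, hx, rfl⟩ hle
    refine h.nc x hx (le_of_map_le' f (sup_le h.FX (zpowers_le.2 hx)) ((hk.trans h.QF).trans le_sup_left)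
      le_rfl ?_)
    rwa [Subgroup.map_sup, MonoidHom.map_zpowers]
  · intro Y h1 h2 h3
    rcases h.le_or (N := Y.comap f) ((le_comap_map f X).trans (comap_norm f h2))
      ((le_comap_map f T).trans (comap_norm f h3)) with e | e
    · exact Or.inl (le_antisymm h1 (map_le_iff_le_comap.2 e))
    · right
      intro y hy
      obtain ⟨x, hx, rfl⟩ := h1 hy
      exact ⟨x, e ⟨hx, hy⟩, rfl⟩
  · rw [hi, ← map_commutator]
    rcases h.sz with ⟨s1, s2, s3⟩ | ⟨s1, s2⟩
    · refine Or.inl ⟨s1, map_mono s2, ?_⟩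
      rintro _ ⟨x, hx, rfl⟩
      exact ⟨x ^ p, s3 x hx, map_pow _ _ _⟩
    · exact Or.inr ⟨s1, fun e => s2 (le_of_map_le' f hQX hk (commutator_le_self X) e)⟩

theorem subgroupOf (h : XD p T X Q F) {H : Subgroup G} (hX : X ≤ H) (hT : T ≤ H) :
    XD p (T.subgroupOf H) (X.subgroupOf H) (Q.subgroupOf H) (F.subgroupOf H) := by
  have hF := h.FX.trans hX
  have hQ := h.QF.trans hF
  refine ⟨h.odd, by rw [H83.resOf_subgroupOf_of_le hX, h.res], comap_norm _ h.TX, h.Q2.comap_subtype,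
    comap_mono h.QF, comap_mono h.FX, comap_norm _ h.XQ, comap_norm _ h.TF,
    by rw [H83.commutator_subgroupOf hX hX]; exact comap_mono h.comm, fun x hx => h.pow x hx,
    fun x hx => h.pm x hx, fun x hx hle => h.nc x hx ?_, fun Y h1 h2 h3 => ?_, ?_⟩
  · have := map_mono (f := H.subtype) hle
    rwa [Subgroup.map_sup, MonoidHom.map_zpowers, H83.subgroupOf_map_of_le hX,
      H83.subgroupOf_map_of_le hF] at this
  · have a1 := map_mono (f := H.subtype) h1
    have a2 := map_norm H.subtype h2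
    have a3 := map_norm H.subtype h3
    rw [H83.subgroupOf_map_of_le hX] at a1 a2
    rw [H83.subgroupOf_map_of_le hT] at a3
    rcases h.irr _ a1 a2 a3 with e | e
    · left; rw [← e, H83.map_subtype_subgroupOf]
    · exact Or.inr (map_le_iff_le_comap.1 e)
  · rw [relIndex_subgroupOf hX, H83.commutator_subgroupOf hX hX]
    rcases h.sz with ⟨s1, s2, s3⟩ | ⟨s1, s2⟩
    · exact Or.inl ⟨s1, comap_mono s2, fun x hx => s3 x hx⟩
    · refine Or.inr ⟨s1, fun e => s2 fun x hx => ?_⟩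
      exact e (show (⟨x, hX (commutator_le_self X hx)⟩ : H) ∈ (⁅X, X⁆).subgroupOf H from hx)

theorem not_cyc [Finite G] [Fact p.Prime] (h : XD p T X Q F) (φ : X →* G')
    (hker : ∀ x : X, φ x = 1 → (x : G) ∈ F)
    (hc : ∀ S : Subgroup G', IsPGroup p S → S ≤ φ.range → IsCyclic S) : False := by
  obtain ⟨P⟩ : Nonempty (Sylow p X) := inferInstance
  obtain ⟨⟨_, x, hx, rfl⟩, hg⟩ := (hc ((P : Subgroup X).map φ) (P.isPGroup'.map φ)
    (map_le_range φ _)).exists_generator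
  refine h.nc x x.2 (((H83.isSylowIn_map P).le_sup_of_pMod (h.nrm le_rfl h.FX)
    (h.pm.mono le_rfl h.QF)).trans (sup_le le_sup_left ?_))
  rintro _ ⟨y, hy, rfl⟩
  obtain ⟨k, hk⟩ := hg ⟨φ y, y, hy, rfl⟩
  have e : φ x ^ k = φ y := congrArg Subtype.val hk
  have h1 := hker (y * (x ^ k)⁻¹) (by rw [map_mul, map_inv, map_zpow, e, mul_inv_cancel])
  have h2 := (F ⊔ zpowers (x : G)).mul_mem (mem_sup_left h1) (mem_sup_right (zpow_mem_zpowers (x : G) k))
  simpa using h2

theorem cyc_mod [Finite G] [Fact p.Prime] (h : XD p T X Q F) (N : Subgroup G) [N.Normal] {C : Subgroup G}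
    (hX : X ≤ N ⊔ C) (hF : X ⊓ N ≤ F) (hr : PRankLE p 1 C) : False := by
  refine h.not_cyc ((QuotientGroup.mk' N).comp X.subtype)
    (fun x hx => hF ⟨x.2, (QuotientGroup.eq_one_iff _).1 hx⟩) fun S hS hle => ?_
  have h1 : S ≤ C.map (QuotientGroup.mk' N) := by
    refine hle.trans ?_
    rw [MonoidHom.range_comp, range_subtype, Subgroup.map_le_map_iff, QuotientGroup.ker_mk', sup_comm]
    exact hX
  obtain ⟨P, h2, h3, rfl⟩ := exists_lift (QuotientGroup.mk' N) hS h1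
  haveI := isCyclic_of_rank_one h.odd hr h3 h2
  exact isCyclic_of_surjective _ ((QuotientGroup.mk' N).subgroupMap_surjective P)

theorem coprime_order [Finite G] [hp : Fact p.Prime] (h : XD p T X Q F) {q : ℕ} (hq : q.Prime) (h2 : q ≠ 2)
    (hqp : q ≠ p) {x : G} (hx : x ∈ X) : (orderOf x).Coprime q := by
  obtain ⟨k, hk⟩ := h.pm x hx
  obtain ⟨l, hl⟩ := H83.isPGroup_iff.1 h.Q2 _ hk
  rw [← pow_mul] at hl
  refine Nat.Coprime.coprime_dvd_left (orderOf_dvd_of_pow_eq_one hl) (Nat.Coprime.mul_left ?_ ?_)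
  · exact Nat.Coprime.pow_left _ ((Nat.coprime_primes hp.out hq).2 hqp.symm)
  · exact Nat.Coprime.pow_left _ ((Nat.coprime_primes Nat.prime_two hq).2 h2.symm)

theorem le_of_index_two (h : XD p T X Q F) {N : Subgroup G} (hN : N.index = 2) : X ≤ N := by
  rw [← h.res]
  exact H83.resOf_le_iff.2 fun x _ hc => H83.mem_of_ppow_mem (p := 2) (k := 1)
    (by simpa using sq_mem_of_index_two hN x) hc

/-- A subgroup of index two in `T` does not centralize `X / F`. -/
theorem not_index_two (h : XD p T X Q F) {N : Subgroup G} (hN : N.index = 2)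
    (hc : ∀ s ∈ T, s ∈ N → ∀ z ∈ X, s * z * s⁻¹ * z⁻¹ ∈ F) : False := by
  obtain ⟨x, hx, hn⟩ := h.exists_not_mem
  have hs : ∀ s ∈ T, s ∈ N → ∀ z y : G, z ∈ X → z ∈ F ⊔ zpowers y → s * z * s⁻¹ ∈ F ⊔ zpowers y := by
    intro s hs hs' z y hz hz'
    simpa using (F ⊔ zpowers y).mul_mem (mem_sup_left (hc s hs hs' z hz)) hz'
  by_cases hT : T ≤ N
  · exact h.not_inv hx hn fun t ht => hs t ht (hT ht) x x hx (mem_sup_right (mem_zpowers x))
  obtain ⟨t, ht, htN⟩ := SetLike.not_le_iff_exists.1 hT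
  have key : ∀ z ∈ X, z ∉ F → t * z * t⁻¹ ∈ F ⊔ zpowers z → False := by
    intro z hz hzF hz'
    refine h.not_inv hz hzF fun u hu => ?_
    by_cases huN : u ∈ N
    · exact hs u hu huN z z hz (mem_sup_right (mem_zpowers z))
    · have h1 : u * t⁻¹ ∈ N := by
        rw [mul_mem_iff_of_index_two hN, inv_mem_iff]; exact iff_of_false huN htN
      have := hs _ (T.mul_mem hu (T.inv_mem ht)) h1 _ z (H83.conj_mem h.TX ht hz) hz'
      convert this using 1
      group
  have hx' : t * x * t⁻¹ ∈ X := H83.conj_mem h.TX ht hx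
  by_cases hy : x * (t * x * t⁻¹) ∈ F
  · refine key x hx hn ?_
    simpa using (F ⊔ zpowers x).mul_mem (mem_sup_right ((zpowers x).inv_mem (mem_zpowers x))) (mem_sup_left hy)
  · refine key _ (X.mul_mem hx hx') hy ?_
    have h1 := hc (t * t) (T.mul_mem ht ht) (mul_self_mem_of_index_two hN t) x hx
    have h2 := H83.conj_mem (h.nrm le_rfl h.FX) hx' h1
    have h3 := h.comm (commutator_mem_commutator hx' hx)
    have := (F ⊔ zpowers (x * (t * x * t⁻¹))).mul_mem (mem_sup_left (F.mul_mem h2 h3))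
      (mem_sup_right (mem_zpowers _))
    convert this using 1
    simp only [commutatorElement_def]
    group

theorem card_F [Finite G] [Fact p.Prime] (h : XD p T X Q F) (hX : IsPGroup p X) :
    p ^ 2 * Nat.card F ≤ Nat.card X := by
  obtain ⟨x, hx, hn⟩ := h.exists_not_mem
  have hle : F ⊔ zpowers x ≤ X := sup_le h.FX (zpowers_le.2 hx)
  have h1 := H52.mul_card_le_of_lt hX (lt_of_le_of_ne hle fun e => h.nc x hx e.ge)
  have h2 := H52.mul_card_le_of_lt (hX.to_le hle) (lt_of_le_of_ne (le_sup_left : F ≤ F ⊔ zpowers x)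
    fun e => hn (e ▸ mem_sup_right (mem_zpowers x)))
  calc p ^ 2 * Nat.card F = p * (p * Nat.card F) := by ring
    _ ≤ p * Nat.card (F ⊔ zpowers x : Subgroup G) := Nat.mul_le_mul_left _ h2
    _ ≤ Nat.card X := h1

end XD

theorem oddGenerated_eq (H : Subgroup G) : oddGenerated H = resOf 2 H := by
  rw [H83.resOf_eq, oddGenerated]
  simp only [Nat.coprime_two_right]

theorem norm_twoPhiCore (X : Subgroup G) : normalizer (X : Set G) ≤ normalizer (twoPhiCore X : Set G) := by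
  haveI : (pCore 2 X).Characteristic := H52.pCore_characteristic
  haveI : ((frattini (X ⧸ pCore 2 X)).comap (QuotientGroup.mk' (pCore 2 X))).Characteristic :=
    Characteristic.comap_quotient_mk inferInstance
  exact H83.normalizer_le_norm_char _

/-- The data attached to a member of `Ξ(G, T)`. -/
theorem xd_of_Xi [Finite G] {T X : Subgroup G} (hX : X ∈ Xi T) :
    ∃ p : ℕ, p.Prime ∧ XD p T X (pCoreOf 2 X) (twoPhiCore X) := by
  obtain ⟨h1, h2, -, ⟨p, hp, hp2, hs⟩, h5⟩ := hX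
  haveI : Fact p.Prime := ⟨hp⟩
  haveI : Fact (Nat.Prime 2) := ⟨Nat.prime_two⟩
  rw [oddGenerated_eq] at h1
  set π := QuotientGroup.mk' (pCore 2 X)
  have hP : IsPGroup p (X ⧸ pCore 2 X) := by
    rcases hs with h | h
    · exact IsPGroup.of_card h.1
    · exact IsPGroup.of_card h.1
  have mF : ∀ x : X, (x : G) ∈ twoPhiCore X ↔ π x ∈ frattini (X ⧸ pCore 2 X) := fun x =>
    H83.coe_mem_map_subtype
  have mQ : ∀ x : X, (x : G) ∈ pCoreOf 2 X ↔ π x = 1 := fun x =>
    H83.coe_mem_map_subtype.trans (QuotientGroup.eq_one_iff _).symm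
  have hFX : twoPhiCore X ≤ X := map_subtype_le _
  have hQF : pCoreOf 2 X ≤ twoPhiCore X := fun x hx => by
    have hx' := H83.pCoreOf_le X hx
    exact (mF ⟨x, hx'⟩).2 (((mQ ⟨x, hx'⟩).1 hx).symm ▸ one_mem _)
  have hcomm : ⁅X, X⁆ ≤ twoPhiCore X := by
    rw [commutator_le]
    intro a ha b hb
    refine (mF ⁅(⟨a, ha⟩ : X), ⟨b, hb⟩⁆).2 ?_
    rw [map_commutatorElement]
    exact H7.commutator_le_frattini hP (commutator_mem_commutator (mem_top _) (mem_top _))
  have hfr : ∀ Y : Subgroup G, Y ≤ X → X ≤ twoPhiCore X ⊔ Y → (Y.subgroupOf X).map π = ⊤ := by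
    intro Y hY hle
    refine frattini_nongenerating (eq_top_iff.2 ?_)
    have : (⊤ : Subgroup X) ≤ (twoPhiCore X).subgroupOf X ⊔ Y.subgroupOf X := by
      rw [← subgroupOf_sup hFX hY, top_le_iff, subgroupOf_eq_top]; exact hle
    have h3 := map_mono (f := π) this
    rw [← MonoidHom.range_eq_map, MonoidHom.range_eq_top.2 (QuotientGroup.mk'_surjective _),
      Subgroup.map_sup, sup_comm] at h3
    refine h3.trans (sup_le_sup_left ?_ _)
    rintro _ ⟨x, hx, rfl⟩
    exact (mF x).1 hx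
  have hidx : (pCoreOf 2 X).relIndex X = Nat.card (X ⧸ pCore 2 X) := by
    rw [relIndex, H83.pCoreOf_subgroupOf, index]
  have hcq : ⁅X, X⁆ ≤ pCoreOf 2 X ↔ IsMulCommutative (X ⧸ pCore 2 X) := by
    rw [commutator_le]
    constructor
    · intro h
      refine ⟨⟨fun a b => ?_⟩⟩
      obtain ⟨a, rfl⟩ := QuotientGroup.mk'_surjective _ a
      obtain ⟨b, rfl⟩ := QuotientGroup.mk'_surjective _ b
      have := (mQ ⁅a, b⁆).1 (h a a.2 b b.2)
      rwa [map_commutatorElement, commutatorElement_eq_one_iff_mul_comm] at this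
    · intro h a ha b hb
      refine (mQ ⁅(⟨a, ha⟩ : X), ⟨b, hb⟩⁆).2 ?_
      rw [map_commutatorElement, commutatorElement_eq_one_iff_mul_comm]
      exact h.is_comm.comm _ _
  refine ⟨p, hp, hp2, h1, h2, H83.pCoreOf_isPGroup X, hQF, hFX, H83.le_norm_pCoreOf X,
    h2.trans (norm_twoPhiCore X), hcomm, fun x hx => ?_, fun x hx => ?_, fun x hx hle => ?_,
    fun Y y1 y2 y3 => ?_, ?_⟩
  · refine (mF (⟨x, hx⟩ ^ p)).2 ?_
    rw [map_pow]; exact H7.pow_mem_frattini hP _
  · obtain ⟨k, hk⟩ := hP (π ⟨x, hx⟩)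
    exact ⟨k, (mQ (⟨x, hx⟩ ^ p ^ k)).2 (by rw [map_pow]; exact hk)⟩
  · have e := hfr _ (zpowers_le.2 hx) hle
    have e2 : (zpowers x).subgroupOf X = zpowers (⟨x, hx⟩ : X) := by
      rw [← H83.map_subtype_subgroupOf (zpowers (⟨x, hx⟩ : X)), MonoidHom.map_zpowers]; rfl
    rw [e2, MonoidHom.map_zpowers] at e
    rcases hs with h | h
    · have h6 : Nat.card (X ⧸ pCore 2 X) ∣ p := by
        rw [← card_top, ← e, Nat.card_zpowers]
        exact orderOf_dvd_of_pow_eq_one (h.2.2 _)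
      rw [h.1] at h6
      have := Nat.le_of_dvd hp.pos h6
      have := hp.one_lt
      nlinarith
    · haveI : IsCyclic (X ⧸ pCore 2 X) := isCyclic_iff_exists_zpowers_eq_top.2 ⟨_, e⟩
      exact h.2 ⟨⟨fun a b => IsCyclic.commGroup.mul_comm a b⟩⟩
  · rcases h5 (twoPhiCore X ⊔ Y) le_sup_left (sup_le hFX y1)
      (H83.le_norm_sup (h2.trans (norm_twoPhiCore X)) y3) with e | e
    · exact Or.inr (le_sup_right.trans e.le)
    · left
      refine le_antisymm y1 ?_
      have e1 := hfr Y y1 e.ge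
      have e2 : X ≤ pCoreOf 2 X ⊔ Y := by
        intro x hx
        obtain ⟨y, hy, e3⟩ : π ⟨x, hx⟩ ∈ (Y.subgroupOf X).map π := e1 ▸ mem_top _
        have := (mQ (⟨x, hx⟩ * y⁻¹)).2 (by rw [map_mul, map_inv, e3, mul_inv_cancel])
        simpa using (pCoreOf 2 X ⊔ Y).mul_mem (mem_sup_left this) (mem_sup_right hy)
      rw [← h1]
      refine (H83.resOf_mono e2).trans ?_
      rw [H83.resOf_sup_of_norm (H83.pCoreOf_isPGroup X) ((H83.pCoreOf_le X).trans y2)]
      exact H83.resOf_le Y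
  · rw [hidx, hcq]
    rcases hs with h | h
    · exact Or.inl ⟨h.1, h.2.1, fun x hx => (mQ (⟨x, hx⟩ ^ p)).2 (by rw [map_pow]; exact h.2.2 _)⟩
    · exact Or.inr h

end Cfsg.Agent.H81.QT
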