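import Mathlib
import Cfsg.Agent.H81.QTXi

/-!
Solvable uniqueness subgroups.
-/

set_option autoImplicit false

namespace Cfsg.Agent.H81.QT

open Cfsg Subgroup
open H52 (cnj cmod orbitSup toOut)
open H83 (SubnIn IsSylowIn resOf PMod OZ)
open scoped commutatorElement

universe u

/-- `SL₂(q)` has no elementary abelian subgroup of order `p²` for `p ≠ q`. -/
theorem not_sq_sl2 {p q : ℕ} [hp : Fact p.Prime] [hq : Fact q.Prime] (hne : q ≠ p)
    {A : Subgroup (GL (Fin 2) (ZMod q))} (hA : IsElementaryAbelian p A) (hc : p ^ 2 ≤ Nat.card A)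
    (hd : ∀ a ∈ A, Matrix.GeneralLinearGroup.det a = 1) : False := by
  have hN : ∀ a ∈ A, a ≠ 1 → ∑ i ∈ Finset.range p, (a : Matrix (Fin 2) (Fin 2) (ZMod q)) ^ i = 0 := by
    intro a ha h1
    have h2 : ((a : Matrix (Fin 2) (Fin 2) (ZMod q)) - 1) *
        ∑ i ∈ Finset.range p, (a : Matrix (Fin 2) (Fin 2) (ZMod q)) ^ i = 0 := by
      rw [mul_geom_sum, ← Units.val_pow_eq_pow_val, hA.2 a ha, Units.val_one, sub_self]
    ext i j
    by_contra h3
    have hv : (fun k => (∑ i ∈ Finset.range p, (a : Matrix (Fin 2) (Fin 2) (ZMod q)) ^ i) k j) ≠ 0 :=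
      fun e => h3 (congrFun e i)
    refine h1 (eq_one_of_det_of_fix (hd a ha) ?_ hv ?_)
    · rw [orderOf_eq_prime (hA.2 a ha) h1]
      exact (Nat.coprime_primes hp.out hq.out).2 hne.symm
    · rw [sub_mul, one_mul, sub_eq_zero] at h2
      ext k
      exact congrFun (congrFun h2 k) j
  have hp1 := hp.out.one_lt
  obtain ⟨x, hx, hx1⟩ : ∃ x ∈ A, x ≠ 1 := by
    by_contra hn
    push Not at hn
    rw [(eq_bot_iff_forall A).2 hn, card_bot] at hc
    nlinarith
  have hxo := orderOf_eq_prime (hA.2 x hx) hx1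
  obtain ⟨y, hy, hyx⟩ : ∃ y ∈ A, y ∉ zpowers x := by
    by_contra hn
    push Not at hn
    have := card_le_of_le (show A ≤ zpowers x from hn)
    rw [Nat.card_zpowers, hxo] at this
    nlinarith
  have hcomm : Commute x y := H83.EA_le_cent hA hy x hx
  have h1 : ∑ j ∈ Finset.range p, ∑ i ∈ Finset.range p,
      ((x ^ j * y : GL (Fin 2) (ZMod q)) : Matrix (Fin 2) (Fin 2) (ZMod q)) ^ i = 0 := by
    refine Finset.sum_eq_zero fun j _ => hN _ (A.mul_mem (A.pow_mem hx j) hy) fun e => hyx ?_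
    rw [eq_inv_of_mul_eq_one_right e]
    exact inv_mem (pow_mem (mem_zpowers x) j)
  rw [Finset.sum_comm] at h1
  have h2 : ∀ i, ∑ j ∈ Finset.range p, ((x ^ j * y : GL (Fin 2) (ZMod q)) : Matrix (Fin 2) (Fin 2) (ZMod q)) ^ i =
      (∑ j ∈ Finset.range p, ((x ^ i : GL (Fin 2) (ZMod q)) : Matrix (Fin 2) (Fin 2) (ZMod q)) ^ j) *
        (y : Matrix (Fin 2) (Fin 2) (ZMod q)) ^ i := by
    intro i
    rw [Finset.sum_mul]
    refine Finset.sum_congr rfl fun j _ => ?_
    rw [← Units.val_pow_eq_pow_val, ← Units.val_pow_eq_pow_val, ← Units.val_pow_eq_pow_val, ← Units.val_mul,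
      (hcomm.pow_left j).mul_pow, ← pow_mul, ← pow_mul, mul_comm i j]
  simp only [h2] at h1
  rw [Finset.sum_eq_single 0] at h1
  · simp only [pow_zero, Units.val_one, one_pow, Finset.sum_const, Finset.card_range, mul_one] at h1
    have h3 := congrFun (congrFun h1 0) 0
    simp only [Matrix.smul_apply, Matrix.one_apply_eq, nsmul_eq_mul, mul_one, Matrix.zero_apply] at h3
    rw [ZMod.natCast_eq_zero_iff] at h3
    exact hne ((Nat.prime_dvd_prime_iff_eq hq.out hp.out).1 h3)
  · intro i hi h0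
    rw [hN _ (A.pow_mem hx i) fun e => ?_, zero_mul]
    have := Nat.le_of_dvd (Nat.pos_of_ne_zero h0) (hxo ▸ orderOf_dvd_of_pow_eq_one e)
    have := Finset.mem_range.1 hi
    omega
  · intro h0
    exact absurd (Finset.mem_range.2 hp.out.pos) h0

theorem card_dvd_of_gl {p : ℕ} [hp : Fact p.Prime] {S : Subgroup (GL (Fin 2) (ZMod p))} (hS : IsPGroup p S) :
    Nat.card S ∣ p := by
  obtain ⟨n, hn⟩ := IsPGroup.iff_card.1 hS
  have h1 : ¬ 2 ≤ n := fun h => not_sq_dvd_card_gl (p := p)
    ((pow_dvd_pow p h).trans (hn ▸ card_subgroup_dvd_card S))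
  rw [hn]
  exact (pow_dvd_pow p (by omega : n ≤ 1)).trans (by rw [pow_one])

section
variable {G : Type*} [Group G] [Finite G] {p : ℕ} [hp : Fact p.Prime]

theorem rank_one_of_not_dvd {L : Subgroup G} (hd : ¬ p ∣ Nat.card L) : PRankLE p 1 L := by
  intro A hA hp'
  have : A = ⊥ := H52.eq_bot_of_isPGroup_of_coprime (H83.EA_isPGroup ⟨hA, hp'⟩)
    (Nat.Coprime.coprime_dvd_left (card_subgroup_dvd_card A) ((Nat.coprime_comm.1
      ((Nat.Prime.coprime_iff_not_dvd hp.out).2 hd))))
  rw [this, card_bot]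
  exact Nat.one_le_pow _ _ hp.out.pos

/-- A `p`-group acting on an elementary abelian group of order `p²`. -/
theorem card_le_mul_centralizer {X A : Subgroup G} (hX : IsPGroup p X) (hA : IsElementaryAbelian p A)
    (hc : Nat.card A ≤ p ^ 2) (hn : X ≤ normalizer (A : Set G)) :
    Nat.card X ≤ p * Nat.card (X ⊓ centralizer (A : Set G) : Subgroup G) := by
  obtain ⟨ρ, hρ⟩ := exists_GL2_of_elem (W := A) hA.1 (fun w => Subtype.ext (hA.2 w w.2)) hc
  let φ : X →* GL (Fin 2) (ZMod p) := ρ.comp (A.normalizerMonoidHom.comp (inclusion hn))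
  have h1 : Nat.card φ.range ≤ p := Nat.le_of_dvd hp.out.pos (card_dvd_of_gl (by
    rw [MonoidHom.range_eq_map]; exact (hX.to_subgroup ⊤).map φ))
  have h2 : φ.ker.map X.subtype ≤ X ⊓ centralizer (A : Set G) := by
    rintro _ ⟨x, hx, rfl⟩
    refine ⟨x.2, ?_⟩
    have h3 : A.normalizerMonoidHom (inclusion hn x) = 1 := hρ (by rw [map_one]; exact hx)
    have h4 : inclusion hn x ∈ A.normalizerMonoidHom.ker := h3
    rw [normalizerMonoidHom_ker] at h4
    exact h4
  have h3 := card_le_of_le h2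
  rw [H83.card_map_subtype] at h3
  calc Nat.card X = Nat.card φ.ker * Nat.card φ.range := by rw [← φ.ker.card_mul_index, index_ker]
    _ ≤ Nat.card (X ⊓ centralizer (A : Set G) : Subgroup G) * p := Nat.mul_le_mul h3 h1
    _ = _ := mul_comm _ _

namespace XD

variable {T X Q F : Subgroup G}

theorem le_cent_pCore (h : XD p T X Q F) (hs : IsStronglyQuasithin G) {q : ℕ} (hq : q.Prime) (h2 : q ≠ 2)
    (hqp : q ≠ p) : X ≤ centralizer (pCore q G : Set G) := by
  haveI : Fact q.Prime := ⟨hq⟩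
  obtain ⟨ρ, hρ⟩ := exists_Rep hs q h2
  rcases h.le_or' ρ.ker with e | e
  · exact fun x hx => hρ.mem_cent (e hx) (h.coprime_order hq h2 hqp hx)
  · exfalso
    refine h.not_cyc (ρ.comp X.subtype) (fun x hx => e ⟨x.2, hx⟩) fun S hS hle => ?_
    by_contra hn
    obtain ⟨A, -, hA, hc⟩ := H7.exists_normal_sq hS h.odd hn
    refine not_sq_sl2 hqp (H83.EA_map S.subtype hA) (by rw [H83.card_map_subtype, hc]) ?_
    rintro _ ⟨a, -, rfl⟩
    obtain ⟨x, hx⟩ := hle a.2
    have h1 : X ≤ (Matrix.GeneralLinearGroup.det.comp ρ).ker := by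
      rw [← h.comm_eq]
      exact (commutator_mono le_top le_top).trans (Abelianization.commutator_subset_ker _)
    have h3 := h1 x.2
    rw [MonoidHom.mem_ker, MonoidHom.comp_apply] at h3
    rw [S.coe_subtype, ← hx]
    exact h3

theorem le_ker (h : XD p T X Q F) (ρ : G →* GL (Fin 2) (ZMod p)) : X ≤ ρ.ker := by
  rcases h.le_or' ρ.ker with e | e
  · exact e
  · exfalso
    exact h.not_cyc (ρ.comp X.subtype) (fun x hx => e ⟨x.2, hx⟩) fun S hS _ =>
      isCyclic_of_card_dvd_prime (card_dvd_of_gl hS)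

theorem le_pCore (h : XD p T X Q F) (hs : IsStronglyQuasithin G) (hO : pCore 2 G = ⊥)
    (hE : X ≤ centralizer (layer G : Set G)) : Q = ⊥ ∧ X ≤ pCore p G := by
  haveI : Fact (Nat.Prime 2) := ⟨Nat.prime_two⟩
  obtain ⟨ρ, hρ⟩ := exists_Rep hs p h.odd
  let D : Subgroup G := ⨆ q : {q : ℕ // q.Prime ∧ q ≠ p}, pCore q G
  haveI : D.Normal := Subgroup.iSup_normal _
  haveI : (layer G).Normal := H52.layer_normal
  let N : Subgroup G := ρ.ker ⊓ centralizer (layer G : Set G) ⊓ centralizer (D : Set G)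
  have hXN : X ≤ N := by
    refine le_inf (le_inf (h.le_ker ρ) hE) (le_centralizer_iff.1 (iSup_le fun q => le_centralizer_iff.1 ?_))
    by_cases h2 : q.1 = 2
    · exact le_cent_bot (by rw [h2]; exact hO)
    · exact h.le_cent_pCore hs q.2.1 h2 q.2.2
  have hF : fittingSubgroup G ≤ pCore p G ⊔ D := by
    rw [H52.fitting_eq_iSup_pCore]
    refine iSup_le fun q => ?_
    by_cases e : q.1 = p
    · rw [e]; exact le_sup_left
    · exact le_sup_of_le_right (le_iSup (fun q : {q : ℕ // q.Prime ∧ q ≠ p} => pCore q G) ⟨q.1, q.2, e⟩)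
  have hC : ∀ x ∈ N, (orderOf x).Coprime p → x ∈ centralizer (generalizedFittingSubgroup G : Set G) := by
    intro x hx hc
    have h1 : x ∈ centralizer ((layer G ⊔ (pCore p G ⊔ D) : Subgroup G) : Set G) := by
      rw [H83.centralizer_sup, H83.centralizer_sup]
      exact ⟨hx.1.2, hρ.mem_cent hx.1.1 hc, hx.2⟩
    refine H83.cent_anti (fun y hy => ?_) h1
    obtain ⟨e, he, f, hf, rfl⟩ := H52.mem_fstar_iff.1 hy
    exact mul_mem (mem_sup_left he) (mem_sup_right (hF hf))
  have hQ : Q = ⊥ := by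
    refine H83.eq_bot_of_le_cent_fstar hO h.Q2 fun x hx => hC x (hXN (h.FX (h.QF hx))) ?_
    obtain ⟨k, hk⟩ := H83.isPGroup_iff.1 h.Q2 x hx
    exact Nat.Coprime.coprime_dvd_left (orderOf_dvd_of_pow_eq_one hk)
      (Nat.Coprime.pow_left _ ((Nat.coprime_primes Nat.prime_two hp.out).2 h.odd.symm))
  refine ⟨hQ, ?_⟩
  have hX : IsPGroup p X := H83.pMod_bot_iff.1 (hQ ▸ h.pm)
  obtain ⟨S, hS, hXS⟩ := H83.exists_isSylowIn_ge hXN hX
  have hm : PMod p (pCore p G ⊔ D) D :=
    (PMod.of_isPGroup H52.pCore_isPGroup D).sup_self le_normalizer_of_normal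
  have hr : resOf p N ≤ D := H83.resOf_le_iff.2 fun x hx hc => by
    obtain ⟨k, hk⟩ := hm x (hF (H52.centralizer_fstar_le_fitting (hC x hx hc)))
    exact H83.mem_of_ppow_mem hk hc
  have hn : N ≤ normalizer (S : Set G) := by
    rw [← hS.resOf_sup]
    exact sup_le (hr.trans (H83.le_norm_of_le_cent (le_centralizer_iff.1 (hS.le.trans inf_le_right))))
      le_normalizer
  rw [hS.eq_pCoreOf hn] at hXS
  exact hXS.trans (H83.pCoreOf_le_pCore_of_subnormal (Normal.isSubnormal inferInstance))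

theorem normal_of_le_pCore (h : XD p T X ⊥ F) (hr : PRankLE p 2 G) (hR : X ≤ pCore p G) : X.Normal := by
  have hP : IsPGroup p (pCore p G) := H52.pCore_isPGroup
  have hX : IsPGroup p X := hP.to_le hR
  have hF := h.card_F hX
  have hp1 := hp.out.one_lt
  have hsz := h.sz
  rw [relIndex_bot_left] at hsz
  rcases hsz with ⟨s1, s2, s3⟩ | ⟨s1, s2⟩
  · have hEA : IsElementaryAbelian p X :=
      H83.isEA_iff.2 ⟨H83.comm_eq_bot_iff.1 (le_bot_iff.1 s2), fun x hx => mem_bot.1 (s3 x hx)⟩
    haveI : (OZ p (pCore p G)).Normal := H52.normal_of_top_le_normalizer (H83.norm_OZ le_normalizer_of_normal)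
    have h1 : OZ p (pCore p G) ≤ X := fun z hz => mem_of_rank_two hr hEA s1.ge ((H83.EA_OZ _).2 z hz)
      (H83.cent_anti hR (H83.OZ_le_cent _ hz))
    rcases h.le_or' (OZ p (pCore p G)) with e | e
    · rw [le_antisymm e h1]; infer_instance
    · exfalso
      have h2 : F = ⊥ := by
        rw [s1] at hF
        have : p ^ 2 * Nat.card F ≤ p ^ 2 * 1 := by rwa [mul_one]
        have := Nat.le_of_mul_le_mul_left this (by positivity)
        exact (card_le_one_iff_eq_bot _).1 this
      rw [inf_eq_right.2 h1, h2] at e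
      exact H83.OZ_ne_bot hP (fun e' => h.ne_bot (le_bot_iff.1 (e' ▸ hR))) (le_bot_iff.1 e)
  · have hFc : Nat.card F ≤ p := by
      rw [s1] at hF
      have : p ^ 2 * Nat.card F ≤ p ^ 2 * p := by rwa [← pow_succ]
      exact Nat.le_of_mul_le_mul_left this (by positivity)
    have hFX : F ≤ centralizer (X : Set G) := by
      by_contra hn
      have h1 : F ⊓ centralizer (X : Set G) ≠ ⊥ := H83.inf_centralizer_ne_bot (hX.to_le h.FX) hX
        (h.nrm le_rfl h.FX) fun e => hn (e ▸ bot_le)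
      have h2 := H52.mul_card_le_of_lt (hX.to_le h.FX)
        (lt_of_le_of_ne (inf_le_left : F ⊓ centralizer (X : Set G) ≤ F) fun e => hn (inf_eq_left.1 e))
      have h3 : p * Nat.card (F ⊓ centralizer (X : Set G) : Subgroup G) ≤ p * 1 := by
        rw [mul_one]; exact h2.trans hFc
      exact h1 ((card_le_one_iff_eq_bot _).1 (Nat.le_of_mul_le_mul_left h3 hp.out.pos))
    have hmul : ∀ x ∈ X, ∀ y ∈ X, (x * y) ^ p = x ^ p * y ^ p := fun x hx y hy =>
      mul_pow_of_cent hp.out h.odd (h.comm.trans hFX) (fun x hx => hFX (h.pow x hx)) hx hy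
    have hnc : ¬ IsCyclic X := fun hc => s2 (by
      rw [commutator_le]
      intro a ha b hb
      rw [mem_bot, commutatorElement_eq_one_iff_mul_comm]
      exact congrArg Subtype.val (IsCyclic.commGroup.mul_comm (⟨a, ha⟩ : X) ⟨b, hb⟩))
    have hsq : ∀ A : Subgroup G, p ^ 2 ≤ Nat.card A → ¬ A ≤ F := fun A hA hle => by
      have := card_le_of_le hle
      nlinarith
    let W : Subgroup G :=
      { carrier := {x | x ∈ X ∧ x ^ p = 1}
        mul_mem' := fun {a b} ha hb => ⟨X.mul_mem ha.1 hb.1, by rw [hmul a ha.1 b hb.1, ha.2, hb.2, mul_one]⟩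
        one_mem' := ⟨X.one_mem, one_pow p⟩
        inv_mem' := fun {a} ha => ⟨X.inv_mem ha.1, by rw [inv_pow, ha.2, inv_one]⟩ }
    have hWn : normalizer (X : Set G) ≤ normalizer (W : Set G) := by
      refine H52.le_normalizer_of_forall_map_conj_le fun g hg => ?_
      rintro _ ⟨x, hx, rfl⟩
      exact ⟨H83.conj_mem le_rfl hg hx.1, by rw [← map_pow, hx.2, map_one]⟩
    have hexp : ∀ x ∈ X, x ^ p = 1 := by
      rcases h.le_or (le_normalizer.trans hWn) (h.TX.trans hWn) with e | e
      · exact fun x hx => (e hx).2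
      · exfalso
        obtain ⟨A, -, hA, hc⟩ := H7.exists_normal_sq hX h.odd hnc
        refine hsq (A.map X.subtype) (by rw [H83.card_map_subtype, hc]) (le_trans ?_ e)
        exact fun a ha => ⟨map_subtype_le _ ha, map_subtype_le _ ha, (H83.EA_map _ hA).2 a ha⟩
    let S : Set (Subgroup G) := {A | A ≤ pCore p G ∧ pCore p G ≤ normalizer (A : Set G) ∧
      IsElementaryAbelian p A ∧ Nat.card A = p ^ 2}
    have hSX : ∀ A ∈ S, A ≤ X := by
      rintro A ⟨-, a2, a3, a4⟩
      have h1 := card_le_mul_centralizer hX a3 a4.le (hR.trans a2)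
      have h2 : ¬ IsCyclic (X ⊓ centralizer (A : Set G) : Subgroup G) := fun hc => by
        have := H7.card_le_of_isCyclic_of_pow hc fun x hx => hexp x hx.1
        have h3 : p ^ 3 ≤ p * p := s1 ▸ h1.trans (Nat.mul_le_mul_left _ this)
        rw [← pow_two] at h3
        have := (Nat.pow_le_pow_iff_right hp1).1 h3
        omega
      obtain ⟨E, -, hE, hc⟩ := H7.exists_normal_sq (hX.to_le inf_le_left) h.odd h2
      have h4 : E.map (X ⊓ centralizer (A : Set G)).subtype ≤ X ⊓ centralizer (A : Set G) := map_subtype_le _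
      intro a ha
      exact (h4 (mem_of_rank_two hr (H83.EA_map _ hE) (by rw [H83.card_map_subtype, hc]) (a3.2 a ha)
        (le_centralizer_iff.1 (h4.trans inf_le_right) ha))).1
    haveI : (sSup S).Normal := by
      refine H52.normal_of_top_le_normalizer (H52.le_normalizer_sSup_of_conj_mem ?_)
      rintro g - A ⟨a1, a2, a3, a4⟩
      have e : H83.cj g (pCore p G) = pCore p G := H83.cj_eq_self (le_normalizer_of_normal (mem_top g))
      refine ⟨e ▸ H83.cj_mono g a1, ?_, H83.EA_cj a3 g, (H83.card_cj g A).trans a4⟩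
      rw [← e]
      exact map_norm _ a2
    rcases h.le_or' (sSup S) with e | e
    · rw [le_antisymm e (sSup_le hSX)]; infer_instance
    · exfalso
      obtain ⟨A, _, hA, hc⟩ := H7.exists_normal_sq hP h.odd fun hc => hnc (Subgroup.isCyclic_of_le hR)
      have hAS : A.map (pCore p G).subtype ∈ S := ⟨map_subtype_le _, H83.le_norm_map_subtype, H83.EA_map _ hA,
        by rw [H83.card_map_subtype, hc]⟩
      exact hsq _ hAS.2.2.2.ge ((le_inf (hSX _ hAS) (le_sSup hAS)).trans e)

end XD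

end

section
variable {G : Type u} [Group G] [Finite G] {p : ℕ} [hp : Fact p.Prime] {X Q F : Subgroup G}

theorem XD.le_normalizer_component {T : Subgroup G} (h : XD p T X Q F) (hs : IsStronglyQuasithin G)
    {K : Subgroup G} (hK : IsComponent K) : X ≤ normalizer (K : Set G) := by
  by_cases hn : K.Normal
  · exact le_normalizer_of_normal
  · exact h.le_of_index_two (component_index hs hK hn)

theorem XD.inner {T : Subgroup G} (h : XD p T X Q F) (hk : KF.{u}) (hs : SQTK G) (hO : pCore 2 G = ⊥)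
    {K : Subgroup G} (hK : IsComponent K) : X ≤ K ⊔ centralizer (K : Set G) := by
  have hXN := h.le_normalizer_component hs.sqt hK
  have hq := H52.IsComponent.isQuasisimple hK
  have hp' := H52.IsComponent.commutator_self hK
  by_cases hn : K.Normal
  · rcases h.le_or' (K ⊔ centralizer (K : Set G)) with e | e
    · exact e
    exfalso
    haveI := hs.cyclic_out hk hq
    have hT : T ≤ normalizer (K : Set G) := le_normalizer_of_normal
    refine h.not_cyc ((toOut K).comp (inclusion hXN))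
      (fun x hx => e ⟨x.2, H52.mem_sup_centralizer_of_toOut_eq_one hp' _ hx⟩) fun S _ hle => ?_
    refine Subgroup.isCyclic_of_le (hle.trans ?_ : S ≤ commutator (Out (K ⧸ center K)))
    rw [MonoidHom.range_comp, inclusion_range, ← h.comm_eq, ← H83.commutator_subgroupOf hXN hT, map_commutator]
    exact commutator_mono le_top le_top
  · have hi := component_index hs.sqt hK hn
    haveI := normal_of_index_eq_two hi
    have hc := hk.outThin _ hq.2 (H52.IsQuasisimple.not_isMulCommutative_quotient hq)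
      (component_thin hk hs hO hK hn)
    have h1 : ⁅normalizer (K : Set G), normalizer (K : Set G)⁆ ≤ K ⊔ centralizer (K : Set G) := by
      rw [commutator_le]
      intro a ha b hb
      refine H52.mem_sup_centralizer_of_toOut_eq_one hp' ⁅(⟨a, ha⟩ : normalizer (K : Set G)), ⟨b, hb⟩⁆ ?_
      rw [map_commutatorElement, commutatorElement_eq_one_iff_mul_comm]
      exact hc.is_comm.comm _ _
    rcases h.le_or' ⁅normalizer (K : Set G), normalizer (K : Set G)⁆ with e | e
    · exact e.trans h1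
    · exfalso
      refine h.not_index_two hi fun s hs hs' z hz => e ⟨?_, commutator_mem_commutator hs' (hXN hz)⟩
      exact X.mul_mem (H83.conj_mem h.TX hs hz) (X.inv_mem hz)

theorem XD.le_cent_component {T : Sylow 2 G} (h : XD p (T : Subgroup G) X Q F) (hk : KF.{u}) (hs : SQTK G)
    (hO : pCore 2 G = ⊥) {K : Subgroup G} (hK : IsComponent K) (hn : ¬ X ≤ K ⊔ T) :
    X ≤ centralizer (K : Set G) := by
  haveI : (orbitSup ⊤ K).Normal := H52.normal_of_top_le_normalizer (H52.le_normalizer_orbitSup ⊤ K)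
  have hc := H52.IsComponent.isComponent_of_mem_orbit (P := ⊤) hK
  have hperf : ⁅orbitSup ⊤ K, orbitSup ⊤ K⁆ = orbitSup ⊤ K :=
    H52.commutator_sSup_self_of_perfect fun L hL => H52.IsComponent.commutator_self (hc L hL)
  have h1 : X ≤ orbitSup ⊤ K ⊔ centralizer (orbitSup ⊤ K : Set G) := fun x hx =>
    H52.mem_sup_centralizer_sSup (Set.toFinite _)
      (fun A hA B hB hne => H52.IsComponent.commutator_eq_bot_of_ne (hc A hA) (hc B hB) hne)
      fun A hA => h.inner hk hs hO (hc A hA) hx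
  have h2 : orbitSup ⊤ K ≤ K ⊔ T := by
    refine H52.orbitSup_le_iff.2 fun g _ => ?_
    obtain ⟨t, ht, e⟩ := exists_cnj_eq_of_index (L := K) (by
      by_cases hn : K.Normal
      · exact Or.inl hn
      · exact Or.inr (component_index hs.sqt hK hn)) T g
    rw [e]
    exact H83.cj_le_of_mem le_sup_left (mem_sup_right ht)
  rcases h.le_or' (orbitSup ⊤ K) with e | e
  · exact absurd (e.trans h2) hn
  rcases h.le_or' (centralizer (orbitSup ⊤ K : Set G)) with e' | e'
  · exact e'.trans (H83.cent_anti (H52.le_orbitSup ⊤ K))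
  exfalso
  by_cases hd : p ∣ Nat.card (orbitSup ⊤ K)
  · exact h.cyc_mod _ h1 e (rank_one_centralizer h.odd (hs.sqt p hp.out h.odd) hperf hd)
  · exact h.cyc_mod _ (sup_comm (orbitSup ⊤ K) _ ▸ h1) e' (rank_one_of_not_dvd hd)

theorem XD.normal' {T : Sylow 2 G} (h : XD p (T : Subgroup G) X Q F) (hk : KF.{u}) (hs : SQTK G)
    (hO : pCore 2 G = ⊥) (hn : ∀ K : Subgroup G, IsComponent K → ¬ X ≤ K ⊔ T) : X.Normal := by
  have hE : X ≤ centralizer (layer G : Set G) := le_centralizer_iff.1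
    (H52.layer_le_iff.2 fun K hK => le_centralizer_iff.1 (h.le_cent_component hk hs hO hK (hn K hK)))
  obtain ⟨rfl, h2⟩ := h.le_pCore hs.sqt hO hE
  exact h.normal_of_le_pCore (hs.sqt p hp.out h.odd) h2

/-- `X` is normal unless it lies in `⟨K, T⟩` for a `𝒞`-component `K` with `K / O₂(K)` quasisimple. -/
theorem XD.normal {T : Sylow 2 G} (h : XD p (T : Subgroup G) X Q F) (hk : KF.{u}) (hs : SQTK G)
    (hQ : X ⊓ pCore 2 G ≤ Q)
    (hn : ∀ K ∈ calC G, IsQuasisimple (K ⧸ pCore 2 K) → ¬ X ≤ K ⊔ T) : X.Normal := by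
  haveI : Fact (Nat.Prime 2) := ⟨Nat.prime_two⟩
  let π := QuotientGroup.mk' (pCore 2 G)
  have hπ : Function.Surjective π := QuotientGroup.mk'_surjective _
  have hker : π.ker ≤ T := by rw [QuotientGroup.ker_mk']; exact H52.pCore_le_sylow T
  have h1 := h.map π (by rwa [QuotientGroup.ker_mk'])
  have h2 : (X.map π).Normal := by
    refine XD.normal' (T := T.mapSurjective hπ) h1 hk hs.quot H52.pCore_quotient_pCore fun K hK hle => ?_
    obtain ⟨L, hL, rfl⟩ := exists_calC_map_eq hπ ker_two_solvable (calC_of_component hK)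
    obtain ⟨φ⟩ := quot_pCore_equiv (p := 2) (calC_sub hL)
    refine hn L hL (H52.IsQuasisimple.of_mulEquiv (H52.IsComponent.isQuasisimple hK) φ.symm) ?_
    rw [Sylow.coe_mapSurjective, ← Subgroup.map_sup, Subgroup.map_le_map_iff] at hle
    exact hle.trans (sup_le le_rfl (le_sup_of_le_right hker))
  have h3 := h2.comap π
  rw [comap_map_eq, sup_comm] at h3
  have h4 := H83.resOf_sup_of_norm (p := 2) ker_two_pgroup (hker.trans h.TX)
  rw [h.res] at h4
  rw [← h4]
  exact H52.normal_of_top_le_normalizer (H83.norm_resOf le_normalizer_of_normal)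

variable [IsSimpleGroup G]

theorem s1822 (hk : KF.{u}) (hG : ¬ IsMulCommutative G) (hQ : IsQTKE G) (T : Sylow 2 G) (X : Subgroup G)
    (hX : X ∈ XiStar (T : Subgroup G)) :
    maxTwoLocalsContaining (X ⊔ (T : Subgroup G)) = {normalizer (X : Set G)} := by
  haveI : Fact (Nat.Prime 2) := ⟨Nat.prime_two⟩
  obtain ⟨p, hp, h⟩ := xd_of_Xi hX.1
  haveI : Fact p.Prime := ⟨hp⟩
  have hn : X ⊔ T ≤ normalizer (X : Set G) := sup_le le_normalizer h.TX
  refine unique_max (((charP_of_calH hQ T hX.1.2.2.1 le_sup_right).of_normal le_sup_left hn).pCoreOf_ne_bot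
    h.ne_bot) hn fun H hH => ?_
  have hXH : X ≤ H := le_sup_left.trans hH.2
  have hTH : (T : Subgroup G) ≤ H := le_sup_right.trans hH.2
  refine H52.le_normalizer_of_subgroupOf_normal hXH
    (XD.normal (T := T.subtype hTH) (h.subgroupOf hXH hTH) hk (sqtk_of_calH hG hQ hH.1) ?_ fun K hK hq hle => ?_)
  · rw [← H83.pCoreOf_subgroupOf, inf_comm]
    exact fun x hx => H83.pCoreOf_inf_le hXH (show (x : G) ∈ pCoreOf 2 H ⊓ X from hx)
  · let e := K.equivMapOfInjective H.subtype H.subtype_injective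
    refine hX.2 (K.map H.subtype) (mem_calL_of T hH.1 hTH ⟨map_subtype_le _, ?_⟩
      ((calC_cg hK).map_inj H.subtype_injective)) (H52.IsQuasisimple.of_mulEquiv hq
        (QuotientGroup.congr _ _ e (H52.map_pCore_equiv e))) (sup_le ?_ le_sup_right)
    · rw [H83.map_subtype_subgroupOf]; exact calC_sub hK
    · have := map_mono (f := H.subtype) hle
      rwa [Subgroup.map_sup, H83.subgroupOf_map_of_le hXH, Sylow.coe_subtype,
        H83.subgroupOf_map_of_le hTH] at this

end

end Cfsg.Agent.H81.QT
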