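import Cfsg.Agent.H18.RfSc

/-! Project RF, piece MOQ: an extremal pair of extraspecial groups. -/

set_option autoImplicit false

namespace Cfsg.Agent.H81.RfMoQ

open Cfsg Subgroup Cfsg.Agent.H18.MaxOff Cfsg.Agent.H18.Rf
open Cfsg.Agent.H49 (XS LX)
open scoped Pointwise

universe u

section up
variable {G H : Type u} [Group G] [Group H] {C : Subgroup G} (π : C →* H)

/-- the full preimage -/
def up (B : Subgroup H) : Subgroup G := (B.comap π).map C.subtype

theorem eqns : True := by
  have := @up.eq_1.{0}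
  trivial

variable {π}

theorem mem_up {B : Subgroup H} {x : C} : (x : G) ∈ up π B ↔ π x ∈ B := by
  constructor
  · rintro ⟨y, hy, e⟩
    obtain rfl : y = x := Subtype.ext e
    exact hy
  · intro h
    exact ⟨x, h, rfl⟩

theorem up_le (B : Subgroup H) : up π B ≤ C := map_subtype_le _

theorem ext_up {B : Subgroup H} {K : Subgroup G} (hK : K ≤ C) (h : ∀ x : C, π x ∈ B ↔ (x : G) ∈ K) :
    up π B = K := by
  ext x
  constructor
  · intro hx
    exact (h ⟨x, up_le B hx⟩).1 (mem_up.1 hx)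
  · intro hx
    exact (mem_up (x := ⟨x, hK hx⟩)).2 ((h ⟨x, hK hx⟩).2 hx)

theorem up_inf (B B' : Subgroup H) : up π (B ⊓ B') = up π B ⊓ up π B' :=
  ext_up (inf_le_left.trans (up_le B)) fun x => by simp only [mem_inf, mem_up]

theorem up_cj (c : C) (B : Subgroup H) : up π (cj (π c) B) = cj (c : G) (up π B) := by
  refine ext_up (fun x hx => ?_) fun x => ?_
  · have := C.mul_mem (C.mul_mem c.2 (up_le B (mem_cj.1 hx))) (C.inv_mem c.2)
    simpa [mul_assoc] using this
  · rw [mem_cj, mem_cj, ← map_inv, ← map_mul, ← map_mul, ← mem_up]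
    rfl

variable (hπ : Function.Surjective π)
include hπ

theorem up_le_up {B B' : Subgroup H} : up π B ≤ up π B' ↔ B ≤ B' := by
  constructor
  · intro h x hx
    obtain ⟨y, rfl⟩ := hπ x
    exact mem_up.1 (h (mem_up.2 hx))
  · intro h x hx
    exact (mem_up (x := ⟨x, up_le B hx⟩)).2 (h (mem_up.1 hx))

theorem up_inj {B B' : Subgroup H} : up π B = up π B' ↔ B = B' :=
  ⟨fun h => le_antisymm ((up_le_up hπ).1 h.le) ((up_le_up hπ).1 h.ge), fun h => by rw [h]⟩

theorem up_norm (B : Subgroup H) : up π (NN B) = C ⊓ NN (up π B) :=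
  ext_up inf_le_left fun x => by
    rw [mem_inf, and_iff_right x.2, mem_norm_iff, mem_norm_iff, ← up_cj, up_inj hπ]

theorem card_up [Finite G] {B B' : Subgroup H} (h : Nat.card B = Nat.card B') :
    Nat.card (up π B) = Nat.card (up π B') := by
  haveI : Finite H := Finite.of_surjective π hπ
  have h1 : B.index = B'.index := by
    have e := B.card_mul_index.trans B'.card_mul_index.symm
    rw [h] at e
    exact Nat.eq_of_mul_eq_mul_left Nat.card_pos e
  have h2 : (B.comap π).index = (B'.comap π).index := by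
    rw [index_comap_of_surjective _ hπ, index_comap_of_surjective _ hπ, h1]
  have e := (B.comap π).card_mul_index.trans (B'.comap π).card_mul_index.symm
  rw [h2] at e
  rw [up, up, card_map_of_injective C.subtype_injective, card_map_of_injective C.subtype_injective]
  exact Nat.eq_of_mul_eq_mul_right (Nat.pos_of_ne_zero index_ne_zero_of_finite) e

end up

section
variable {G : Type u} [Group G]

theorem cj_le_cj (n : G) {A B : Subgroup G} : cj n A ≤ cj n B ↔ A ≤ B := by
  refine ⟨fun h => ?_, cj_mono n⟩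
  have := cj_mono n⁻¹ h
  rwa [cj_cj, cj_cj, inv_mul_cancel, cj_one, cj_one] at this

theorem forall_cj {n : G} {A : Subgroup G} {p : G → Prop} :
    (∀ x ∈ cj n A, p x) ↔ ∀ x ∈ A, p (n * x * n⁻¹) := by
  constructor
  · intro h x hx
    exact h _ ⟨x, hx, rfl⟩
  · rintro h _ ⟨x, hx, rfl⟩
    exact h x hx

theorem conj_mem (n x : G) (A : Subgroup G) : n * x * n⁻¹ ∈ cj n A ↔ x ∈ A := by
  rw [mem_cj, show n⁻¹ * (n * x * n⁻¹) * n = x by group]

theorem comm_mem (n x y : G) (A : Subgroup G) :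
    n * x * n⁻¹ * (n * y * n⁻¹) * (n * x * n⁻¹)⁻¹ * (n * y * n⁻¹)⁻¹ ∈ cj n A ↔
      x * y * x⁻¹ * y⁻¹ ∈ A := by
  rw [← conj_mem n _ A]
  congr! 1
  group

theorem cfg_cj {Q Q' X Y : Subgroup G} {z : G} (h : Cfg Q Q' z X Y) (n : G) :
    Cfg (cj n Q) (cj n Q') (n * z * n⁻¹) (cj n X) (cj n Y) where
  xs := h.xs.map_conj n
  xs' := h.xs'.map_conj n
  cQ := by rw [card_cj, card_cj, h.cQ]
  hX := by rw [h.hX, cj_inf, cj_norm]
  hY := by rw [h.hY, cj_inf, cj_norm]
  ny := fun c => h.ny ((cj_le_cj n).1 c)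
  nx := fun c => h.nx ((cj_le_cj n).1 c)
  xc := by
    simp only [forall_cj, conj_mem, comm_mem]
    exact h.xc
  card := by rw [card_cj, card_cj, h.card]
  inj := by
    simp only [forall_cj, conj_mem, comm_mem]
    exact h.inj
  all := by
    simp only [forall_cj, comm_mem]
    exact h.all

theorem sylow_move [Finite G] {N V Y : Subgroup G} (hV : IsPGroup 2 V) (hY : IsPGroup 2 Y)
    (hVN : V ≤ N) (hYN : Y ≤ N) :
    ∃ n ∈ N, ∃ R : Subgroup G, IsPGroup 2 R ∧ R ≤ N ∧ V ≤ R ∧ cj n Y ≤ R := by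
  have : Fact (Nat.Prime 2) := ⟨Nat.prime_two⟩
  obtain ⟨R, hR⟩ := (hV.comap_subtype (K := N)).exists_le_sylow
  obtain ⟨R', hR'⟩ := (hY.comap_subtype (K := N)).exists_le_sylow
  obtain ⟨n, hn⟩ := MulAction.exists_smul_eq N R' R
  refine ⟨n, n.2, (R : Subgroup N).map N.subtype, R.isPGroup'.map _, map_subtype_le _,
    fun x hx => ⟨⟨x, hVN hx⟩, hR hx, rfl⟩, fun x hx => ?_⟩
  rw [mem_cj] at hx
  have hxN : x ∈ N := by
    have := N.mul_mem (N.mul_mem n.2 (hYN hx)) (N.inv_mem n.2)
    simpa [mul_assoc] using this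
  refine ⟨⟨x, hxN⟩, ?_, rfl⟩
  have h1 : (n⁻¹ * ⟨x, hxN⟩ * n : N) ∈ (R' : Subgroup N) := hR' hx
  rw [← hn]
  show _ ∈ ((n • R' : Sylow 2 N) : Subgroup N)
  rw [Sylow.coe_subgroup_smul, Subgroup.mem_pointwise_smul_iff_inv_smul_mem]
  simpa [mul_assoc] using h1

end

theorem moq (ma : MoAStmt.{u}) : MoQStmt.{u} := by
  intro G _ _ V z Q W hV hwc lc wq nsq
  have xs := lc.xs
  set C := C1 z with hC
  have hNC : NN Q ≤ C := xs.normalizer_le
  have hQC : Q ≤ C := xs.le_centralizer
  have hzc : ∀ c ∈ C, c * z * c⁻¹ = z := fun c hc => by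
    rw [mem_centralizer_singleton_iff.1 hc, mul_inv_cancel_right]
  haveI : ((zpowers z).subgroupOf C).Normal := ⟨fun x hx g => by
    rw [mem_subgroupOf, xs.mem_Z] at hx ⊢
    rcases hx with e | e
    · left; simp [e]
    · right
      simp only [coe_mul, InvMemClass.coe_inv, e]
      exact hzc g g.2⟩
  let π : C →* C ⧸ (zpowers z).subgroupOf C := QuotientGroup.mk' _
  have hπ : Function.Surjective π := QuotientGroup.mk'_surjective _
  have hker : ∀ x : C, π x = 1 ↔ (x : G) ∈ zpowers z := fun x => QuotientGroup.eq_one_iff x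
  set A := (Q.subgroupOf C).map π with hA
  have upA : up π A = Q := ext_up hQC fun x => by
    constructor
    · rintro ⟨y, hy, e⟩
      have h1 : π (y⁻¹ * x) = 1 := by rw [map_mul, map_inv, e, inv_mul_cancel]
      have h2 := Q.mul_mem hy (xs.Z_le ((hker _).1 h1))
      simpa using h2
    · intro hx
      exact ⟨x, hx, rfl⟩
  have upN : up π (NN A) = NN Q := by rw [up_norm hπ, upA, inf_eq_right.2 hNC]
  obtain ⟨g, X0, Y0, hY0, hX0, off⟩ := ma _ A
    (by
      rintro _ ⟨y, hy, rfl⟩
      rw [← map_mul, hker]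
      exact xs.sq_mem hy)
    (by
      intro g hg
      obtain ⟨c, rfl⟩ := hπ g
      rw [← up_le_up hπ, up_cj, upA, upN] at hg
      rw [← up_inj hπ, up_cj, upA]
      exact wq c c.2 hg)
    (by
      by_contra hc
      refine nsq fun c hcC => ?_
      have h1 : cj (π ⟨c, hcC⟩) A ⊓ NN A ≤ A := by_contra fun h => hc ⟨_, h⟩
      rwa [← up_le_up hπ, up_inf, up_cj, upA, upN] at h1)
  obtain ⟨c, rfl⟩ := hπ g
  have xs' : XS (cj (c : G) Q) z := by
    have := xs.map_conj (c : G)
    rwa [hzc c c.2] at this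
  have cm : ∀ x y : C, π x * π y * (π x)⁻¹ * (π y)⁻¹ = π (x * y * x⁻¹ * y⁻¹) := fun x y => by
    simp only [map_mul, map_inv]
  have mA : ∀ x : C, π x ∈ A ↔ (x : G) ∈ Q := fun x => by rw [← mem_up, upA]
  have cfg : Cfg Q (cj (c : G) Q) z (up π X0) (up π Y0) :=
    { xs := xs
      xs' := xs'
      cQ := card_cj _ _
      hX := by
        rw [hX0, up_inf, up_norm hπ, up_cj, upA, inf_eq_right.2 xs'.normalizer_le]
      hY := by rw [hY0, up_inf, up_cj, upA, upN]
      ny := fun h => off.ny (by rwa [← up_le_up hπ, upA])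
      nx := fun h => off.nx (by rwa [← up_le_up hπ, upA])
      xc := fun a ha => by
        lift a to C using hQC ha
        rw [mem_up, off.xc _ ((mA a).2 ha)]
        constructor
        · intro h y hy
          lift y to C using up_le _ hy
          have := h _ (mem_up.1 hy)
          rw [cm, ← mem_up] at this
          exact this
        · intro h y hy
          obtain ⟨y, rfl⟩ := hπ y
          rw [cm, ← mem_up]
          exact h _ (mem_up.2 hy)
      card := card_up hπ off.card
      inj := fun t ht htX y hy h => by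
        lift t to C using hQC ht
        lift y to C using up_le _ hy
        refine (mA y).1 (off.inj _ ((mA t).2 ht) (fun e => htX (mem_up.2 e)) _ (mem_up.1 hy) ?_)
        rw [cm, ← mem_up]
        exact h
      all := fun t ht y hy => by
        lift t to C using hQC ht
        lift y to C using up_le _ hy
        have := off.all _ ((mA t).2 ht) _ (mem_up.1 hy)
        rw [cm, ← mem_up] at this
        exact this }
  have hVM : V ≤ MM V z := fun v hv =>
    ⟨le_normalizer hv, mem_centralizer_singleton_iff.2 (comm_of_sq hV hv lc.zV)⟩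
  obtain ⟨n, hn, R, hR, hRN, hVR, hYR⟩ := sylow_move (N := NN Q) (Y := up π Y0) (pg_of_sq hV)
    (xs'.isPGroup.to_le (by rw [cfg.hY]; exact inf_le_left)) (hVM.trans lc.mq)
    (by rw [cfg.hY]; exact inf_le_right)
  have h1 := cfg_cj cfg n
  rw [mem_norm_iff.1 hn, hzc n (hNC hn), cj_cj] at h1
  exact ⟨n * c, C.mul_mem (hNC hn) c.2, _, _, h1,
    hYR.trans (le_inf (hwc.le_norm hR hVR) (hRN.trans hNC))⟩

end Cfsg.Agent.H81.RfMoQ
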